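import Mathlib.GroupTheory.Sylow
import Mathlib.GroupTheory.PGroup
import Mathlib.GroupTheory.Perm.Cycle.Type
import Mathlib.Tactic
import Cfsg.Agent.ClassificationK.TIPairBasic
import Cfsg.Agent.S1781
import Cfsg.Agent.S0215
import Cfsg.Agent.LieExceptional.PlaneFour
import Mathlib
import Cfsg.Agent.FastGrp
import Cfsg.Agent.Prune
set_option linter.all false

section
prune_inst 0x7fbcfefbaff8addfffff7e7ffeffdffdf9fcffffffdffbcbffe1efffefdf6b67fbe5fb8f1fecd8ffdef7e09430f87b53fbffdeffeb6bdc7ffffd5ff45ffbff9fffffbfad51dfb8be1ffe6ffffbf37f9fffffffffffffffffffffffffffffffffffffffffffff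

-- part: TIAbelian/EndOrderThree
section
prune_inst 0x5000000000000000000020600000000000030001c10000000009800080000e00000000100020200000000000001000400210000000000000000000000000000000000000000000000006000000000000000000000000000000000000000000000
set_option linter.all false
open scoped Cfsg.Agent.FastGrp

-- part: TIAbelian/EndDihedral
section
/-!
# Two involutions, and involutions acting on small sets

Elementary facts on the dihedral group generated by two involutions `z, w` and fixed points of an involution on a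
finite set of odd order.
-/

set_option autoImplicit false

namespace Cfsg.Agent.TIAbelian.End

open Subgroup
open Cfsg.Agent.ClassificationK.TIPair (cj mem_normalizer_cj normalizer_of_cj_eq cj_eq_of_mem_normalizer)
open Cfsg.Agent.ClassificationK.TIFamily (mem_cj cj_mul cj_one)

variable {G : Type*} [Group G]

theorem inv_eq_self {z : G} (hz : z * z = 1) : z⁻¹ = z := inv_eq_of_mul_eq_one_left hz

theorem z_pow {z w : G} (hz : z * z = 1) (hw : w * w = 1) (j : ℕ) :
    z * (z * w) ^ j * z = ((z * w) ^ j)⁻¹ := by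
  have hzi := inv_eq_self hz
  have hwi := inv_eq_self hw
  have h1 : z * (z * w) * z⁻¹ = (z * w)⁻¹ := by
    rw [mul_inv_rev, hzi, hwi]
    calc z * (z * w) * z = (z * z) * w * z := by group
      _ = w * z := by rw [hz, one_mul]
  have h2 : (z * (z * w) * z⁻¹) ^ j = z * (z * w) ^ j * z⁻¹ := conj_pow
  rw [h1, inv_pow, hzi] at h2
  exact h2.symm

/-- the reflections `z (zw)^i` are conjugate to `z` or to `w` -/
theorem refl_conj {z w : G} (hz : z * z = 1) (hw : w * w = 1) (i : ℕ) :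
    ∃ y ∈ zpowers (z * w), z * (z * w) ^ i = y⁻¹ * z * y ∨ z * (z * w) ^ i = y⁻¹ * w * y := by
  obtain ⟨j, hj⟩ := Nat.even_or_odd' i
  refine ⟨(z * w) ^ j, ⟨j, by simp⟩, ?_⟩
  have h1 : ((z * w) ^ j)⁻¹ * z = z * (z * w) ^ j := by
    rw [← z_pow hz hw j]
    calc z * (z * w) ^ j * z * z = z * (z * w) ^ j * (z * z) := by group
      _ = z * (z * w) ^ j := by rw [hz, mul_one]
  rcases hj with hj | hj
  · left
    rw [h1, hj, two_mul, pow_add, mul_assoc]
  · right
    have h2 : w = z * (z * w) := by rw [← mul_assoc, hz, one_mul]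
    have h3 : ((z * w) ^ j)⁻¹ * w = z * (z * w) ^ j * (z * w) := by
      calc ((z * w) ^ j)⁻¹ * w = ((z * w) ^ j)⁻¹ * (z * (z * w)) := by rw [← h2]
        _ = (((z * w) ^ j)⁻¹ * z) * (z * w) := by group
        _ = z * (z * w) ^ j * (z * w) := by rw [h1]
    rw [h3, hj, two_mul, pow_add, pow_add, pow_one]
    have h4 : (z * w) ^ j * (z * w) = (z * w) * (z * w) ^ j := by
      rw [← pow_succ, pow_succ']
    calc z * ((z * w) ^ j * (z * w) ^ j * (z * w)) = z * (z * w) ^ j * ((z * w) ^ j * (z * w)) := by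
          simp only [mul_assoc]
      _ = z * (z * w) ^ j * ((z * w) * (z * w) ^ j) := by rw [h4]
      _ = z * (z * w) ^ j * (z * w) * (z * w) ^ j := by simp only [mul_assoc]

/-- odd order: `z` and `w` are conjugate by a power of `z w` -/
theorem exists_conj_of_odd {z w : G} (hz : z * z = 1) (hw : w * w = 1) (ho : Odd (orderOf (z * w))) :
    ∃ y ∈ zpowers (z * w), y⁻¹ * z * y = w := by
  obtain ⟨k, hk⟩ := ho
  refine ⟨(z * w) ^ (k + 1), ⟨(k + 1 : ℕ), by simp only [zpow_natCast]⟩, ?_⟩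
  have h1 : ((z * w) ^ (k + 1))⁻¹ * z = z * (z * w) ^ (k + 1) := by
    rw [← z_pow hz hw (k + 1)]
    calc z * (z * w) ^ (k + 1) * z * z = z * (z * w) ^ (k + 1) * (z * z) := by group
      _ = z * (z * w) ^ (k + 1) := by rw [hz, mul_one]
  rw [h1, mul_assoc, ← pow_add, show k + 1 + (k + 1) = (2 * k + 1) + 1 by ring, ← hk, pow_succ,
    pow_orderOf_eq_one, one_mul, ← mul_assoc, hz, one_mul]

/-- even order: the involution `t` of `⟨z w⟩`; it commutes with `z` and `w`, and `z t` is conjugate to `z` or `w` -/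
theorem exists_central {z w : G} (hz : z * z = 1) (hw : w * w = 1) (hpos : 0 < orderOf (z * w))
    (he : ¬ Odd (orderOf (z * w))) :
    ∃ t ∈ zpowers (z * w), t ≠ 1 ∧ t * t = 1 ∧ z * t = t * z ∧ w * t = t * w ∧
      ∃ y : G, z * t = y⁻¹ * z * y ∨ z * t = y⁻¹ * w * y := by
  rw [Nat.not_odd_iff_even] at he
  obtain ⟨m, hm⟩ := he
  refine ⟨(z * w) ^ m, ⟨(m : ℕ), by simp only [zpow_natCast]⟩, ?_, ?_, ?_, ?_, ?_⟩
  · intro h
    have := orderOf_dvd_of_pow_eq_one h
    have := Nat.le_of_dvd (by omega) this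
    omega
  · rw [← pow_add, ← hm, pow_orderOf_eq_one]
  · have h2 : (z * w) ^ m * (z * w) ^ m = 1 := by rw [← pow_add, ← hm, pow_orderOf_eq_one]
    have h3 := z_pow hz hw m
    rw [inv_eq_self h2] at h3
    calc z * (z * w) ^ m = z * (z * w) ^ m * (z * z) := by rw [hz, mul_one]
      _ = (z * (z * w) ^ m * z) * z := by group
      _ = (z * w) ^ m * z := by rw [h3]
  · have h2 : (z * w) ^ m * (z * w) ^ m = 1 := by rw [← pow_add, ← hm, pow_orderOf_eq_one]
    have h3 := z_pow hz hw m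
    rw [inv_eq_self h2] at h3
    have h4 : z * (z * w) ^ m = (z * w) ^ m * z := by
      calc z * (z * w) ^ m = z * (z * w) ^ m * (z * z) := by rw [hz, mul_one]
        _ = (z * (z * w) ^ m * z) * z := by group
        _ = (z * w) ^ m * z := by rw [h3]
    have h5 : (z * w) * (z * w) ^ m = (z * w) ^ m * (z * w) := by rw [← pow_succ, pow_succ']
    have h6 : w = z * (z * w) := by rw [← mul_assoc, hz, one_mul]
    calc w * (z * w) ^ m = z * ((z * w) * (z * w) ^ m) := by rw [← mul_assoc, ← h6]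
      _ = z * ((z * w) ^ m * (z * w)) := by rw [h5]
      _ = (z * (z * w) ^ m) * (z * w) := by group
      _ = ((z * w) ^ m * z) * (z * w) := by rw [h4]
      _ = (z * w) ^ m * (z * (z * w)) := by group
      _ = (z * w) ^ m * w := by rw [← h6]
  · obtain ⟨y, -, hy⟩ := refl_conj hz hw m
    exact ⟨y, hy⟩

/-- an involution acting on a finite set of odd order fixes a point -/
theorem exists_fix_of_odd {α : Type*} [Finite α] (f : α → α) (hf : ∀ x, f (f x) = x) (ho : Odd (Nat.card α)) :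
    ∃ x, f x = x := by
  classical
  have := Fintype.ofFinite α
  let σ : Equiv.Perm α := ⟨f, f, hf, hf⟩
  have h2 : ¬ 2 ∣ Fintype.card α := by
    rw [← Nat.card_eq_fintype_card]
    intro h
    exact (Nat.not_even_iff_odd.2 ho) (even_iff_two_dvd.2 h)
  have : Fact (Nat.Prime 2) := ⟨Nat.prime_two⟩
  obtain ⟨a, ha⟩ := Equiv.Perm.exists_fixed_point_of_prime (p := 2) (n := 1) h2 (σ := σ) (by
    ext x
    simp [pow_succ, σ, hf])
  exact ⟨a, ha⟩

/-- an involution normalising a subgroup of even order centralises an involution of it: here for subgroups with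
`Nat.card X = 2 ^ (k+1)` -/
theorem exists_commute {X : Subgroup G} [Finite X] {s : G} (hs : s * s = 1) (hX : Even (Nat.card X))
    (hn : ∀ x ∈ X, s * x * s⁻¹ ∈ X) : ∃ x ∈ X, x ≠ 1 ∧ s * x = x * s := by
  classical
  have hsi := inv_eq_self hs
  let α := {x : X // x ≠ 1}
  have hcard : Odd (Nat.card α) := by
    have : Nat.card α = Nat.card X - 1 := by
      have h := Nat.card_congr (Equiv.sumCompl (fun x : X => x = 1))
      rw [Nat.card_sum] at h
      have h1 : Nat.card {x : X // x = 1} = 1 := by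
        rw [Nat.card_eq_one_iff_unique]
        exact ⟨⟨fun a b => Subtype.ext (a.2.trans b.2.symm)⟩, ⟨⟨1, rfl⟩⟩⟩
      change Nat.card {x : X // ¬ x = 1} = _
      omega
    rw [this]
    have hpos : 0 < Nat.card X := Nat.card_pos
    obtain ⟨m, hm⟩ := hX
    exact ⟨m - 1, by omega⟩
  obtain ⟨x, hx⟩ := exists_fix_of_odd (α := α) (fun x => ⟨⟨s * x.1.1 * s⁻¹, hn _ x.1.2⟩, by
    intro h
    apply x.2
    have h1 := congrArg Subtype.val h
    simp only [OneMemClass.coe_one] at h1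
    apply Subtype.ext
    have h2 : (x.1.1 : G) = s⁻¹ * (s * x.1.1 * s⁻¹) * s := by group
    rw [h2, h1]
    simp⟩) (by
    intro x
    apply Subtype.ext
    apply Subtype.ext
    simp only
    rw [hsi]
    calc s * (s * x.1.1 * s) * s = (s * s) * x.1.1 * (s * s) := by group
      _ = x.1.1 := by rw [hs]; simp) hcard
  refine ⟨x.1.1, x.1.2, fun h => x.2 (Subtype.ext h), ?_⟩
  have h1 := congrArg Subtype.val (congrArg Subtype.val hx)
  simp only at h1
  calc s * x.1.1 = (s * x.1.1 * s⁻¹) * s := by group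
    _ = x.1.1 * s := by rw [h1]

end Cfsg.Agent.TIAbelian.End
end

-- part: TIAbelian/EndGeo
section
/-!
# An abstract geometry of elementary abelian 2-subgroups

`E` a conjugacy class of fours groups (`edges`), `V` a conjugation invariant set of elementary abelian groups of
order 16 (`vertices`); each edge lies in exactly two vertices.
-/

set_option autoImplicit false

namespace Cfsg.Agent.TIAbelian.End

open Subgroup
open Cfsg.Agent.ClassificationK.TIPair (cj mem_normalizer_cj normalizer_of_cj_eq cj_eq_of_mem_normalizer)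
open Cfsg.Agent.ClassificationK.TIFamily (mem_cj cj_mul cj_one)

universe u

variable {G : Type u} [Group G]

/-- the two vertices `U`, `W` of the edge `X` -/
structure Ends (E V : Set (Subgroup G)) (X U W : Subgroup G) : Prop where
  hU : U ∈ V
  hW : W ∈ V
  ne : U ≠ W
  leU : X ≤ U
  leW : X ≤ W
  uniq : ∀ U' ∈ V, X ≤ U' → U' = U ∨ U' = W
  comm : ∀ x ∈ X, x ≠ 1 → ∀ Y ∈ E, ∀ y ∈ Y, y ≠ 1 → x * y = y * x → y ∈ U ∨ y ∈ W
  sq : ∀ u ∈ U, ∀ w ∈ W, u ∉ X → w ∉ X → (u * w) * (u * w) ∈ X ∧ (u * w) * (u * w) ≠ 1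

/-- the geometry -/
structure Geo (E V : Set (Subgroup G)) : Prop where
  conjE : ∀ g : G, ∀ X ∈ E, cj g X ∈ E
  conjV : ∀ g : G, ∀ X ∈ V, cj g X ∈ V
  cardE : ∀ X ∈ E, Nat.card X = 4
  ti : ∀ X ∈ E, ∀ Y ∈ E, ∀ x : G, x ∈ X → x ∈ Y → x ≠ 1 → X = Y
  cardV : ∀ U ∈ V, Nat.card U = 16
  sqV : ∀ U ∈ V, ∀ x ∈ U, x * x = 1
  cover : ∀ U ∈ V, ∀ x ∈ U, x ≠ 1 → ∃ X ∈ E, x ∈ X ∧ X ≤ U
  two : ∀ X ∈ E, ∃ U W, Ends E V X U W
  trans : ∀ X ∈ E, ∀ Y ∈ E, ∃ g : G, cj g X = Y

/-- the set of involutions in edges -/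
def II (E : Set (Subgroup G)) : Set G := {z | z ≠ 1 ∧ ∃ X ∈ E, z ∈ X}

theorem cj_mem {g x : G} {X : Subgroup G} (hx : x ∈ X) : g * x * g⁻¹ ∈ cj g X := by
  rw [mem_cj]
  simpa [mul_assoc] using hx

theorem cj_cj (a b : G) (X : Subgroup G) : cj a (cj b X) = cj (a * b) X := (cj_mul a b X).symm

theorem cj_one' (X : Subgroup G) : cj 1 X = X := cj_one X

theorem cj_cancel (g : G) (X : Subgroup G) : cj g⁻¹ (cj g X) = X := by
  rw [cj_cj, inv_mul_cancel, cj_one']

theorem cj_cancel' (g : G) (X : Subgroup G) : cj g (cj g⁻¹ X) = X := by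
  rw [cj_cj, mul_inv_cancel, cj_one']

theorem cj_injective (g : G) : Function.Injective (fun X : Subgroup G => cj g X) := by
  intro X Y h
  have := congrArg (cj g⁻¹) h
  simpa only [cj_cancel] using this

theorem cj_le_cj {g : G} {X Y : Subgroup G} : cj g X ≤ cj g Y ↔ X ≤ Y := by
  constructor
  · intro h x hx
    have := h (cj_mem (g := g) hx)
    rw [mem_cj] at this
    simpa [mul_assoc] using this
  · intro h
    exact Subgroup.map_mono h

theorem cj_eq_comm {g : G} {X Y : Subgroup G} : cj g X = Y ↔ X = cj g⁻¹ Y := by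
  constructor
  · rintro rfl
    exact (cj_cancel g X).symm
  · rintro rfl
    exact cj_cancel' g Y

theorem card_cj (g : G) (X : Subgroup G) : Nat.card (cj g X) = Nat.card X :=
  Nat.card_congr (X.equivMapOfInjective _ (MulAut.conj g).injective).toEquiv.symm

theorem cj_of_abelian {U X : Subgroup G} (hc : ∀ x ∈ U, ∀ y ∈ U, x * y = y * x) (hX : X ≤ U) {u : G}
    (hu : u ∈ U) : cj u X = X := by
  ext y
  rw [mem_cj]
  constructor
  · intro h
    have h1 := hc _ hu _ (hX h)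
    have h2 : y = u⁻¹ * y * u := by
      have : u * (u⁻¹ * y * u) = y * u := by group
      rw [this] at h1
      have h3 : y * u = (u⁻¹ * y * u) * u := h1
      exact mul_right_cancel h3
    rw [h2]; exact h
  · intro h
    have h1 := hc _ hu _ (hX h)
    have h2 : u⁻¹ * y * u = y := by
      rw [mul_assoc, ← h1]; group
    rw [h2]; exact h

theorem Ends.symm {E V : Set (Subgroup G)} (hsq : ∀ U ∈ V, ∀ x ∈ U, x * x = 1) {X U W : Subgroup G}
    (h : Ends E V X U W) : Ends E V X W U where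
  hU := h.hW
  hW := h.hU
  ne := h.ne.symm
  leU := h.leW
  leW := h.leU
  uniq U' hU' hX := (h.uniq U' hU' hX).symm
  comm x hx hx1 Y hY y hy hy1 hxy := (h.comm x hx hx1 Y hY y hy hy1 hxy).symm
  sq w hw u hu hwX huX := by
    have h1 := h.sq u hu w hw huX hwX
    have hui := inv_eq_self (hsq U h.hU u hu)
    have hwi := inv_eq_self (hsq W h.hW w hw)
    have h2 : w * u * (w * u) = ((u * w) * (u * w))⁻¹ := by
      simp only [mul_inv_rev, hui, hwi]
    rw [h2]
    exact ⟨X.inv_mem h1.1, fun h => h1.2 (inv_eq_one.1 h)⟩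

variable {E V : Set (Subgroup G)}

theorem II_conj (hg : Geo E V) {z : G} (hz : z ∈ II E) (g : G) : g * z * g⁻¹ ∈ II E := by
  obtain ⟨hz1, X, hX, hzX⟩ := hz
  refine ⟨?_, cj g X, hg.conjE g X hX, cj_mem hzX⟩
  intro h
  apply hz1
  have : z = g⁻¹ * (g * z * g⁻¹) * g := by group
  rw [this, h]; group

theorem II_conj' (hg : Geo E V) {z : G} (hz : z ∈ II E) (g : G) : g⁻¹ * z * g ∈ II E := by
  have := II_conj hg hz g⁻¹
  rwa [inv_inv] at this

theorem Geo.mul_comm (hg : Geo E V) {U : Subgroup G} (hU : U ∈ V) {x y : G} (hx : x ∈ U) (hy : y ∈ U) :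
    x * y = y * x := by
  have h1 := hg.sqV U hU _ (U.mul_mem hx hy)
  have hxi := inv_eq_self (hg.sqV U hU x hx)
  have hyi := inv_eq_self (hg.sqV U hU y hy)
  have h2 := inv_eq_self h1
  rw [mul_inv_rev, hxi, hyi] at h2
  exact h2.symm

theorem Geo.II_of_mem (hg : Geo E V) {U : Subgroup G} (hU : U ∈ V) {x : G} (hx : x ∈ U) (hx1 : x ≠ 1) :
    x ∈ II E := by
  obtain ⟨X, hX, hxX, -⟩ := hg.cover U hU x hx hx1
  exact ⟨hx1, X, hX, hxX⟩

theorem Geo.sqE (hg : Geo E V) {X : Subgroup G} (hX : X ∈ E) {x : G} (hx : x ∈ X) : x * x = 1 := by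
  obtain ⟨U, W, h⟩ := hg.two X hX
  exact hg.sqV U h.hU x (h.leU hx)

theorem Geo.II_sq (hg : Geo E V) {z : G} (hz : z ∈ II E) : z * z = 1 := by
  obtain ⟨-, X, hX, hzX⟩ := hz
  exact hg.sqE hX hzX

theorem Geo.le_of_mem (hg : Geo E V) {X U : Subgroup G} (hX : X ∈ E) (hU : U ∈ V) {z : G} (hz1 : z ≠ 1)
    (hzX : z ∈ X) (hzU : z ∈ U) : X ≤ U := by
  obtain ⟨Y, hY, hzY, hYU⟩ := hg.cover U hU z hzU hz1
  rw [hg.ti X hX Y hY z hzX hzY hz1]
  exact hYU

theorem Geo.other (hg : Geo E V) {X U : Subgroup G} (hX : X ∈ E) (hU : U ∈ V) (hXU : X ≤ U) :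
    ∃ W, Ends E V X U W := by
  obtain ⟨U', W', h⟩ := hg.two X hX
  rcases h.uniq U hU hXU with rfl | rfl
  · exact ⟨W', h⟩
  · exact ⟨U', h.symm hg.sqV⟩

theorem Geo.endsV (hg : Geo E V) {X U W : Subgroup G} (hX : X ∈ E) (hU : U ∈ V) (hW : W ∈ V) (hne : U ≠ W)
    (hXU : X ≤ U) (hXW : X ≤ W) : Ends E V X U W := by
  obtain ⟨W', h⟩ := hg.other hX hU hXU
  rcases h.uniq W hW hXW with h1 | h1
  · exact absurd h1.symm hne
  · rw [h1]; exact h

theorem Ends.conj (hg : Geo E V) {X U W : Subgroup G} (hX : X ∈ E) (h : Ends E V X U W) (g : G) :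
    Ends E V (cj g X) (cj g U) (cj g W) :=
  hg.endsV (hg.conjE g X hX) (hg.conjV g U h.hU) (hg.conjV g W h.hW) (fun h1 => h.ne (cj_injective g h1))
    (cj_le_cj.2 h.leU) (cj_le_cj.2 h.leW)

theorem Geo.mul_mem_II (hg : Geo E V) {z w : G} (hz : z ∈ II E) (hw : w ∈ II E) (hzw : z * w = w * z)
    (hne : z ≠ w) : z * w ∈ II E := by
  obtain ⟨hz1, X, hX, hzX⟩ := id hz
  obtain ⟨hw1, Y, hY, hwY⟩ := id hw
  have h1 : z * w ≠ 1 := by
    intro h
    apply hne
    have := hg.II_sq hw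
    calc z = z * (w * w) := by rw [this, mul_one]
      _ = (z * w) * w := by group
      _ = w := by rw [h, one_mul]
  obtain ⟨U, W, h⟩ := hg.two X hX
  rcases h.comm z hzX hz1 Y hY w hwY hw1 hzw with h2 | h2
  · exact hg.II_of_mem h.hU (U.mul_mem (h.leU hzX) h2) h1
  · exact hg.II_of_mem h.hW (W.mul_mem (h.leW hzX) h2) h1

theorem Ends.mem_of_mem (hg : Geo E V) {X U W : Subgroup G} (h : Ends E V X U W) {x : G} (hU : x ∈ U)
    (hW : x ∈ W) : x ∈ X := by
  by_contra hx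
  have h1 := h.sq x hU x hW hx hx
  have h2 := hg.sqV U h.hU x hU
  apply h1.2
  rw [h2, one_mul]

theorem Geo.eq_of_le (hg : Geo E V) {X Y : Subgroup G} (hX : X ∈ E) (hY : Y ∈ E) (h : X ≤ Y) : X = Y := by
  have h1 : ∃ x ∈ X, x ≠ 1 := by
    by_contra hc
    push Not at hc
    have : X = ⊥ := by
      rw [eq_bot_iff]
      intro x hx
      exact mem_bot.2 (hc x hx)
    have h4 := hg.cardE X hX
    rw [this, Subgroup.card_bot] at h4
    omega
  obtain ⟨x, hx, hx1⟩ := h1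
  exact hg.ti X hX Y hY x hx (h hx) hx1

theorem Geo.exists_ne_one (hg : Geo E V) {X : Subgroup G} (hX : X ∈ E) : ∃ x ∈ X, x ≠ 1 := by
  by_contra hc
  push Not at hc
  have : X = ⊥ := by
    rw [eq_bot_iff]
    intro x hx
    exact mem_bot.2 (hc x hx)
  have h4 := hg.cardE X hX
  rw [this, Subgroup.card_bot] at h4
  omega

/-- two distinct edges lie in at most one vertex -/
theorem Geo.eq_vertex (hg : Geo E V) {X Y U W : Subgroup G} (hX : X ∈ E) (hY : Y ∈ E) (hXY : X ≠ Y)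
    (hU : U ∈ V) (hW : W ∈ V) (hXU : X ≤ U) (hXW : X ≤ W) (hYU : Y ≤ U) (hYW : Y ≤ W) : U = W := by
  by_contra hne
  have h := hg.endsV hX hU hW hne hXU hXW
  apply hXY
  symm
  apply hg.eq_of_le hY hX
  intro y hy
  exact h.mem_of_mem hg (hYU hy) (hYW hy)

/-- if `g` maps one nontrivial element of the edge `X` into the edge `Y`, it maps `X` to `Y` -/
theorem Geo.cj_eq (hg : Geo E V) {X Y : Subgroup G} (hX : X ∈ E) (hY : Y ∈ E) {g x : G} (hx : x ∈ X)
    (hx1 : x ≠ 1) (h : g * x * g⁻¹ ∈ Y) : cj g X = Y := by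
  refine hg.ti _ (hg.conjE g X hX) _ hY (g * x * g⁻¹) (cj_mem hx) h ?_
  intro h1
  apply hx1
  have : x = g⁻¹ * (g * x * g⁻¹) * g := by group
  rw [this, h1]; group

theorem Geo.cj_eq_of_comm (hg : Geo E V) {X : Subgroup G} (hX : X ∈ E) {g x : G} (hx : x ∈ X)
    (hx1 : x ≠ 1) (h : g * x = x * g) : cj g X = X := by
  apply hg.cj_eq hX hX hx hx1
  rw [h]; simpa using hx

theorem Ends.cj_cases {X U W : Subgroup G} (h : Ends E V X U W) (hg : Geo E V) {g : G}
    (hgX : cj g X = X) : (cj g U = U ∧ cj g W = W) ∨ (cj g U = W ∧ cj g W = U) := by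
  have h1 := h.uniq (cj g U) (hg.conjV g U h.hU) (by rw [← hgX]; exact cj_le_cj.2 h.leU)
  have h2 := h.uniq (cj g W) (hg.conjV g W h.hW) (by rw [← hgX]; exact cj_le_cj.2 h.leW)
  rcases h1 with h1 | h1 <;> rcases h2 with h2 | h2
  · exfalso
    apply h.ne
    apply cj_injective g
    simp only
    rw [h1, h2]
  · exact Or.inl ⟨h1, h2⟩
  · exact Or.inr ⟨h1, h2⟩
  · exfalso
    apply h.ne
    apply cj_injective g
    simp only
    rw [h1, h2]

theorem Ends.fix {X U W : Subgroup G} (h : Ends E V X U W) (hg : Geo E V) {u : G} (hu : u ∈ U) :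
    cj u X = X ∧ cj u U = U ∧ cj u W = W := by
  have hc : ∀ x ∈ U, ∀ y ∈ U, x * y = y * x := fun x hx y hy => hg.mul_comm h.hU hx hy
  have h1 : cj u X = X := cj_of_abelian hc h.leU hu
  have h2 : cj u U = U := cj_of_abelian hc le_rfl hu
  refine ⟨h1, h2, ?_⟩
  rcases h.cj_cases hg h1 with h3 | h3
  · exact h3.2
  · exact absurd (h2.symm.trans h3.1) h.ne

theorem Ends.fix' {X U W : Subgroup G} (h : Ends E V X U W) (hg : Geo E V) {w : G} (hw : w ∈ W) :
    cj w X = X ∧ cj w U = U ∧ cj w W = W := by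
  obtain ⟨h1, h2, h3⟩ := (h.symm hg.sqV).fix hg hw
  exact ⟨h1, h3, h2⟩

/-- an involution `z` of an edge which normalises the vertex `e` lies in `e` or in a neighbour of `e` -/
theorem Geo.fix_mem (hg : Geo E V) [Finite G] {e : Subgroup G} (he : e ∈ V) {z : G} (hz : z ∈ II E)
    (hze : cj z e = e) : z ∈ e ∨ ∃ X ∈ E, ∃ f, Ends E V X e f ∧ z ∈ f := by
  obtain ⟨x, hx, hx1, hzx⟩ := exists_commute (X := e) (hg.II_sq hz) (by
    rw [hg.cardV e he]; decide) (by
    intro x hx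
    have := cj_mem (g := z) hx
    rwa [hze] at this)
  obtain ⟨X, hX, hxX, hXe⟩ := hg.cover e he x hx hx1
  obtain ⟨f, hf⟩ := hg.other hX he hXe
  obtain ⟨hz1, Y, hY, hzY⟩ := hz
  rcases hf.comm x hxX hx1 Y hY z hzY hz1 hzx.symm with h | h
  · exact Or.inl h
  · exact Or.inr ⟨X, hX, f, hf, h⟩

theorem Ends.not_norm {X U W : Subgroup G} [Finite G] (h : Ends E V X U W) (hg : Geo E V) (hX : X ∈ E) {w : G}
    (hw : w ∈ W) (hwX : w ∉ X) {Y : Subgroup G} (hY : Y ∈ E) (hYU : Y ≤ U) (hne : Y ≠ X) : cj w Y ≠ Y := by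
  intro hc
  obtain ⟨y, hy, hy1, hwy⟩ := exists_commute (X := Y) (hg.sqV W h.hW w hw) (by
    rw [hg.cardE Y hY]; decide) (by
    intro x hx
    have := cj_mem (g := w) hx
    rwa [hc] at this)
  have hyX : y ∉ X := fun h1 => hne (hg.ti Y hY X hX y hy h1 hy1)
  have h1 := (h.sq y (hYU hy) w hw hyX hwX).2
  apply h1
  have h2 := hg.sqE hY hy
  have h3 := hg.sqV W h.hW w hw
  calc y * w * (y * w) = y * (w * y) * w := by group
    _ = y * (y * w) * w := by rw [hwy]
    _ = (y * y) * (w * w) := by group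
    _ = 1 := by rw [h2, h3, one_mul]

end Cfsg.Agent.TIAbelian.End
end

-- part: TIAbelian/EndBase
section
/-!
# TI-subgroups isomorphic to `Z₄ × Z₄`: basic facts on adjacent pairs
-/

set_option autoImplicit false

namespace Cfsg.Agent.TIAbelian.End

open Subgroup
open Cfsg.Agent.ClassificationK.TIPair (cj mem_normalizer_cj normalizer_of_cj_eq cj_eq_of_mem_normalizer)
open Cfsg.Agent.ClassificationK.TIFamily (mem_cj cj_mul cj_one)

universe u

variable {G : Type u} [Group G]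

/-- the subgroup generated by the elements of order at most 2 -/
def Om (X : Subgroup G) : Subgroup G := closure {x | x ∈ X ∧ x * x = 1}

theorem mem_Om {X : Subgroup G} (hc : ∀ x ∈ X, ∀ y ∈ X, x * y = y * x) {x : G} :
    x ∈ Om X ↔ x ∈ X ∧ x * x = 1 := by
  constructor
  · intro h
    induction h using closure_induction with
    | mem x hx => exact hx
    | one => exact ⟨X.one_mem, by simp⟩
    | mul x y _ _ hx hy =>
      refine ⟨X.mul_mem hx.1 hy.1, ?_⟩
      calc x * y * (x * y) = x * (y * x) * y := by group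
        _ = x * (x * y) * y := by rw [hc x hx.1 y hy.1]
        _ = (x * x) * (y * y) := by group
        _ = 1 := by rw [hx.2, hy.2, one_mul]
    | inv x _ hx =>
      refine ⟨X.inv_mem hx.1, ?_⟩
      have : x⁻¹ * x⁻¹ = (x * x)⁻¹ := by group
      rw [this, hx.2, inv_one]
  · intro h
    exact subset_closure h

theorem cj_comm {X : Subgroup G} (hc : ∀ x ∈ X, ∀ y ∈ X, x * y = y * x) (g : G) :
    ∀ x ∈ cj g X, ∀ y ∈ cj g X, x * y = y * x := by
  intro x hx y hy
  rw [mem_cj] at hx hy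
  have h := hc _ hx _ hy
  have h1 : x * y = g * ((g⁻¹ * x * g) * (g⁻¹ * y * g)) * g⁻¹ := by group
  have h2 : y * x = g * ((g⁻¹ * y * g) * (g⁻¹ * x * g)) * g⁻¹ := by group
  rw [h1, h2, h]

theorem cj_Om {X : Subgroup G} (hc : ∀ x ∈ X, ∀ y ∈ X, x * y = y * x) (g : G) :
    cj g (Om X) = Om (cj g X) := by
  ext x
  rw [mem_cj, mem_Om hc, mem_Om (cj_comm hc g), mem_cj]
  have : g⁻¹ * x * g * (g⁻¹ * x * g) = g⁻¹ * (x * x) * g := by group
  rw [this]
  constructor
  · rintro ⟨h1, h2⟩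
    refine ⟨h1, ?_⟩
    have : x * x = g * (g⁻¹ * (x * x) * g) * g⁻¹ := by group
    rw [this, h2]; group
  · rintro ⟨h1, h2⟩
    refine ⟨h1, ?_⟩
    rw [h2]; group

/-- `B ≅ Z₄ × Z₄` is a TI-subgroup which is the only conjugate of itself in its normaliser -/
structure Base (B : Subgroup G) : Prop where
  comm : ∀ x ∈ B, ∀ y ∈ B, x * y = y * x
  card : Nat.card B = 16
  exp : ∀ x ∈ B, x * x * (x * x) = 1
  om : Nat.card (Om B) = 4
  ti : ∀ g : G, ∀ x ∈ B, x ≠ 1 → g * x * g⁻¹ ∈ B → cj g B = B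
  wc : ∀ g : G, cj g B ≤ normalizer (B : Set G) → cj g B = B

/-- the conjugates of `B` -/
def Cl (B : Subgroup G) : Set (Subgroup G) := {X | ∃ g : G, X = cj g B}

theorem self_mem_Cl (B : Subgroup G) : B ∈ Cl B := ⟨1, (cj_one' B).symm⟩

theorem cj_mem_Cl {B X : Subgroup G} (h : X ∈ Cl B) (g : G) : cj g X ∈ Cl B := by
  obtain ⟨k, rfl⟩ := h
  exact ⟨g * k, cj_cj g k B⟩

theorem Base.conj {B : Subgroup G} (h : Base B) (g : G) : Base (cj g B) where
  comm := cj_comm h.comm g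
  card := by rw [card_cj]; exact h.card
  exp := by
    intro x hx
    rw [mem_cj] at hx
    have h1 := h.exp _ hx
    have h2 : x * x * (x * x) = g * (g⁻¹ * x * g * (g⁻¹ * x * g) * (g⁻¹ * x * g * (g⁻¹ * x * g))) * g⁻¹ := by
      group
    rw [h2, h1]; group
  om := by rw [← cj_Om h.comm, card_cj]; exact h.om
  ti := by
    intro k x hx hx1 hk
    rw [mem_cj] at hx hk
    have h1 := h.ti (g⁻¹ * k * g) (g⁻¹ * x * g) hx (by
      intro h2
      apply hx1
      have : x = g * (g⁻¹ * x * g) * g⁻¹ := by group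
      rw [this, h2]; group) (by convert hk using 1; group)
    have h2 := congrArg (cj g) h1
    rw [cj_cj] at h2
    rw [cj_cj, ← h2]
    have h3 : g * (g⁻¹ * k * g) = k * g := by group
    rw [h3]
  wc := by
    intro k hk
    have h1 := h.wc (g⁻¹ * k * g) (by
      intro x hx
      rw [mem_cj] at hx
      have h2 : g * x * g⁻¹ ∈ cj k (cj g B) := by
        rw [cj_cj, mem_cj]
        convert hx using 1; group
      have h3 := mem_normalizer_cj.1 (hk h2)
      convert h3 using 1; group)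
    have h2 := congrArg (cj g) h1
    rw [cj_cj] at h2
    rw [cj_cj, ← h2]
    have h3 : g * (g⁻¹ * k * g) = k * g := by group
    rw [h3]

theorem Base.of_mem {B X : Subgroup G} (h : Base B) (hX : X ∈ Cl B) : Base X := by
  obtain ⟨g, rfl⟩ := hX
  exact h.conj g

theorem Cl_eq {B X : Subgroup G} (hX : X ∈ Cl B) : Cl X = Cl B := by
  obtain ⟨g, rfl⟩ := hX
  ext Y
  constructor
  · rintro ⟨k, rfl⟩
    exact ⟨k * g, cj_cj k g B⟩
  · rintro ⟨k, rfl⟩
    refine ⟨k * g⁻¹, ?_⟩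
    rw [cj_cj, inv_mul_cancel_right]

theorem Base.ti2 {B X Y : Subgroup G} (h : Base B) (hX : X ∈ Cl B) (hY : Y ∈ Cl B) {x : G} (hxX : x ∈ X)
    (hxY : x ∈ Y) (hx1 : x ≠ 1) : X = Y := by
  rw [← Cl_eq hY] at hX
  obtain ⟨g, rfl⟩ := hX
  rw [mem_cj] at hxX
  refine (h.of_mem hY).ti g _ hxX ?_ ?_
  · intro h2
    apply hx1
    have : x = g * (g⁻¹ * x * g) * g⁻¹ := by group
    rw [this, h2]; group
  · convert hxY using 1; group

theorem Base.cj_of_comm {B : Subgroup G} (h : Base B) {g x : G} (hx : x ∈ B) (hx1 : x ≠ 1)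
    (hgx : g * x = x * g) : cj g B = B := by
  apply h.ti g x hx hx1
  rw [hgx]; simpa using hx

theorem Base.cj_mem_self {B : Subgroup G} (h : Base B) {x : G} (hx : x ∈ B) : cj x B = B :=
  cj_of_abelian h.comm le_rfl hx

/-- `A` and `B` are adjacent -/
structure Adj (B A : Subgroup G) : Prop where
  base : Base B
  mem : A ∈ Cl B
  ne : A ≠ B
  ex : ∃ a ∈ A, a ≠ 1 ∧ cj a B = B

theorem Om_le {X : Subgroup G} (hc : ∀ x ∈ X, ∀ y ∈ X, x * y = y * x) : Om X ≤ X := fun _ hx =>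
  ((mem_Om hc).1 hx).1

theorem Base.sq_mem_Om {B : Subgroup G} (h : Base B) {b : G} (hb : b ∈ B) : b * b ∈ Om B :=
  (mem_Om h.comm).2 ⟨B.mul_mem hb hb, h.exp b hb⟩

theorem Base.Om_sq {B : Subgroup G} (h : Base B) {y : G} (hy : y ∈ Om B) : y * y = 1 :=
  ((mem_Om h.comm).1 hy).2

theorem Base.Om_le {B : Subgroup G} (h : Base B) : Om B ≤ B := End.Om_le h.comm

theorem Adj.baseA {B A : Subgroup G} (h : Adj B A) : Base A := h.base.of_mem h.mem

/-- `N_A(B)` consists of involutions -/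
theorem Adj.sq_one [Finite G] {B A : Subgroup G} (h : Adj B A) {a : G} (ha : a ∈ A) (haB : cj a B = B) :
    a * a = 1 := by
  have hA := h.baseA
  obtain ⟨g, hg⟩ : B ∈ Cl A := by rw [Cl_eq h.mem]; exact self_mem_Cl B
  have hA2 : IsPGroup 2 A := IsPGroup.of_card (n := 4) (by rw [hA.card]; norm_num)
  have hne : A.map (MulAut.conj g).toMonoidHom ≠ A := by
    intro h1
    apply h.ne
    rw [hg]
    exact h1.symm
  rcases Cfsg.Agent.S1781.result A hA2 ⟨⟨fun a b => Subtype.ext (hA.comm a a.2 b b.2)⟩⟩ (by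
    intro k
    by_cases hk : A.map (MulAut.conj k).toMonoidHom ⊓ A = ⊥
    · exact Or.inr hk
    · left
      have h2 : ∃ x ∈ cj k A ⊓ A, x ≠ 1 := by
        by_contra hc
        push Not at hc
        exact hk (eq_bot_iff.2 fun x hx => mem_bot.2 (hc x hx))
      obtain ⟨x, hx, hx1⟩ := h2
      exact hA.ti2 ⟨k, rfl⟩ (self_mem_Cl A) hx.1 hx.2 hx1) g hne with h1 | h1
  · have h2 := h1.2 a ⟨ha, by
      have : (A.map (MulAut.conj g).toMonoidHom : Subgroup G) = B := hg.symm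
      rw [this]
      exact normalizer_of_cj_eq haB⟩
    rwa [pow_two] at h2
  · exfalso
    apply h.ne
    obtain ⟨k, hk⟩ := h.mem
    rw [hk]
    apply h.base.wc
    intro x hx
    have h2 : (A.map (MulAut.conj g).toMonoidHom : Subgroup G) = B := hg.symm
    rw [h2, commutator_eq_bot_iff_le_centralizer] at h1
    rw [← hk] at hx
    have h3 := mem_centralizer_iff.1 (h1 hx)
    rw [mem_normalizer_iff]
    intro y
    constructor
    · intro hy
      rw [← h3 y hy]; simpa using hy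
    · intro hy
      have h4 := h3 _ hy
      have h5 : y = x⁻¹ * (x * y * x⁻¹) * x := by group
      rw [h5]
      have h6 : x⁻¹ * (x * y * x⁻¹) * x = x * y * x⁻¹ := by
        rw [mul_assoc, h4]; group
      rw [h6]; exact hy

theorem conj_mem {g x : G} {X : Subgroup G} (h : cj g X = X) (hx : x ∈ X) : g * x * g⁻¹ ∈ X := by
  have := cj_mem (g := g) hx
  rwa [h] at this

end Cfsg.Agent.TIAbelian.End
end

-- part: TIAbelian/EndMembers
section
/-!
# Members of a vertex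
-/

set_option autoImplicit false

namespace Cfsg.Agent.TIAbelian.End

open Subgroup
open Cfsg.Agent.ClassificationK.TIPair (cj mem_normalizer_cj normalizer_of_cj_eq cj_eq_of_mem_normalizer)
open Cfsg.Agent.ClassificationK.TIFamily (mem_cj cj_mul cj_one)

universe u

variable {G : Type u} [Group G] {E V : Set (Subgroup G)}

open scoped Classical in
/-- nontrivial elements of a subgroup -/
noncomputable def pts [Fintype G] (X : Subgroup G) : Finset G := Finset.univ.filter (fun x => x ∈ X ∧ x ≠ 1)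

open scoped Classical in
/-- elements of `U` outside `X` -/
noncomputable def dif [Fintype G] (U X : Subgroup G) : Finset G := Finset.univ.filter (fun x => x ∈ U ∧ x ∉ X)

theorem mem_pts [Fintype G] {X : Subgroup G} {x : G} : x ∈ pts X ↔ x ∈ X ∧ x ≠ 1 := by
  simp [pts]

theorem mem_dif [Fintype G] {U X : Subgroup G} {x : G} : x ∈ dif U X ↔ x ∈ U ∧ x ∉ X := by
  simp [dif]

open scoped Classical in
theorem card_filter_mem [Fintype G] (X : Subgroup G) :
    (Finset.univ.filter (fun x => x ∈ X)).card = Nat.card X := by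
  rw [Nat.card_eq_fintype_card, Fintype.card_subtype]

theorem card_pts [Fintype G] (X : Subgroup G) : (pts X).card + 1 = Nat.card X := by
  classical
  rw [← card_filter_mem]
  have : Finset.univ.filter (fun x => x ∈ X) = insert 1 (pts X) := by
    ext x
    simp only [Finset.mem_filter, Finset.mem_univ, true_and, Finset.mem_insert, mem_pts]
    constructor
    · intro h
      by_cases hx : x = 1
      · exact Or.inl hx
      · exact Or.inr ⟨h, hx⟩
    · rintro (rfl | h)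
      · exact X.one_mem
      · exact h.1
  rw [this, Finset.card_insert_of_notMem]
  rw [mem_pts]; simp

theorem card_dif [Fintype G] {U X : Subgroup G} (h : X ≤ U) : (dif U X).card + Nat.card X = Nat.card U := by
  classical
  rw [← card_filter_mem, ← card_filter_mem, ← Finset.card_union_of_disjoint]
  · congr 1
    ext x
    simp only [Finset.mem_union, mem_dif, Finset.mem_filter, Finset.mem_univ, true_and]
    constructor
    · rintro (h1 | h1)
      · exact h1.1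
      · exact h h1
    · intro h1
      by_cases hx : x ∈ X
      · exact Or.inr hx
      · exact Or.inl ⟨h1, hx⟩
  · rw [Finset.disjoint_left]
    intro x hx hx2
    rw [mem_dif] at hx
    simp only [Finset.mem_filter, Finset.mem_univ, true_and] at hx2
    exact hx.2 hx2

/-- the edges in the vertex `U` -/
noncomputable def mems [Finite G] (E : Set (Subgroup G)) (U : Subgroup G) : Finset (Subgroup G) :=
  (Set.toFinite {X : Subgroup G | X ∈ E ∧ X ≤ U}).toFinset

theorem mem_mems [Finite G] {U X : Subgroup G} : X ∈ mems E U ↔ X ∈ E ∧ X ≤ U := by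
  simp [mems]

theorem Geo.card_mems (hg : Geo E V) [Finite G] {U : Subgroup G} (hU : U ∈ V) : (mems E U).card = 5 := by
  classical
  have := Fintype.ofFinite G
  have h1 : (mems E U).biUnion (fun X => pts X) = pts U := by
    ext x
    simp only [Finset.mem_biUnion, mem_mems, mem_pts]
    constructor
    · rintro ⟨X, ⟨-, hXU⟩, hx, hx1⟩
      exact ⟨hXU hx, hx1⟩
    · rintro ⟨hx, hx1⟩
      obtain ⟨X, hX, hxX, hXU⟩ := hg.cover U hU x hx hx1
      exact ⟨X, ⟨hX, hXU⟩, hxX, hx1⟩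
  have h2 : ((mems E U).biUnion (fun X => pts X)).card = ∑ X ∈ mems E U, (pts X).card := by
    apply Finset.card_biUnion
    intro X hX Y hY hne
    change Disjoint (pts X) (pts Y)
    rw [Finset.disjoint_left]
    intro x hx hy
    rw [mem_pts] at hx hy
    exact hne (hg.ti X (mem_mems.1 hX).1 Y (mem_mems.1 hY).1 x hx.1 hy.1 hx.2)
  have h3 : ∑ X ∈ mems E U, (pts X).card = (mems E U).card * 3 := by
    apply Finset.sum_const_nat
    intro X hX
    have h4 := card_pts X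
    rw [hg.cardE X (mem_mems.1 hX).1] at h4
    omega
  have h4 := card_pts U
  rw [hg.cardV U hU] at h4
  rw [h1] at h2
  omega

/-- transitivity: a suitable element `w` of the neighbour `f` of `e` at `Z` moves `X` to `Y` -/
theorem Geo.exists_move (hg : Geo E V) [Finite G] {e f X Y Z : Subgroup G} (hX : X ∈ mems E e)
    (hY : Y ∈ mems E e) (hZ : Z ∈ E) (hXZ : X ≠ Z) (hYZ : Y ≠ Z) (hf : Ends E V Z e f) :
    ∃ w ∈ f, cj w X = Y := by
  classical
  have := Fintype.ofFinite G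
  rw [mem_mems] at hX hY
  let M : Finset (Subgroup G) := (mems E e).erase Z
  have hM : M.card = 4 := by
    rw [Finset.card_erase_of_mem (mem_mems.2 ⟨hZ, hf.leU⟩), hg.card_mems hf.hU]
  let s : Finset G := Finset.univ.filter (fun x => x ∈ f)
  have hs : s.card = 16 := by
    rw [card_filter_mem, hg.cardV f hf.hW]
  have hsub : s.image (fun w => cj w X) ⊆ M := by
    intro T hT
    rw [Finset.mem_image] at hT
    obtain ⟨w, hw, rfl⟩ := hT
    have hwf : w ∈ f := by simpa [s] using hw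
    obtain ⟨h1, h2, h3⟩ := hf.fix' hg hwf
    rw [Finset.mem_erase, mem_mems]
    refine ⟨?_, hg.conjE w X hX.1, ?_⟩
    · intro h
      apply hXZ
      apply cj_injective w
      simp only
      rw [h, h1]
    · rw [← h2]
      exact cj_le_cj.2 hX.2
  have hfib : s.card ≤ 4 * (s.image (fun w => cj w X)).card := by
    apply Finset.card_le_mul_card_image
    intro T hT
    rw [Finset.mem_image] at hT
    obtain ⟨w₀, hw₀, rfl⟩ := hT
    have hw₀f : w₀ ∈ f := by simpa [s] using hw₀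
    rw [← hg.cardE Z hZ, ← card_filter_mem]
    apply Finset.card_le_card_of_injOn (fun w => w₀⁻¹ * w)
    · intro w hw
      simp only [s, Finset.coe_filter, Finset.mem_filter, Finset.mem_univ, true_and, Set.mem_ofPred_eq] at hw
      simp only [Finset.coe_filter, Finset.mem_univ, true_and, Set.mem_ofPred_eq]
      by_contra hc
      apply hf.not_norm hg hZ (f.mul_mem (f.inv_mem hw₀f) hw.1) hc hX.1 hX.2 hXZ
      rw [← cj_cj, hw.2, cj_cancel]
    · intro a _ b _ hab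
      exact mul_left_cancel hab
  have heq : s.image (fun w => cj w X) = M := by
    apply Finset.eq_of_subset_of_card_le hsub
    rw [hM]
    omega
  have hYM : Y ∈ M := by
    rw [Finset.mem_erase, mem_mems]
    exact ⟨hYZ, hY⟩
  rw [← heq, Finset.mem_image] at hYM
  obtain ⟨w, hw, hwY⟩ := hYM
  exact ⟨w, by simpa [s] using hw, hwY⟩

/-- a member different from two given ones -/
theorem Geo.exists_third (hg : Geo E V) [Finite G] {U : Subgroup G} (hU : U ∈ V) (X Y : Subgroup G) :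
    ∃ Z ∈ mems E U, Z ≠ X ∧ Z ≠ Y := by
  classical
  by_contra hc
  push Not at hc
  have h1 : mems E U ⊆ {X, Y} := by
    intro Z hZ
    rw [Finset.mem_insert, Finset.mem_singleton]
    by_cases h : Z = X
    · exact Or.inl h
    · exact Or.inr (hc Z hZ h)
  have h2 := Finset.card_le_card h1
  rw [hg.card_mems hU] at h2
  have h3 : ({X, Y} : Finset (Subgroup G)).card ≤ 2 := Finset.card_le_two
  omega

open scoped Classical in
/-- the other vertex of the edge `X` of `U` -/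
noncomputable def oth (E V : Set (Subgroup G)) (X U : Subgroup G) : Subgroup G :=
  if h : ∃ W, Ends E V X U W then h.choose else ⊥

theorem Ends.oth_eq {X U W : Subgroup G} (h : Ends E V X U W) : oth E V X U = W := by
  have h1 : ∃ W, Ends E V X U W := ⟨W, h⟩
  have h2 : Ends E V X U (oth E V X U) := by
    rw [oth, dif_pos h1]
    exact h1.choose_spec
  rcases h.uniq _ h2.hW h2.leW with h3 | h3
  · exact absurd h3.symm h2.ne
  · exact h3

theorem Geo.ends_oth (hg : Geo E V) {X U : Subgroup G} (hX : X ∈ E) (hU : U ∈ V) (hXU : X ≤ U) :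
    Ends E V X U (oth E V X U) := by
  obtain ⟨W, h⟩ := hg.other hX hU hXU
  rw [h.oth_eq]; exact h

end Cfsg.Agent.TIAbelian.End
end

-- part: TIAbelian/EndAdj
section
/-!
# Adjacent pairs: commutators
-/

set_option autoImplicit false
set_option linter.unusedSectionVars false

namespace Cfsg.Agent.TIAbelian.End

open Subgroup
open Cfsg.Agent.ClassificationK.TIPair (cj mem_normalizer_cj normalizer_of_cj_eq cj_eq_of_mem_normalizer)
open Cfsg.Agent.ClassificationK.TIFamily (mem_cj cj_mul cj_one)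

universe u

variable {G : Type u} [Group G]

/-- counting: a map from `S` to `T` whose fibres are contained in cosets of `K` is onto -/
theorem exists_of_card [Finite G] {S T K : Subgroup G} (f : G → G) (hmap : ∀ x ∈ S, f x ∈ T)
    (hfib : ∀ x ∈ S, ∀ y ∈ S, f x = f y → x⁻¹ * y ∈ K) (hcard : Nat.card S = Nat.card K * Nat.card T) :
    ∀ t ∈ T, ∃ x ∈ S, f x = t := by
  classical
  have := Fintype.ofFinite G
  let s : Finset G := Finset.univ.filter (fun x => x ∈ S)
  let t : Finset G := Finset.univ.filter (fun x => x ∈ T)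
  have hs : s.card = Nat.card S := card_filter_mem S
  have ht : t.card = Nat.card T := card_filter_mem T
  have hsub : s.image f ⊆ t := by
    intro y hy
    rw [Finset.mem_image] at hy
    obtain ⟨x, hx, rfl⟩ := hy
    simp only [s, t, Finset.mem_filter, Finset.mem_univ, true_and] at hx ⊢
    exact hmap x hx
  have hle : s.card ≤ Nat.card K * (s.image f).card := by
    apply Finset.card_le_mul_card_image
    intro y hy
    rw [Finset.mem_image] at hy
    obtain ⟨x₀, hx₀, rfl⟩ := hy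
    rw [← card_filter_mem K]
    apply Finset.card_le_card_of_injOn (fun w => x₀⁻¹ * w)
    · intro w hw
      simp only [s, Finset.coe_filter, Finset.mem_filter, Finset.mem_univ, true_and, Set.mem_ofPred_eq] at hw hx₀ ⊢
      exact hfib x₀ hx₀ w hw.1 hw.2.symm
    · intro a _ b _ hab
      exact mul_left_cancel hab
  have hKpos : 0 < Nat.card K := Nat.card_pos
  have heq : s.image f = t := by
    apply Finset.eq_of_subset_of_card_le hsub
    rw [ht]
    rw [hs, hcard] at hle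
    exact Nat.le_of_mul_le_mul_left hle hKpos
  intro y hy
  have hyt : y ∈ t := by simpa [t] using hy
  rw [← heq, Finset.mem_image] at hyt
  obtain ⟨x, hx, hxy⟩ := hyt
  exact ⟨x, by simpa [s] using hx, hxy⟩

/-- the commutator `a b a⁻¹ b⁻¹` -/
def br (a b : G) : G := a * b * a⁻¹ * b⁻¹

theorem br_def (a b : G) : br a b = a * b * a⁻¹ * b⁻¹ := rfl

theorem conj_eq_br (a b : G) : a * b * a⁻¹ = br a b * b := by rw [br]; group

theorem br_eq_one_iff {a b : G} : br a b = 1 ↔ a * b = b * a := by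
  rw [br]
  constructor
  · intro h
    have : a * b = (a * b * a⁻¹ * b⁻¹) * (b * a) := by group
    rw [this, h, one_mul]
  · intro h
    rw [h]; group

theorem Base.sq_surj [Finite G] {B : Subgroup G} (h : Base B) {y : G} (hy : y ∈ Om B) : ∃ b ∈ B, b * b = y := by
  refine exists_of_card (S := B) (T := Om B) (K := Om B) (fun b => b * b) (fun b hb => h.sq_mem_Om hb) ?_ ?_ y hy
  · intro x hx z hz hxz
    rw [mem_Om h.comm]
    refine ⟨B.mul_mem (B.inv_mem hx) hz, ?_⟩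
    have h1 := h.comm _ (B.inv_mem hx) z hz
    calc x⁻¹ * z * (x⁻¹ * z) = x⁻¹ * (z * x⁻¹) * z := by group
      _ = x⁻¹ * (x⁻¹ * z) * z := by rw [h1]
      _ = (x * x)⁻¹ * (z * z) := by group
      _ = 1 := by rw [hxz]; group
  · rw [h.card, h.om]

theorem Base.exists_ne [Finite G] {B : Subgroup G} (h : Base B) : ∃ y ∈ Om B, y ≠ 1 := by
  by_contra hc
  push Not at hc
  have : Om B = ⊥ := by
    rw [eq_bot_iff]
    intro x hx
    exact mem_bot.2 (hc x hx)
  have h4 := h.om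
  rw [this, Subgroup.card_bot] at h4
  omega

variable {B A : Subgroup G} [Finite G]

theorem Adj.mem' (h : Adj B A) : B ∈ Cl A := by rw [Cl_eq h.mem]; exact self_mem_Cl B

theorem Adj.fix_mem (h : Adj B A) {a b : G} (ha : a ∈ A) (ha1 : a ≠ 1) (hb : b ∈ B) (hab : a * b = b * a) :
    b ∈ Om B := by
  by_cases hb1 : b = 1
  · rw [hb1]; exact (Om B).one_mem
  rw [mem_Om h.base.comm]
  refine ⟨hb, ?_⟩
  have hbA : cj b A = A := h.baseA.cj_of_comm ha ha1 hab.symm
  have h' : Adj A B := ⟨h.baseA, h.mem', h.ne.symm, b, hb, hb1, hbA⟩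
  exact h'.sq_one hb hbA

theorem Adj.comm_Om (h : Adj B A) {a : G} (ha : a ∈ A) (haB : cj a B = B) {y : G} (hy : y ∈ Om B) :
    a * y = y * a := by
  by_cases ha1 : a = 1
  · rw [ha1]; simp
  obtain ⟨b, hb, rfl⟩ := h.base.sq_surj hy
  have haa := h.sq_one ha haB
  have hai := inv_eq_self haa
  have hc : a * b * a⁻¹ ∈ B := conj_mem haB hb
  have h1 : a * (b * (a * b * a⁻¹)) = (b * (a * b * a⁻¹)) * a := by
    have h2 := h.base.comm b hb _ hc
    calc a * (b * (a * b * a⁻¹)) = (a * b * a⁻¹) * ((a * a) * b * a⁻¹) := by group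
      _ = (a * b * a⁻¹) * b * a⁻¹ := by rw [haa]; group
      _ = b * (a * b * a⁻¹) * a⁻¹ := by rw [h2]
      _ = b * (a * b * a⁻¹) * a := by rw [hai]
  have h3 := h.fix_mem ha ha1 (B.mul_mem hb hc) h1
  have h4 := ((mem_Om h.base.comm).1 h3).2
  have h5 := h.base.exp b hb
  have h6 : (b * b) * (a * (b * b) * a⁻¹) = 1 := by
    have h2 := h.base.comm b hb _ hc
    calc (b * b) * (a * (b * b) * a⁻¹) = b * (b * (a * b * a⁻¹)) * (a * b * a⁻¹) := by group
      _ = b * ((a * b * a⁻¹) * b) * (a * b * a⁻¹) := by rw [h2]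
      _ = b * (a * b * a⁻¹) * (b * (a * b * a⁻¹)) := by group
      _ = 1 := h4
  have h7 : a * (b * b) * a⁻¹ = b * b := by
    calc a * (b * b) * a⁻¹ = (b * b * (b * b)) * (a * (b * b) * a⁻¹) := by rw [h5, one_mul]
      _ = b * b * ((b * b) * (a * (b * b) * a⁻¹)) := by group
      _ = b * b := by rw [h6, mul_one]
  calc a * (b * b) = (a * (b * b) * a⁻¹) * a := by group
    _ = b * b * a := by rw [h7]

theorem Adj.symm (h : Adj B A) : Adj A B := by
  obtain ⟨a, ha, ha1, haB⟩ := h.ex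
  obtain ⟨y, hy, hy1⟩ := h.base.exists_ne
  refine ⟨h.baseA, h.mem', h.ne.symm, y, h.base.Om_le hy, hy1, ?_⟩
  exact h.baseA.cj_of_comm ha ha1 (h.comm_Om ha haB hy).symm

theorem Adj.comm_Om_Om (h : Adj B A) {a y : G} (ha : a ∈ Om A) (hy : y ∈ Om B) : a * y = y * a := by
  obtain ⟨y', hy', hy1', hyA⟩ := h.symm.ex
  -- `y'` centralises `Om A`, hence `Om A` normalises `B`
  have h1 := h.symm.comm_Om hy' hyA ha
  have h2 : cj a B = B := h.base.cj_of_comm hy' hy1' h1.symm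
  exact h.comm_Om (h.baseA.Om_le ha) h2 hy

theorem Adj.norm (h : Adj B A) {a : G} (ha : a ∈ Om A) : cj a B = B := by
  obtain ⟨y, hy, hy1⟩ := h.base.exists_ne
  exact h.base.cj_of_comm (h.base.Om_le hy) hy1 (h.comm_Om_Om ha hy)

theorem Adj.mem_Om_of_norm (h : Adj B A) {a : G} (ha : a ∈ A) (haB : cj a B = B) : a ∈ Om A :=
  (mem_Om h.baseA.comm).2 ⟨ha, h.sq_one ha haB⟩

theorem Adj.inf (h : Adj B A) {x : G} (hA : x ∈ A) (hB : x ∈ B) : x = 1 := by
  by_contra hx
  exact h.ne (h.base.ti2 h.mem (self_mem_Cl B) hA hB hx)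

theorem Adj.br_mem_B (h : Adj B A) {a b : G} (ha : a ∈ Om A) (hb : b ∈ B) : br a b ∈ B :=
  B.mul_mem (conj_mem (h.norm ha) hb) (B.inv_mem hb)

theorem Adj.br_mem (h : Adj B A) {a b : G} (ha : a ∈ Om A) (hb : b ∈ B) : br a b ∈ Om B := by
  rw [mem_Om h.base.comm]
  refine ⟨h.br_mem_B ha hb, ?_⟩
  have h1 : a * (b * b) = (b * b) * a := h.comm_Om_Om ha (h.base.sq_mem_Om hb)
  have hc : a * b * a⁻¹ ∈ B := conj_mem (h.norm ha) hb
  have h2 := h.base.comm _ hc _ (B.inv_mem hb)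
  calc br a b * br a b = (a * b * a⁻¹) * (b⁻¹ * (a * b * a⁻¹)) * b⁻¹ := by rw [br]; group
    _ = (a * b * a⁻¹) * ((a * b * a⁻¹) * b⁻¹) * b⁻¹ := by rw [h2]
    _ = (a * (b * b)) * a⁻¹ * b⁻¹ * b⁻¹ := by group
    _ = 1 := by rw [h1]; group

theorem Adj.br_sq (h : Adj B A) {a b : G} (ha : a ∈ Om A) (hb : b ∈ B) : br a b * br a b = 1 :=
  h.base.Om_sq (h.br_mem ha hb)

theorem Adj.br_mul_right (h : Adj B A) {a b c : G} (ha : a ∈ Om A) (hb : b ∈ B) (hc : c ∈ B) :
    br a (b * c) = br a b * br a c := by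
  have h1 := h.base.comm _ (h.br_mem_B ha hc) _ (B.inv_mem hb)
  calc br a (b * c) = (a * b * a⁻¹) * (br a c * b⁻¹) := by rw [br, br]; group
    _ = (a * b * a⁻¹) * (b⁻¹ * br a c) := by rw [h1]
    _ = br a b * br a c := by rw [br, br]; group

theorem Adj.br_mul_left (h : Adj B A) {a c b : G} (ha : a ∈ Om A) (hc : c ∈ Om A) (hb : b ∈ B) :
    br (a * c) b = br a b * br c b := by
  have h1 : a * br c b = br c b * a := h.comm_Om_Om ha (h.br_mem hc hb)
  have h2 := h.base.comm _ (h.br_mem_B ha hb) _ (h.br_mem_B hc hb)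
  calc br (a * c) b = (a * br c b) * b * a⁻¹ * b⁻¹ := by rw [br, br]; group
    _ = (br c b * a) * b * a⁻¹ * b⁻¹ := by rw [h1]
    _ = br c b * br a b := by rw [br, br]; group
    _ = br a b * br c b := h2.symm

theorem Adj.br_Om (h : Adj B A) {a y : G} (ha : a ∈ Om A) (hy : y ∈ Om B) : br a y = 1 :=
  br_eq_one_iff.2 (h.comm_Om_Om ha hy)

theorem Adj.br_one (h : Adj B A) {a b : G} (ha : a ∈ Om A) (ha1 : a ≠ 1) (hb : b ∈ B) (h1 : br a b = 1) :
    b ∈ Om B :=
  h.fix_mem (h.baseA.Om_le ha) ha1 hb (br_eq_one_iff.1 h1)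

theorem Adj.Om_inv (h : Adj B A) {a : G} (ha : a ∈ Om A) : a⁻¹ = a := inv_eq_self (h.baseA.Om_sq ha)

/-- `b a b⁻¹ = a [a,b]` -/
theorem Adj.conj_a (h : Adj B A) {a : G} (ha : a ∈ Om A) (b : G) : b * a * b⁻¹ = a * br a b := by
  have haa := h.baseA.Om_sq ha
  have hai := h.Om_inv ha
  calc b * a * b⁻¹ = b * a⁻¹ * b⁻¹ := by rw [hai]
    _ = (a * a) * b * a⁻¹ * b⁻¹ := by rw [haa]; group
    _ = a * br a b := by rw [br]; group

theorem Adj.br_left_inj (h : Adj B A) {a c b : G} (ha : a ∈ Om A) (hc : c ∈ Om A) (hb : b ∈ B)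
    (hbO : b ∉ Om B) (heq : br a b = br c b) : a = c := by
  by_contra hne
  apply hbO
  have hac : a * c ≠ 1 := by
    intro h1
    apply hne
    have := h.baseA.Om_sq hc
    calc a = (a * c) * c := by rw [mul_assoc, this, mul_one]
      _ = c := by rw [h1, one_mul]
  apply h.br_one ((Om A).mul_mem ha hc) hac hb
  rw [h.br_mul_left ha hc hb, heq]
  exact h.br_sq hc hb

theorem Adj.br_left_surj (h : Adj B A) {b y : G} (hb : b ∈ B) (hbO : b ∉ Om B) (hy : y ∈ Om B) :
    ∃ a ∈ Om A, br a b = y := by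
  refine exists_of_card (S := Om A) (T := Om B) (K := ⊥) (fun a => br a b) (fun a ha => h.br_mem ha hb) ?_ ?_ y hy
  · intro x hx z hz hxz
    rw [h.br_left_inj hx hz hb hbO hxz]
    simp
  · rw [h.baseA.om, h.base.om, Subgroup.card_bot]

theorem Adj.br_right_surj (h : Adj B A) {a y : G} (ha : a ∈ Om A) (ha1 : a ≠ 1) (hy : y ∈ Om B) :
    ∃ b ∈ B, br a b = y := by
  refine exists_of_card (S := B) (T := Om B) (K := Om B) (fun b => br a b) (fun b hb => h.br_mem ha hb) ?_ ?_ y hy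
  · intro x hx z hz hxz
    apply h.br_one ha ha1 (B.mul_mem (B.inv_mem hx) hz)
    have h1 : br a (x * (x⁻¹ * z)) = br a x * br a (x⁻¹ * z) :=
      h.br_mul_right ha hx (B.mul_mem (B.inv_mem hx) hz)
    rw [mul_inv_cancel_left, ← hxz] at h1
    exact mul_left_cancel (a := br a x) (by rw [mul_one]; exact h1.symm)
  · rw [h.base.card, h.base.om]

end Cfsg.Agent.TIAbelian.End
end

-- part: TIAbelian/EndTorus
section
/-!
# Adjacent pairs: the swapping elements, the torus, and the action of `Om A` on `B`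
-/

set_option autoImplicit false
set_option linter.unusedSectionVars false

namespace Cfsg.Agent.TIAbelian.End

open Subgroup
open Cfsg.Agent.ClassificationK.TIPair (cj mem_normalizer_cj normalizer_of_cj_eq cj_eq_of_mem_normalizer)
open Cfsg.Agent.ClassificationK.TIFamily (mem_cj cj_mul cj_one)

universe u

variable {G : Type u} [Group G] {B A : Subgroup G} [Finite G]

theorem Base.four (h : Base B) {y z : G} (hy : y ∈ Om B) (hz : z ∈ Om B) (hy1 : y ≠ 1) (hz1 : z ≠ 1)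
    (hyz : y ≠ z) {x : G} (hx : x ∈ Om B) : x = 1 ∨ x = y ∨ x = z ∨ x = y * z := by
  classical
  have := Fintype.ofFinite G
  have hyy := h.Om_sq hy
  have hzz := h.Om_sq hz
  have h1 : y * z ≠ 1 := by
    intro h1
    apply hyz
    calc y = (y * z) * z := by rw [mul_assoc, hzz, mul_one]
      _ = z := by rw [h1, one_mul]
  have h2 : y * z ≠ y := fun h2 => hz1 (mul_eq_left.1 h2)
  have h3 : y * z ≠ z := fun h3 => hy1 (mul_eq_right.1 h3)
  have hcard : ({1, y, z, y * z} : Finset G).card = 4 := by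
    rw [Finset.card_insert_of_notMem, Finset.card_insert_of_notMem, Finset.card_pair h3.symm]
    · simp only [Finset.mem_insert, Finset.mem_singleton, not_or]
      exact ⟨hyz, h2.symm⟩
    · simp only [Finset.mem_insert, Finset.mem_singleton, not_or]
      exact ⟨hy1.symm, hz1.symm, h1.symm⟩
  have hsub : ({1, y, z, y * z} : Finset G) ⊆ Finset.univ.filter (fun x => x ∈ Om B) := by
    intro w hw
    simp only [Finset.mem_insert, Finset.mem_singleton] at hw
    simp only [Finset.mem_filter, Finset.mem_univ, true_and]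
    rcases hw with rfl | rfl | rfl | rfl
    · exact (Om B).one_mem
    · exact hy
    · exact hz
    · exact (Om B).mul_mem hy hz
  have heq := Finset.eq_of_subset_of_card_le hsub (by rw [hcard, card_filter_mem, h.om])
  have hx' : x ∈ Finset.univ.filter (fun x => x ∈ Om B) := by simpa using hx
  rw [← heq] at hx'
  simpa using hx'

theorem Base.exists_two (h : Base B) : ∃ y ∈ Om B, ∃ z ∈ Om B, y ≠ 1 ∧ z ≠ 1 ∧ y ≠ z := by
  classical
  have := Fintype.ofFinite G
  obtain ⟨y, hy, hy1⟩ := h.exists_ne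
  by_contra hc
  push Not at hc
  have hsub : Finset.univ.filter (fun x => x ∈ Om B) ⊆ ({1, y} : Finset G) := by
    intro w hw
    simp only [Finset.mem_filter, Finset.mem_univ, true_and] at hw
    simp only [Finset.mem_insert, Finset.mem_singleton]
    by_cases hw1 : w = 1
    · exact Or.inl hw1
    · exact Or.inr (hc y hy w hw hy1 hw1).symm
  have h1 := Finset.card_le_card hsub
  rw [card_filter_mem, h.om] at h1
  have h2 : ({1, y} : Finset G).card ≤ 2 := Finset.card_le_two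
  omega

/-- two elements of `B` independent modulo `Om B` -/
theorem Base.exists_pair (h : Base B) : ∃ b ∈ B, ∃ c ∈ B, b ∉ Om B ∧ c ∉ Om B ∧ b⁻¹ * c ∉ Om B := by
  obtain ⟨y, hy, z, hz, hy1, hz1, hyz⟩ := h.exists_two
  obtain ⟨b, hb, rfl⟩ := h.sq_surj hy
  obtain ⟨c, hc, rfl⟩ := h.sq_surj hz
  refine ⟨b, hb, c, hc, fun h1 => hy1 (h.Om_sq h1), fun h1 => hz1 (h.Om_sq h1), fun h1 => hyz ?_⟩
  have h2 := h.Om_sq h1
  have h3 := h.comm _ (B.inv_mem hb) c hc
  have h4 : b⁻¹ * c * (b⁻¹ * c) = (b * b)⁻¹ * (c * c) := by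
    calc b⁻¹ * c * (b⁻¹ * c) = b⁻¹ * (c * b⁻¹) * c := by group
      _ = b⁻¹ * (b⁻¹ * c) * c := by rw [h3]
      _ = (b * b)⁻¹ * (c * c) := by group
  rw [h4, inv_mul_eq_one] at h2
  exact h2

/-- the Weyl element attached to `b` -/
theorem Adj.exists_swap (h : Adj B A) {b : G} (hb : b ∈ B) (hbO : b ∉ Om B) :
    ∃ w ∈ A ⊔ B, cj w A = B ∧ cj w B = A ∧ (∀ x ∈ Om A, w * x * w⁻¹ = br x b) ∧
      (∀ x ∈ Om A, w * br x b * w⁻¹ = x) := by
  obtain ⟨x₀, hx₀, hx₀1⟩ := h.baseA.exists_ne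
  have hy₀ := h.br_mem hx₀ hb
  have hy₀1 : br x₀ b ≠ 1 := fun h1 => hbO (h.br_one hx₀ hx₀1 hb h1)
  obtain ⟨a, ha, hax⟩ := h.symm.br_right_surj hy₀ hy₀1 hx₀
  have h1 := h.conj_a hx₀ b
  have h2 := h.symm.conj_a hy₀ a
  rw [hax] at h2
  have hcomm := h.comm_Om_Om hx₀ hy₀
  have hne : x₀ * br x₀ b ≠ 1 := by
    intro h3
    have h4 : b * x₀ * b⁻¹ = 1 := by rw [h1, h3]
    apply hx₀1
    calc x₀ = b⁻¹ * (b * x₀ * b⁻¹) * b := by group
      _ = 1 := by rw [h4]; group
  have hBA : cj b A = cj a B := by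
    refine h.base.ti2 (cj_mem_Cl h.mem b) ⟨a, rfl⟩ (x := x₀ * br x₀ b) ?_ ?_ hne
    · rw [← h1]; exact cj_mem (h.baseA.Om_le hx₀)
    · rw [hcomm, ← h2]; exact cj_mem (h.base.Om_le hy₀)
  -- action of `a⁻¹`
  have key : ∀ x ∈ Om A, a⁻¹ * (b * x * b⁻¹) * a = br x b ∧ br (br x b) a⁻¹ = x := by
    intro x hx
    have hf := h.br_mem hx hb
    have h3 : a⁻¹ * (b * x * b⁻¹) * a ∈ B := by
      have h4 : b * x * b⁻¹ ∈ cj a B := by rw [← hBA]; exact cj_mem (h.baseA.Om_le hx)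
      rwa [mem_cj] at h4
    have h4 := h.symm.conj_a hf a⁻¹
    rw [inv_inv] at h4
    have hm := h.symm.br_mem hf (A.inv_mem ha)
    have hxa : a⁻¹ * x = x * a⁻¹ := h.baseA.comm _ (A.inv_mem ha) _ (h.baseA.Om_le hx)
    have h5 : a⁻¹ * (b * x * b⁻¹) * a = x * (br x b * br (br x b) a⁻¹) := by
      rw [h.conj_a hx b, ← h4]
      calc a⁻¹ * (x * br x b) * a = (a⁻¹ * x) * (br x b) * a := by group
        _ = (x * a⁻¹) * br x b * a := by rw [hxa]
        _ = x * (a⁻¹ * br x b * a) := by group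
    have h6 : br x b * br (br x b) a⁻¹ = br (br x b) a⁻¹ * br x b := (h.comm_Om_Om hm hf).symm
    have h7 : x * br (br x b) a⁻¹ = 1 := by
      apply h.inf
      · exact A.mul_mem (h.baseA.Om_le hx) (h.baseA.Om_le hm)
      · have h8 : x * br (br x b) a⁻¹ = (a⁻¹ * (b * x * b⁻¹) * a) * (br x b)⁻¹ := by
          rw [h5, h6]; group
        rw [h8]
        exact B.mul_mem h3 (B.inv_mem (h.base.Om_le hf))
    have h8 : br (br x b) a⁻¹ = x := by
      have h9 := h.Om_inv hx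
      calc br (br x b) a⁻¹ = x⁻¹ * (x * br (br x b) a⁻¹) := by group
        _ = x := by rw [h7, mul_one, h9]
    refine ⟨?_, h8⟩
    rw [h5, h6, h8, ← mul_assoc, h.baseA.Om_sq hx, one_mul]
  have hbB : cj b B = B := h.base.cj_mem_self hb
  have haA : cj a A = A := h.baseA.cj_mem_self ha
  have hcjw : ∀ X : Subgroup G, cj (b * a⁻¹ * b) X = cj b (cj a⁻¹ (cj b X)) := by
    intro X
    rw [cj_cj, cj_cj, mul_assoc]
  have hAA : cj (b * a⁻¹ * b) A = B := by rw [hcjw, hBA, cj_cancel, hbB]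
  have haB : cj a⁻¹ B = cj b A := by
    have h3 : (a * a)⁻¹ ∈ Om A := (Om A).inv_mem (h.baseA.sq_mem_Om ha)
    have h4 := h.norm h3
    rw [hBA]
    conv_rhs => rw [← h4]
    rw [cj_cj]
    have h5 : a * (a * a)⁻¹ = a⁻¹ := by group
    rw [h5]
  have hBB : cj (b * a⁻¹ * b) B = A := by
    rw [hcjw, hbB, haB, cj_cj]
    exact h.symm.norm (h.base.sq_mem_Om hb)
  refine ⟨b * a⁻¹ * b, ?_, hAA, hBB, ?_, ?_⟩
  · have hb' : b ∈ A ⊔ B := (le_sup_right : B ≤ A ⊔ B) hb
    have ha' : a ∈ A ⊔ B := (le_sup_left : A ≤ A ⊔ B) ha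
    exact (A ⊔ B).mul_mem ((A ⊔ B).mul_mem hb' ((A ⊔ B).inv_mem ha')) hb'
  · intro x hx
    have h3 : b * a⁻¹ * b * x * (b * a⁻¹ * b)⁻¹ = b * (a⁻¹ * (b * x * b⁻¹) * a) * b⁻¹ := by group
    rw [h3, (key x hx).1]
    have h4 := h.base.comm b hb _ (h.base.Om_le (h.br_mem hx hb))
    rw [h4]; group
  · intro x hx
    have hf := h.br_mem hx hb
    have h4 := h.base.comm b hb _ (h.base.Om_le hf)
    have h5 := h.symm.conj_a hf a⁻¹
    rw [inv_inv, (key x hx).2] at h5
    have h6 : b * br x b * b⁻¹ = br x b := by rw [h4]; group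
    have h3 : b * a⁻¹ * b * br x b * (b * a⁻¹ * b)⁻¹ = b * (a⁻¹ * (b * br x b * b⁻¹) * a) * b⁻¹ := by group
    rw [h3, h6, h5]
    calc b * (br x b * x) * b⁻¹ = (b * br x b * b⁻¹) * (b * x * b⁻¹) := by group
      _ = br x b * (x * br x b) := by rw [h6, h.conj_a hx b]
      _ = br x b * (br x b * x) := by rw [h.comm_Om_Om hx hf]
      _ = x := by rw [← mul_assoc, h.br_sq hx hb, one_mul]

/-- a torus element -/
theorem Adj.exists_torus (h : Adj B A) : ∃ t ∈ A ⊔ B, cj t A = A ∧ cj t B = B ∧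
    (∀ x ∈ Om A, x ≠ 1 → t * x * t⁻¹ ≠ x) ∧ (∀ y ∈ Om B, y ≠ 1 → t * y * t⁻¹ ≠ y) := by
  obtain ⟨b, hb, c, hc, hbO, hcO, hbc⟩ := h.base.exists_pair
  obtain ⟨w, hw, hwA, hwB, hw1, hw2⟩ := h.exists_swap hb hbO
  obtain ⟨v, hv, hvA, hvB, hv1, hv2⟩ := h.exists_swap hc hcO
  have hkey : ∀ x ∈ Om A, br x b = br x c → x = 1 := by
    intro x hx hbr
    by_contra hx1
    apply hbc
    apply h.br_one hx hx1 (B.mul_mem (B.inv_mem hb) hc)
    have h1 : br x (b * (b⁻¹ * c)) = br x b * br x (b⁻¹ * c) :=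
      h.br_mul_right hx hb (B.mul_mem (B.inv_mem hb) hc)
    rw [mul_inv_cancel_left, ← hbr] at h1
    exact mul_left_cancel (a := br x b) (by rw [mul_one]; exact h1.symm)
  refine ⟨w⁻¹ * v, (A ⊔ B).mul_mem ((A ⊔ B).inv_mem hw) hv, ?_, ?_, ?_, ?_⟩
  · rw [← cj_cj, hvA, ← hwA, cj_cancel]
  · rw [← cj_cj, hvB, ← hwB, cj_cancel]
  · intro x hx hx1 heq
    apply hx1
    apply hkey x hx
    rw [← hw1 x hx, ← hv1 x hx]
    conv_lhs => rw [← heq]
    group
  · intro y hy hy1 heq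
    obtain ⟨x, hx, rfl⟩ := h.br_left_surj hc hcO hy
    apply hy1
    have h2 : br x b = br x c := by
      have h3 := hw2 x hx
      have h4 := hv2 x hx
      calc br x b = w⁻¹ * (w * br x b * w⁻¹) * w := by group
        _ = w⁻¹ * (v * br x c * v⁻¹) * w := by rw [h3, h4]
        _ = w⁻¹ * v * br x c * (w⁻¹ * v)⁻¹ := by group
        _ = br x c := heq
    rw [hkey x hx h2]
    simp [br]

theorem br_conj (t a b : G) : br (t * a * t⁻¹) b = t * br a (t⁻¹ * b * t) * t⁻¹ := by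
  rw [br, br]; group

theorem cj_inv_eq {g : G} {X : Subgroup G} (h : cj g X = X) : cj g⁻¹ X = X := by
  conv_lhs => rw [← h]
  exact cj_cancel g X

theorem conj_mem' {g x : G} {X : Subgroup G} (h : cj g X = X) (hx : x ∈ X) : g⁻¹ * x * g ∈ X := by
  have := conj_mem (cj_inv_eq h) hx
  rwa [inv_inv] at this

/-- no element of `Om A` inverts `B` -/
theorem Adj.not_invert (h : Adj B A) {a : G} (ha : a ∈ Om A) (ha1 : a ≠ 1) :
    ¬ ∀ b ∈ B, br a b = b * b := by
  intro hinv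
  obtain ⟨t, -, htA, htB, ht1, -⟩ := h.exists_torus
  obtain ⟨b, hb, -, -, hbO, -, -⟩ := h.base.exists_pair
  have hta : t * a * t⁻¹ ∈ Om A := by
    have h1 := cj_mem (g := t) ha
    rwa [cj_Om h.baseA.comm, htA] at h1
  apply ht1 a ha ha1
  apply h.br_left_inj hta ha hb hbO
  rw [br_conj, hinv _ (conj_mem' htB hb), hinv b hb]
  group

/-- the square of a product in `B` -/
theorem Base.sq_mul (h : Base B) {b c : G} (hb : b ∈ B) (hc : c ∈ B) : b * c * (b * c) = b * b * (c * c) := by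
  have h1 := h.comm c hc b hb
  calc b * c * (b * c) = b * (c * b) * c := by group
    _ = b * (b * c) * c := by rw [h1]
    _ = b * b * (c * c) := by group

theorem Base.sq_ne (h : Base B) {b : G} (hb : b ∈ B) (hbO : b ∉ Om B) : b * b ≠ 1 := fun h1 =>
  hbO ((mem_Om h.comm).2 ⟨hb, h1⟩)

/-- equal squares: congruent modulo `Om B` -/
theorem Base.inv_mul_mem (h : Base B) {b c : G} (hb : b ∈ B) (hc : c ∈ B) (hbc : b * b = c * c) :
    b⁻¹ * c ∈ Om B := by
  rw [mem_Om h.comm]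
  refine ⟨B.mul_mem (B.inv_mem hb) hc, ?_⟩
  rw [h.sq_mul (B.inv_mem hb) hc, ← hbc]
  group

theorem Adj.br_congr (h : Adj B A) {a b c : G} (ha : a ∈ Om A) (hb : b ∈ B) (hc : c ∈ B)
    (hbc : b * b = c * c) : br a b = br a c := by
  have h1 := h.base.inv_mul_mem hb hc hbc
  have h2 : br a (b * (b⁻¹ * c)) = br a b * br a (b⁻¹ * c) :=
    h.br_mul_right ha hb (B.mul_mem (B.inv_mem hb) hc)
  rw [mul_inv_cancel_left, h.br_Om ha h1, mul_one] at h2
  exact h2.symm

/-- the action of `a` with `[a,b] = b²` on the other classes -/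
theorem Adj.br_other (h : Adj B A) {a b c : G} (ha : a ∈ Om A) (ha1 : a ≠ 1) (hb : b ∈ B) (hbO : b ∉ Om B)
    (hab : br a b = b * b) (hc : c ∈ B) (hcO : c ∉ Om B) (hbc : b * b ≠ c * c) :
    br a c = b * b * (c * c) := by
  have hb2 := h.base.sq_ne hb hbO
  have hc2 := h.base.sq_ne hc hcO
  rcases h.base.four (h.base.sq_mem_Om hb) (h.base.sq_mem_Om hc) hb2 hc2 hbc (h.br_mem ha hc) with
    h1 | h1 | h1 | h1
  · exact absurd (h.br_one ha ha1 hc h1) hcO
  · exfalso
    apply hbc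
    have h2 : br a (b * (b⁻¹ * c)) = br a b * br a (b⁻¹ * c) :=
      h.br_mul_right ha hb (B.mul_mem (B.inv_mem hb) hc)
    rw [mul_inv_cancel_left, h1, hab] at h2
    have h3 : br a (b⁻¹ * c) = 1 := mul_left_cancel (a := b * b) (by rw [mul_one]; exact h2.symm)
    have h4 := h.br_one ha ha1 (B.mul_mem (B.inv_mem hb) hc) h3
    have h5 := h.base.Om_sq h4
    rw [h.base.sq_mul (B.inv_mem hb) hc] at h5
    have h6 : b⁻¹ * b⁻¹ = (b * b)⁻¹ := by group
    rw [h6, inv_mul_eq_one] at h5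
    exact h5
  · exfalso
    apply h.not_invert ha ha1
    intro d hd
    rcases h.base.four (h.base.sq_mem_Om hb) (h.base.sq_mem_Om hc) hb2 hc2 hbc (h.base.sq_mem_Om hd) with
      h2 | h2 | h2 | h2
    · have h3 : d ∈ Om B := (mem_Om h.base.comm).2 ⟨hd, h2⟩
      rw [h.br_Om ha h3, h2]
    · rw [h.br_congr ha hd hb h2, hab, h2]
    · rw [h.br_congr ha hd hc h2, h1, h2]
    · rw [← h.base.sq_mul hb hc] at h2
      rw [h.br_congr ha hd (B.mul_mem hb hc) h2, h.br_mul_right ha hb hc, hab, h1, h2, h.base.sq_mul hb hc]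
  · exact h1

/-- every `a` fixes (in this sense) some class -/
theorem Adj.exists_br_eq_sq (h : Adj B A) {a : G} (ha : a ∈ Om A) (ha1 : a ≠ 1) :
    ∃ b ∈ B, b ∉ Om B ∧ br a b = b * b := by
  obtain ⟨b, hb, c, hc, hbO, hcO, hbc⟩ := h.base.exists_pair
  obtain ⟨a₁, ha₁, hab₁⟩ := h.br_left_surj hb hbO (h.base.sq_mem_Om hb)
  obtain ⟨a₂, ha₂, hab₂⟩ := h.br_left_surj hc hcO (h.base.sq_mem_Om hc)
  have hb2 := h.base.sq_ne hb hbO
  have hc2 := h.base.sq_ne hc hcO
  have hbc2 : b * b ≠ c * c := fun h1 => hbc (h.base.inv_mul_mem hb hc h1)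
  have h11 : a₁ ≠ 1 := by
    rintro rfl
    apply hb2; rw [← hab₁]; simp [br]
  have h21 : a₂ ≠ 1 := by
    rintro rfl
    apply hc2; rw [← hab₂]; simp [br]
  have e1 := h.br_other ha₁ h11 hb hbO hab₁ hc hcO hbc2
  have e2 := h.br_other ha₂ h21 hc hcO hab₂ hb hbO hbc2.symm
  have h12 : a₁ ≠ a₂ := by
    rintro rfl
    rw [e1] at hab₂
    exact hb2 (mul_eq_right.1 hab₂)
  rcases h.baseA.four ha₁ ha₂ h11 h21 h12 ha with h1 | h1 | h1 | h1
  · exact absurd h1 ha1
  · exact ⟨b, hb, hbO, by rw [h1]; exact hab₁⟩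
  · exact ⟨c, hc, hcO, by rw [h1]; exact hab₂⟩
  · refine ⟨b * c, B.mul_mem hb hc, ?_, ?_⟩
    · intro h2
      apply hbc
      have h3 : b⁻¹ * c = (b * b)⁻¹ * (b * c) := by group
      rw [h3]
      exact (Om B).mul_mem ((Om B).inv_mem (h.base.sq_mem_Om hb)) h2
    · rw [h1, h.br_mul_left ha₁ ha₂ (B.mul_mem hb hc), h.br_mul_right ha₁ hb hc, h.br_mul_right ha₂ hb hc,
        hab₁, hab₂, e1, e2, h.base.sq_mul hb hc]
      have h4 := h.base.exp b hb
      have h5 := h.base.exp c hc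
      have h6 := h.base.comm (b * b) (B.mul_mem hb hb) (c * c) (B.mul_mem hc hc)
      calc b * b * (b * b * (c * c)) * (c * c * (b * b) * (c * c))
          = (b * b * (b * b)) * ((c * c) * (c * c)) * ((b * b) * (c * c)) := by group
        _ = b * b * (c * c) := by rw [h4, h5]; group

end Cfsg.Agent.TIAbelian.End
end

-- part: TIAbelian/EndLine
section
/-!
# The line (vertex) `Om A ⊔ Om B` of an adjacent pair
-/

set_option autoImplicit false
set_option linter.unusedSectionVars false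

namespace Cfsg.Agent.TIAbelian.End

open Subgroup
open Cfsg.Agent.ClassificationK.TIPair (cj mem_normalizer_cj normalizer_of_cj_eq cj_eq_of_mem_normalizer)
open Cfsg.Agent.ClassificationK.TIFamily (mem_cj cj_mul cj_one)

universe u

variable {G : Type u} [Group G] {B A : Subgroup G} [Finite G]

theorem mem_sup_of_comm' {X Y : Subgroup G} (hc : ∀ a ∈ X, ∀ b ∈ Y, a * b = b * a) {x : G} :
    x ∈ X ⊔ Y ↔ ∃ a ∈ X, ∃ y ∈ Y, x = a * y := by
  constructor
  · intro h
    let S : Subgroup G :=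
      { carrier := {x | ∃ a ∈ X, ∃ y ∈ Y, x = a * y}
        mul_mem' := by
          rintro _ _ ⟨a, ha, y, hy, rfl⟩ ⟨a', ha', y', hy', rfl⟩
          refine ⟨a * a', X.mul_mem ha ha', y * y', Y.mul_mem hy hy', ?_⟩
          have := hc a' ha' y hy
          calc a * y * (a' * y') = a * (y * a') * y' := by group
            _ = a * (a' * y) * y' := by rw [this]
            _ = a * a' * (y * y') := by group
        one_mem' := ⟨1, X.one_mem, 1, Y.one_mem, by simp⟩
        inv_mem' := by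
          rintro _ ⟨a, ha, y, hy, rfl⟩
          refine ⟨a⁻¹, X.inv_mem ha, y⁻¹, Y.inv_mem hy, ?_⟩
          have := hc _ (X.inv_mem ha) _ (Y.inv_mem hy)
          rw [this]; group }
    have hX : X ≤ S := fun a ha => ⟨a, ha, 1, Y.one_mem, by simp⟩
    have hY : Y ≤ S := fun y hy => ⟨1, X.one_mem, y, hy, by simp⟩
    exact (sup_le hX hY) h
  · rintro ⟨a, ha, y, hy, rfl⟩
    exact (X ⊔ Y).mul_mem ((le_sup_left : X ≤ X ⊔ Y) ha) ((le_sup_right : Y ≤ X ⊔ Y) hy)

theorem Adj.mem_line (h : Adj B A) {x : G} :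
    x ∈ Om A ⊔ Om B ↔ ∃ a ∈ Om A, ∃ y ∈ Om B, x = a * y :=
  mem_sup_of_comm' (fun _ ha _ hy => h.comm_Om_Om ha hy)

theorem Adj.line_sq (h : Adj B A) {x : G} (hx : x ∈ Om A ⊔ Om B) : x * x = 1 := by
  obtain ⟨a, ha, y, hy, rfl⟩ := h.mem_line.1 hx
  have h1 := h.comm_Om_Om ha hy
  calc a * y * (a * y) = a * (y * a) * y := by group
    _ = a * (a * y) * y := by rw [h1]
    _ = (a * a) * (y * y) := by group
    _ = 1 := by rw [h.baseA.Om_sq ha, h.base.Om_sq hy, one_mul]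

theorem Adj.card_line (h : Adj B A) : Nat.card (Om A ⊔ Om B : Subgroup G) = 16 := by
  let f : Om A × Om B → (Om A ⊔ Om B : Subgroup G) := fun p =>
    ⟨p.1.1 * p.2.1, h.mem_line.2 ⟨_, p.1.2, _, p.2.2, rfl⟩⟩
  have hf : Function.Bijective f := by
    constructor
    · rintro ⟨a, y⟩ ⟨a', y'⟩ hp
      have h1 : a.1 * y.1 = a'.1 * y'.1 := congrArg Subtype.val hp
      have h2 : a'.1⁻¹ * a.1 = y'.1 * y.1⁻¹ := by
        calc a'.1⁻¹ * a.1 = a'.1⁻¹ * (a.1 * y.1) * y.1⁻¹ := by group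
          _ = y'.1 * y.1⁻¹ := by rw [h1]; group
      have h3 : a'.1⁻¹ * a.1 = 1 := by
        apply h.inf
        · exact A.mul_mem (A.inv_mem (h.baseA.Om_le a'.2)) (h.baseA.Om_le a.2)
        · rw [h2]; exact B.mul_mem (h.base.Om_le y'.2) (B.inv_mem (h.base.Om_le y.2))
      have h4 : a.1 = a'.1 := (inv_mul_eq_one.1 h3).symm
      have h5 : y.1 = y'.1 := by
        rw [h3] at h2
        exact (mul_inv_eq_one.1 h2.symm).symm
      exact Prod.ext (Subtype.ext h4) (Subtype.ext h5)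
    · rintro ⟨x, hx⟩
      obtain ⟨a, ha, y, hy, rfl⟩ := h.mem_line.1 hx
      exact ⟨(⟨a, ha⟩, ⟨y, hy⟩), rfl⟩
  rw [← Nat.card_congr (Equiv.ofBijective f hf), Nat.card_prod, h.baseA.om, h.base.om]

theorem Adj.conj_line (h : Adj B A) {b : G} (hb : b ∈ B) : cj b (Om A ⊔ Om B) ≤ Om A ⊔ Om B := by
  intro x hx
  rw [mem_cj] at hx
  obtain ⟨a, ha, y, hy, hxy⟩ := h.mem_line.1 hx
  have h1 : x = (b * a * b⁻¹) * (b * y * b⁻¹) := by
    calc x = b * (b⁻¹ * x * b) * b⁻¹ := by group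
      _ = (b * a * b⁻¹) * (b * y * b⁻¹) := by rw [hxy]; group
  have h2 := h.base.comm b hb y (h.base.Om_le hy)
  rw [h.mem_line]
  refine ⟨a, ha, br a b * y, (Om B).mul_mem (h.br_mem ha hb) hy, ?_⟩
  rw [h1, h.conj_a ha b, h2]; group

theorem Adj.cover (h : Adj B A) {x : G} (hx : x ∈ Om A ⊔ Om B) (hx1 : x ≠ 1) :
    ∃ X, (X = B ∨ ∃ b ∈ B, X = cj b A) ∧ x ∈ Om X ∧ Om X ≤ Om A ⊔ Om B := by
  obtain ⟨a, ha, y, hy, rfl⟩ := h.mem_line.1 hx
  by_cases ha1 : a = 1
  · refine ⟨B, Or.inl rfl, ?_, le_sup_right⟩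
    rw [ha1, one_mul]; exact hy
  · obtain ⟨b, hb, hab⟩ := h.br_right_surj ha ha1 hy
    refine ⟨cj b A, Or.inr ⟨b, hb, rfl⟩, ?_, ?_⟩
    · rw [← cj_Om h.baseA.comm, ← hab, ← h.conj_a ha b]
      exact cj_mem ha
    · rw [← cj_Om h.baseA.comm]
      exact le_trans (cj_le_cj.2 le_sup_left) (h.conj_line hb)

theorem Adj.conj (h : Adj B A) (g : G) : Adj (cj g B) (cj g A) where
  base := h.base.conj g
  mem := by
    rw [Cl_eq (⟨g, rfl⟩ : cj g B ∈ Cl B)]
    exact cj_mem_Cl h.mem g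
  ne := fun h1 => h.ne (cj_injective g h1)
  ex := by
    obtain ⟨a, ha, ha1, haB⟩ := h.ex
    refine ⟨g * a * g⁻¹, cj_mem ha, ?_, ?_⟩
    · intro h1
      apply ha1
      calc a = g⁻¹ * (g * a * g⁻¹) * g := by group
        _ = 1 := by rw [h1]; group
    · rw [cj_cj]
      have h1 : g * a * g⁻¹ * g = g * a := by group
      rw [h1, ← cj_cj, haB]

/-- commuting nontrivial elements: adjacent -/
theorem Base.adj_of_comm (h : Base B) {X : Subgroup G} (hX : X ∈ Cl B) (hne : X ≠ B) {x y : G}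
    (hx : x ∈ X) (hx1 : x ≠ 1) (hy : y ∈ B) (hy1 : y ≠ 1) (hxy : x * y = y * x) : Adj B X :=
  ⟨h, hX, hne, x, hx, hx1, h.cj_of_comm hy hy1 hxy⟩

/-- the edges -/
def EE (B : Subgroup G) : Set (Subgroup G) := {X' | ∃ X ∈ Cl B, X' = Om X}

/-- the vertices -/
def VV (B : Subgroup G) : Set (Subgroup G) := {U | ∃ X Y, X ∈ Cl B ∧ Adj X Y ∧ U = Om X ⊔ Om Y}

theorem EE_eq {X : Subgroup G} (hX : X ∈ Cl B) : EE X = EE B := by
  unfold EE; rw [Cl_eq hX]

theorem VV_eq {X : Subgroup G} (hX : X ∈ Cl B) : VV X = VV B := by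
  unfold VV; rw [Cl_eq hX]

theorem Adj.line_mem_VV (h : Adj B A) : Om A ⊔ Om B ∈ VV B :=
  ⟨B, A, self_mem_Cl B, h, sup_comm _ _⟩

theorem VV_spec (_hB : Base B) {U : Subgroup G} (hU : U ∈ VV B) :
    Nat.card U = 16 ∧ (∀ x ∈ U, x * x = 1) ∧ (∀ x ∈ U, x ≠ 1 → ∃ X ∈ Cl B, x ∈ Om X ∧ Om X ≤ U) := by
  obtain ⟨X, Y, hX, h, rfl⟩ := hU
  rw [sup_comm]
  refine ⟨h.card_line, fun x hx => h.line_sq hx, fun x hx hx1 => ?_⟩
  obtain ⟨Z, hZ, hxZ, hZU⟩ := h.cover hx hx1
  refine ⟨Z, ?_, hxZ, hZU⟩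
  rcases hZ with rfl | ⟨b, -, rfl⟩
  · exact hX
  · rw [← Cl_eq hX]; exact cj_mem_Cl h.mem b

theorem comm_of_sq {U : Subgroup G} (hsq : ∀ x ∈ U, x * x = 1) {x y : G} (hx : x ∈ U) (hy : y ∈ U) :
    x * y = y * x := by
  have h1 := hsq _ (U.mul_mem hx hy)
  have hxi := inv_eq_self (hsq x hx)
  have hyi := inv_eq_self (hsq y hy)
  have h2 := inv_eq_self h1
  rw [mul_inv_rev, hxi, hyi] at h2
  exact h2.symm

theorem Om_le_of_mem (hB : Base B) {U X : Subgroup G} (hU : U ∈ VV B) (hX : X ∈ Cl B) {x : G}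
    (hx : x ∈ X) (hx1 : x ≠ 1) (hxU : x ∈ U) : Om X ≤ U := by
  obtain ⟨Y, hY, hxY, hYU⟩ := (VV_spec hB hU).2.2 x hxU hx1
  rw [hB.ti2 hX hY hx ((hB.of_mem hY).Om_le hxY) hx1]
  exact hYU

theorem VV_eq_sup (hB : Base B) {U X Y : Subgroup G} (hU : U ∈ VV B) (hX : X ∈ Cl B) (hY : Y ∈ Cl B)
    (hne : Y ≠ X) (hXU : Om X ≤ U) (hYU : Om Y ≤ U) : Adj X Y ∧ U = Om Y ⊔ Om X := by
  obtain ⟨h16, hsq, -⟩ := VV_spec hB hU
  have bX := hB.of_mem hX
  have bY := hB.of_mem hY
  obtain ⟨x, hx, hx1⟩ := bX.exists_ne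
  obtain ⟨y, hy, hy1⟩ := bY.exists_ne
  have hadj : Adj X Y := bX.adj_of_comm (by rw [Cl_eq hX]; exact hY) hne (bY.Om_le hy) hy1 (bX.Om_le hx) hx1
    (comm_of_sq hsq (hYU hy) (hXU hx))
  refine ⟨hadj, ?_⟩
  symm
  apply Subgroup.eq_of_le_of_card_ge (sup_le hYU hXU)
  rw [h16, hadj.card_line]

end Cfsg.Agent.TIAbelian.End
end

-- part: TIAbelian/EndFull
section
/-!
# The geometry when `C_G(B) = B`
-/

set_option autoImplicit false
set_option linter.unusedSectionVars false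

namespace Cfsg.Agent.TIAbelian.End

open Subgroup
open Cfsg.Agent.ClassificationK.TIPair (cj mem_normalizer_cj normalizer_of_cj_eq cj_eq_of_mem_normalizer)
open Cfsg.Agent.ClassificationK.TIFamily (mem_cj cj_mul cj_one)

universe u

variable {G : Type u} [Group G] {B A C : Subgroup G} [Finite G]

/-- two neighbours `a`, `x` acting on `B` and agreeing on the class `b` fixed by both agree on `B` -/
theorem Adj.br_agree {X : Subgroup G} (h : Adj B A) (hX : Adj B X) {a x b : G} (ha : a ∈ Om A) (hx : x ∈ Om X)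
    (hb : b ∈ B) (hbO : b ∉ Om B) (hab : br a b = b * b) (hxb : br x b = b * b) {d : G} (hd : d ∈ B) :
    br a d = br x d := by
  have hb2 := h.base.sq_ne hb hbO
  have ha1 : a ≠ 1 := by
    rintro rfl
    apply hb2; rw [← hab]; simp [br]
  have hx1 : x ≠ 1 := by
    rintro rfl
    apply hb2; rw [← hxb]; simp [br]
  by_cases hdO : d ∈ Om B
  · rw [h.br_Om ha hdO, hX.br_Om hx hdO]
  by_cases hbd : b * b = d * d
  · rw [← h.br_congr ha hb hd hbd, ← hX.br_congr hx hb hd hbd, hab, hxb]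
  · rw [h.br_other ha ha1 hb hbO hab hd hdO hbd, hX.br_other hx hx1 hb hbO hxb hd hdO hbd]

/-- every `x ∈ Om X`, `X` a neighbour of `B`, acts on `B` as an element of `Om A` -/
theorem Adj.exists_agree {X : Subgroup G} (h : Adj B A) (hX : Adj B X) {x : G} (hx : x ∈ Om X) (hx1 : x ≠ 1) :
    ∃ a ∈ Om A, a ≠ 1 ∧ ∃ b ∈ B, b ∉ Om B ∧ br a b = b * b ∧ br x b = b * b ∧ ∀ d ∈ B, br a d = br x d := by
  obtain ⟨b, hb, hbO, hxb⟩ := hX.exists_br_eq_sq hx hx1
  obtain ⟨a, ha, hab⟩ := h.br_left_surj hb hbO (h.base.sq_mem_Om hb)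
  refine ⟨a, ha, ?_, b, hb, hbO, hab, hxb, fun d hd => h.br_agree hX ha hx hb hbO hab hxb hd⟩
  rintro rfl
  apply h.base.sq_ne hb hbO
  rw [← hab]; simp [br]

theorem comm_of_br_eq {a x d : G} (h : br a d = br x d) : (a⁻¹ * x) * d = d * (a⁻¹ * x) := by
  have h1 : a * d * a⁻¹ = x * d * x⁻¹ := by rw [conj_eq_br, conj_eq_br, h]
  calc (a⁻¹ * x) * d = a⁻¹ * (x * d * x⁻¹) * x := by group
    _ = a⁻¹ * (a * d * a⁻¹) * x := by rw [h1]
    _ = d * (a⁻¹ * x) := by group

/-- if `a k` is an involution, `k ∈ B`, then `[a,k] = k²` -/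
theorem Adj.br_of_sq (h : Adj B A) {a k : G} (ha : a ∈ Om A) (hk : k ∈ B) (hsq : a * k * (a * k) = 1) :
    br a k = k * k := by
  have hai := h.Om_inv ha
  have h1 : br a k * (k * k) = 1 := by
    calc br a k * (k * k) = a * k * (a⁻¹ * k) := by rw [br]; group
      _ = a * k * (a * k) := by rw [hai]
      _ = 1 := hsq
  have h2 := h.base.exp k hk
  have h3 : br a k = (k * k)⁻¹ := eq_inv_of_mul_eq_one_left h1
  rw [h3]
  exact inv_eq_self h2

/-- uniqueness of the class fixed by `a` -/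
theorem Adj.sq_eq_of_br (h : Adj B A) {a b c : G} (ha : a ∈ Om A) (ha1 : a ≠ 1) (hb : b ∈ B) (hbO : b ∉ Om B)
    (hc : c ∈ B) (hcO : c ∉ Om B) (hab : br a b = b * b) (hac : br a c = c * c) : b * b = c * c := by
  by_contra hne
  have h1 := h.br_other ha ha1 hb hbO hab hc hcO hne
  rw [h1] at hac
  exact h.base.sq_ne hb hbO (mul_eq_right.1 hac)

/-- `B` is self-centralising, with two lines -/
structure Full (B A C : Subgroup G) : Prop where
  adjA : Adj B A
  adjC : Adj B C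
  cent : ∀ k : G, (∀ b ∈ B, k * b = b * k) → k ∈ B
  ne : ¬ Om C ≤ Om A ⊔ Om B

theorem Full.conj (h : Full B A C) (g : G) : Full (cj g B) (cj g A) (cj g C) where
  adjA := h.adjA.conj g
  adjC := h.adjC.conj g
  cent := by
    intro k hk
    rw [mem_cj]
    apply h.cent
    intro b hb
    have h1 := hk _ (cj_mem (g := g) hb)
    calc g⁻¹ * k * g * b = g⁻¹ * (k * (g * b * g⁻¹)) * g := by group
      _ = g⁻¹ * ((g * b * g⁻¹) * k) * g := by rw [h1]
      _ = b * (g⁻¹ * k * g) := by group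
  ne := by
    intro h1
    apply h.ne
    rw [← cj_Om h.adjA.baseA.comm, ← cj_Om h.adjC.baseA.comm, ← cj_Om h.adjA.base.comm] at h1
    have h2 : cj g (Om A) ⊔ cj g (Om B) = cj g (Om A ⊔ Om B) := (Subgroup.map_sup _ _ _).symm
    rw [h2] at h1
    exact cj_le_cj.1 h1

/-- an involution of a neighbour of `B` is `a k`, `k ∈ B`, with `[a,k] = k²` -/
theorem Full.form {X : Subgroup G} (h : Full B A C) (hX : Adj B X) {x : G} (hx : x ∈ Om X) (hx1 : x ≠ 1) :
    ∃ a ∈ Om A, a ≠ 1 ∧ ∃ k ∈ B, x = a * k ∧ br a k = k * k ∧ ∀ d ∈ B, br a d = br x d := by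
  obtain ⟨a, ha, ha1, b, hb, hbO, hab, hxb, hall⟩ := h.adjA.exists_agree hX hx hx1
  have hk : a⁻¹ * x ∈ B := h.cent _ (fun d hd => comm_of_br_eq (hall d hd))
  have hxk : x = a * (a⁻¹ * x) := by group
  refine ⟨a, ha, ha1, a⁻¹ * x, hk, hxk, ?_, hall⟩
  apply h.adjA.br_of_sq ha hk
  rw [← hxk]
  exact hX.baseA.Om_sq hx

/-- elements of `Om C` -/
theorem Full.formC (h : Full B A C) {c : G} (hc : c ∈ Om C) (hc1 : c ≠ 1) :
    ∃ a ∈ Om A, a ≠ 1 ∧ ∃ k ∈ B, k ∉ Om B ∧ c = a * k ∧ br a k = k * k ∧ ∀ d ∈ B, br a d = br c d := by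
  obtain ⟨a, ha, ha1, k, hk, hck, hbr, hall⟩ := h.form h.adjC hc hc1
  refine ⟨a, ha, ha1, k, hk, ?_, hck, hbr, hall⟩
  intro hkO
  apply h.ne
  have hcU : c ∈ Om A ⊔ Om B := h.adjA.mem_line.2 ⟨a, ha, k, hkO, hck⟩
  exact Om_le_of_mem h.adjA.base h.adjA.line_mem_VV h.adjC.mem (h.adjC.baseA.Om_le hc) hc1 hcU

/-- the neighbours of `B` lie in the two lines -/
theorem Full.neighbour {X : Subgroup G} (h : Full B A C) (hX : Adj B X) :
    Om X ≤ Om A ⊔ Om B ∨ Om X ≤ Om C ⊔ Om B := by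
  obtain ⟨x, hx, hx1⟩ := hX.baseA.exists_ne
  obtain ⟨a, ha, ha1, k, hk, hxk, hbr, hall⟩ := h.form hX hx hx1
  by_cases hkO : k ∈ Om B
  · left
    exact Om_le_of_mem h.adjA.base h.adjA.line_mem_VV hX.mem (hX.baseA.Om_le hx) hx1
      (h.adjA.mem_line.2 ⟨a, ha, k, hkO, hxk⟩)
  · right
    obtain ⟨c, hc, hck⟩ := h.adjC.br_left_surj hk hkO (h.adjC.base.sq_mem_Om hk)
    have hc1 : c ≠ 1 := by
      rintro rfl
      apply h.adjC.base.sq_ne hk hkO
      rw [← hck]; simp [br]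
    obtain ⟨a', ha', ha1', k', hk', hkO', hck', hbr', hall'⟩ := h.formC hc hc1
    have haa : a' = a := by
      apply h.adjA.br_left_inj ha' ha hk hkO
      rw [hall' k hk, hck, hbr]
    subst haa
    have hkk := h.adjA.sq_eq_of_br ha ha1 hk hkO hk' hkO' hbr hbr'
    have h1 := h.adjA.base.inv_mul_mem hk' hk hkk.symm
    have hxU : x ∈ Om C ⊔ Om B := by
      rw [h.adjC.mem_line]
      refine ⟨c, hc, _, h1, ?_⟩
      rw [hxk, hck']; group
    exact Om_le_of_mem h.adjC.base h.adjC.line_mem_VV hX.mem (hX.baseA.Om_le hx) hx1 hxU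

theorem Full.ends (h : Full B A C) : Ends (EE B) (VV B) (Om B) (Om A ⊔ Om B) (Om C ⊔ Om B) where
  hU := h.adjA.line_mem_VV
  hW := h.adjC.line_mem_VV
  ne := fun h1 => h.ne (h1 ▸ le_sup_left)
  leU := le_sup_right
  leW := le_sup_right
  uniq := by
    intro U' hU' hBU
    have hB := h.adjA.base
    -- a neighbour `Z` of `B` in `U'`
    obtain ⟨Z, hZ, hZB, hZU⟩ : ∃ Z ∈ Cl B, Z ≠ B ∧ Om Z ≤ U' := by
      obtain ⟨X, Y, hX, hXY, rfl⟩ := hU'
      by_cases hXB : X = B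
      · refine ⟨Y, ?_, ?_, le_sup_right⟩
        · rw [← Cl_eq hX]; exact hXY.mem
        · rw [← hXB]; exact hXY.ne
      · exact ⟨X, hX, hXB, le_sup_left⟩
    obtain ⟨hadj, hUeq⟩ := VV_eq_sup hB hU' (self_mem_Cl B) hZ hZB hBU hZU
    have h16 := (VV_spec hB hU').1
    rcases h.neighbour hadj with h1 | h1
    · left
      apply Subgroup.eq_of_le_of_card_ge
      · rw [hUeq]; exact sup_le h1 le_sup_right
      · rw [h16, h.adjA.card_line]
    · right
      apply Subgroup.eq_of_le_of_card_ge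
      · rw [hUeq]; exact sup_le h1 le_sup_right
      · rw [h16, h.adjC.card_line]
  comm := by
    rintro x hx hx1 _ ⟨Y, hY, rfl⟩ y hy hy1 hxy
    have hB := h.adjA.base
    by_cases hYB : Y = B
    · left
      rw [← hYB]
      exact (le_sup_right : Om Y ≤ Om A ⊔ Om Y) hy
    · have hadj : Adj B Y := hB.adj_of_comm hY hYB ((hB.of_mem hY).Om_le hy) hy1 (hB.Om_le hx) hx1 hxy.symm
      rcases h.neighbour hadj with h1 | h1
      · exact Or.inl (h1 hy)
      · exact Or.inr (h1 hy)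
  sq := by
    intro u hu w hw huB hwB
    obtain ⟨a, ha, y, hy, rfl⟩ := h.adjA.mem_line.1 hu
    obtain ⟨c, hc, y', hy', rfl⟩ := h.adjC.mem_line.1 hw
    have hc1 : c ≠ 1 := by
      rintro rfl
      apply hwB
      rw [one_mul]; exact hy'
    have ha1 : a ≠ 1 := by
      rintro rfl
      apply huB
      rw [one_mul]; exact hy
    obtain ⟨a', ha', ha1', k', hk', hkO', hck', hbr', hall'⟩ := h.formC hc hc1
    have hB := h.adjA.base
    have hα := (Om A).mul_mem ha ha'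
    have he := (Om B).mul_mem hy hy'
    have hya' := h.adjA.comm_Om_Om ha' hy
    have hyk' := hB.comm _ (hB.Om_le hy) _ hk'
    have heα := h.adjA.comm_Om_Om hα he
    have hek := hB.comm _ (hB.Om_le he) _ hk'
    have h1 : a * y * (c * y') = (a * a') * k' * (y * y') := by
      rw [hck']
      calc a * y * (a' * k' * y') = a * (y * a') * k' * y' := by group
        _ = a * (a' * y) * k' * y' := by rw [hya']
        _ = a * a' * (y * k') * y' := by group
        _ = a * a' * (k' * y) * y' := by rw [hyk']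
        _ = (a * a') * k' * (y * y') := by group
    have h2 : a * y * (c * y') * (a * y * (c * y')) = br (a * a') k' * (k' * k') := by
      rw [h1]
      calc a * a' * k' * (y * y') * (a * a' * k' * (y * y'))
          = a * a' * k' * ((y * y') * (a * a')) * k' * (y * y') := by group
        _ = a * a' * k' * ((a * a') * (y * y')) * k' * (y * y') := by rw [heα]
        _ = a * a' * k' * (a * a') * ((y * y') * k') * (y * y') := by group
        _ = a * a' * k' * (a * a') * (k' * (y * y')) * (y * y') := by rw [hek]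
        _ = a * a' * k' * (a * a') * k' * ((y * y') * (y * y')) := by group
        _ = a * a' * k' * (a * a')⁻¹ * k' := by rw [hB.Om_sq he, mul_one, h.adjA.Om_inv hα]
        _ = br (a * a') k' * (k' * k') := by rw [br]; group
    rw [h2]
    refine ⟨(Om B).mul_mem (h.adjA.br_mem hα hk') (hB.sq_mem_Om hk'), ?_⟩
    intro h3
    have h4 : br (a * a') k' = k' * k' := by
      rw [eq_inv_of_mul_eq_one_left h3]
      exact inv_eq_self (hB.exp k' hk')
    have h5 := h.adjA.br_left_inj hα ha' hk' hkO' (h4.trans hbr'.symm)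
    exact ha1 (mul_eq_right.1 h5)

theorem Full.geo (h : Full B A C) : Geo (EE B) (VV B) where
  conjE := by
    rintro g _ ⟨X, hX, rfl⟩
    exact ⟨cj g X, cj_mem_Cl hX g, cj_Om (h.adjA.base.of_mem hX).comm g⟩
  conjV := by
    rintro g _ ⟨X, Y, hX, hXY, rfl⟩
    refine ⟨cj g X, cj g Y, cj_mem_Cl hX g, hXY.conj g, ?_⟩
    rw [← cj_Om hXY.base.comm, ← cj_Om hXY.baseA.comm]
    exact Subgroup.map_sup _ _ _
  cardE := by
    rintro _ ⟨X, hX, rfl⟩
    exact (h.adjA.base.of_mem hX).om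
  ti := by
    rintro _ ⟨X, hX, rfl⟩ _ ⟨Y, hY, rfl⟩ x hx hy hx1
    rw [h.adjA.base.ti2 hX hY ((h.adjA.base.of_mem hX).Om_le hx) ((h.adjA.base.of_mem hY).Om_le hy) hx1]
  cardV := fun U hU => (VV_spec h.adjA.base hU).1
  sqV := fun U hU => (VV_spec h.adjA.base hU).2.1
  cover := by
    intro U hU x hx hx1
    obtain ⟨X, hX, hxX, hXU⟩ := (VV_spec h.adjA.base hU).2.2 x hx hx1
    exact ⟨Om X, ⟨X, hX, rfl⟩, hxX, hXU⟩
  two := by
    rintro _ ⟨X, ⟨g, rfl⟩, rfl⟩
    have h1 := (h.conj g).ends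
    rw [EE_eq ⟨g, rfl⟩, VV_eq ⟨g, rfl⟩] at h1
    exact ⟨_, _, h1⟩
  trans := by
    rintro _ ⟨X, ⟨g, rfl⟩, rfl⟩ _ ⟨Y, ⟨k, rfl⟩, rfl⟩
    refine ⟨k * g⁻¹, ?_⟩
    rw [cj_Om (h.adjA.base.conj g).comm, cj_cj, inv_mul_cancel_right]

end Cfsg.Agent.TIAbelian.End
end

-- part: TIAbelian/EndOdd
section
/-!
# Odd order subgroups normalising a line; the index of `N(B)`
-/

set_option autoImplicit false
set_option linter.unusedSectionVars false

namespace Cfsg.Agent.TIAbelian.End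

open Subgroup
open Cfsg.Agent.ClassificationK.TIPair (cj mem_normalizer_cj normalizer_of_cj_eq cj_eq_of_mem_normalizer)
open Cfsg.Agent.ClassificationK.TIFamily (mem_cj cj_mul cj_one)

universe u

variable {G : Type u} [Group G] {B A C : Subgroup G} [Finite G]

/-- odd order subgroups of the symmetric group of degree 5 have order at most 5 -/
theorem card_le_five_perm (R : Subgroup (Equiv.Perm (Fin 5))) (hR : Odd (Nat.card R)) : Nat.card R ≤ 5 := by
  classical
  have hRA : R ≤ alternatingGroup (Fin 5) := by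
    intro r hr
    rw [Equiv.Perm.mem_alternatingGroup]
    have h1 : orderOf r ∣ Nat.card R := by
      have := orderOf_dvd_natCard (⟨r, hr⟩ : R)
      rwa [Subgroup.orderOf_mk] at this
    have h2 : Odd (orderOf r) := Odd.of_dvd_nat hR h1
    have h3 : (Equiv.Perm.sign r) ^ orderOf r = 1 := by rw [← map_pow, pow_orderOf_eq_one, map_one]
    rcases Int.units_eq_one_or (Equiv.Perm.sign r) with h4 | h4
    · exact h4
    · rw [h4, h2.neg_one_pow] at h3
      exact absurd h3 (by decide)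
  let K : Subgroup (alternatingGroup (Fin 5)) := R.subgroupOf (alternatingGroup (Fin 5))
  have hK : Nat.card K = Nat.card R := Nat.card_congr (Subgroup.subgroupOfEquivOfLe hRA).toEquiv
  have hA5 : Nat.card (alternatingGroup (Fin 5)) = 60 := by
    have := nat_card_alternatingGroup (α := Fin 5)
    rw [this, Nat.card_eq_fintype_card, Fintype.card_fin]
    decide
  have hdvd : Nat.card K ∣ 60 := by
    rw [← hA5]; exact Subgroup.card_subgroup_dvd_card K
  by_contra hgt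
  push Not at hgt
  rw [← hK] at hR hgt
  have h15 : Nat.card K = 15 := by
    have hle : Nat.card K ≤ 60 := Nat.le_of_dvd (by norm_num) hdvd
    generalize Nat.card K = n at hdvd hR hgt hle
    interval_cases n <;> revert hR hdvd <;> decide
  have hidx : K.index = 4 := by
    have := K.card_mul_index
    rw [hA5, h15] at this
    omega
  have : IsSimpleGroup (alternatingGroup (Fin 5)) := alternatingGroup.isSimpleGroup_five
  have hker := (MulAction.toPermHom (alternatingGroup (Fin 5)) (alternatingGroup (Fin 5) ⧸ K)).normal_ker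
  rcases hker.eq_bot_or_eq_top with h1 | h1
  · have hinj := (MonoidHom.ker_eq_bot_iff _).1 h1
    have h2 := Nat.card_le_card_of_injective _ hinj
    rw [hA5, Nat.card_perm] at h2
    have h3 : Nat.card (alternatingGroup (Fin 5) ⧸ K) = 4 := hidx
    rw [h3] at h2
    exact absurd h2 (by decide)
  · rw [← Subgroup.normalCore_eq_ker] at h1
    have h2 : K = ⊤ := top_le_iff.1 (h1 ▸ Subgroup.normalCore_le K)
    rw [h2, Subgroup.card_top, hA5] at h15
    omega

theorem card_le_five {K : Type*} [Group K] [Finite K] (hK : Odd (Nat.card K)) {α : Type*} [Finite α]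
    (hα : Nat.card α = 5) (φ : K →* Equiv.Perm α) (hφ : Function.Injective φ) : Nat.card K ≤ 5 := by
  classical
  let e : α ≃ Fin 5 := Finite.equivFinOfCardEq hα
  let ψ : K →* Equiv.Perm (Fin 5) := (e.permCongrHom).toMonoidHom.comp φ
  have hψ : Function.Injective ψ := (MulEquiv.injective e.permCongrHom).comp hφ
  have h1 : Nat.card ψ.range = Nat.card K := Nat.card_congr (MonoidHom.ofInjective hψ).symm.toEquiv
  rw [← h1]
  apply card_le_five_perm
  rw [h1]; exact hK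

theorem cj_Om_eq {X : Subgroup G} (hB : Base X) {k : G} (hk : cj k (Om X) = Om X) : cj k X = X := by
  obtain ⟨y, hy, hy1⟩ := hB.exists_ne
  apply hB.ti k y (hB.Om_le hy) hy1
  have := cj_mem (g := k) hy
  rw [hk] at this
  exact hB.Om_le this

/-- elements of odd order normalising `A`, `B` and all `A^b` centralise `B` -/
theorem Adj.comm_of_odd (h : Adj B A) {k : G} (hkA : cj k A = A) (hkB : cj k B = B)
    (hkb : ∀ b ∈ B, cj k (cj b A) = cj b A) (hodd : Odd (orderOf k)) : ∀ b ∈ B, k * b = b * k := by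
  have hc : ∀ b ∈ B, b⁻¹ * (k * b * k⁻¹) ∈ Om B := by
    intro b hb
    apply h.symm.mem_Om_of_norm (B.mul_mem (B.inv_mem hb) (conj_mem hkB hb))
    have h1 := hkb b hb
    rw [cj_cj] at h1
    have h2 : cj (k * b * k⁻¹) A = cj b A := by
      rw [← h1, ← cj_cj, cj_inv_eq hkA]
    rw [← cj_cj, h2, cj_cancel]
  have hOm : ∀ y ∈ Om B, k * y = y * k := by
    intro y hy
    obtain ⟨b, hb, rfl⟩ := h.base.sq_surj hy
    have h1 := hc b hb
    have h2 : k * b * k⁻¹ = b * (b⁻¹ * (k * b * k⁻¹)) := by group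
    have h3 : k * (b * b) * k⁻¹ = b * b := by
      calc k * (b * b) * k⁻¹ = (k * b * k⁻¹) * (k * b * k⁻¹) := by group
        _ = b * (b⁻¹ * (k * b * k⁻¹)) * (b * (b⁻¹ * (k * b * k⁻¹))) := by rw [← h2]
        _ = b * b := by rw [h.base.sq_mul hb (h.base.Om_le h1), h.base.Om_sq h1, mul_one]
    calc k * (b * b) = (k * (b * b) * k⁻¹) * k := by group
      _ = b * b * k := by rw [h3]
  intro b hb
  set c := b⁻¹ * (k * b * k⁻¹) with hcdef
  have hcO : c ∈ Om B := hc b hb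
  have hkc := hOm c hcO
  have h1 : k * b * k⁻¹ = b * c := by rw [hcdef]; group
  have hpow : ∀ n : ℕ, k ^ n * b * (k ^ n)⁻¹ = b * c ^ n := by
    intro n
    induction n with
    | zero => simp
    | succ n ih =>
      have hkcn : k * c ^ n = c ^ n * k := ((show Commute k c from hkc).pow_right n)
      calc k ^ (n + 1) * b * (k ^ (n + 1))⁻¹ = k * (k ^ n * b * (k ^ n)⁻¹) * k⁻¹ := by
            rw [pow_succ']; group
        _ = k * (b * c ^ n) * k⁻¹ := by rw [ih]
        _ = (k * b * k⁻¹) * (k * c ^ n) * k⁻¹ := by group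
        _ = (b * c) * (c ^ n * k) * k⁻¹ := by rw [h1, hkcn]
        _ = b * c ^ (n + 1) := by rw [pow_succ']; group
  have h2 := hpow (orderOf k)
  rw [pow_orderOf_eq_one] at h2
  have h3 : c ^ orderOf k = 1 := by
    have : b * c ^ orderOf k = b * 1 := by rw [← h2]; group
    exact mul_left_cancel this
  have h4 : c = 1 := by
    obtain ⟨m, hm⟩ := hodd
    rw [hm, pow_succ, pow_mul, pow_two, h.base.Om_sq hcO, one_pow, one_mul] at h3
    exact h3
  rw [h4, mul_one] at h1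
  calc k * b = (k * b * k⁻¹) * k := by group
    _ = b * k := by rw [h1]

/-- odd order subgroups of the normaliser of a line have order at most 5 -/
theorem Full.hodd (h : Full B A C) (K : Subgroup G) (hK : K ≤ normalizer ((Om A ⊔ Om B : Subgroup G) : Set G))
    (hKodd : Odd (Nat.card K)) : Nat.card K ≤ 5 := by
  classical
  set U : Subgroup G := Om A ⊔ Om B with hU
  have hg := h.geo
  have hUV : U ∈ VV B := h.adjA.line_mem_VV
  let α := {X // X ∈ mems (EE B) U}
  have hα : Nat.card α = 5 := by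
    rw [← hg.card_mems hUV, Nat.card_eq_fintype_card]
    exact Fintype.card_coe _
  have hact : ∀ k : K, ∀ X : α, cj (k : G) X.1 ∈ mems (EE B) U := by
    intro k X
    have hX := mem_mems.1 X.2
    rw [mem_mems]
    refine ⟨hg.conjE _ _ hX.1, ?_⟩
    have h1 : cj (k : G) X.1 ≤ cj (k : G) U := cj_le_cj.2 hX.2
    rwa [cj_eq_of_mem_normalizer (hK k.2)] at h1
  let inst : MulAction K α :=
    { smul := fun k X => ⟨cj (k : G) X.1, hact k X⟩
      one_smul := fun X => Subtype.ext (cj_one' X.1)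
      mul_smul := fun k l X => Subtype.ext (cj_cj (k : G) (l : G) X.1).symm }
  have hsmul : ∀ (k : K) (X : α), ((k • X : α) : Subgroup G) = cj (k : G) X.1 := fun _ _ => rfl
  apply card_le_five hKodd hα (MulAction.toPermHom K α)
  rw [← MonoidHom.ker_eq_bot_iff, eq_bot_iff]
  intro k hk
  rw [MonoidHom.mem_ker] at hk
  have hfix : ∀ X ∈ mems (EE B) U, cj (k : G) X = X := by
    intro X hX
    exact congrArg (fun σ : Equiv.Perm α => ((σ ⟨X, hX⟩ : α) : Subgroup G)) hk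
  have hOmA : Om A ∈ mems (EE B) U := mem_mems.2 ⟨⟨A, h.adjA.mem, rfl⟩, le_sup_left⟩
  have hOmB : Om B ∈ mems (EE B) U := mem_mems.2 ⟨⟨B, self_mem_Cl B, rfl⟩, le_sup_right⟩
  have hkA : cj (k : G) A = A := cj_Om_eq h.adjA.baseA (hfix _ hOmA)
  have hkB : cj (k : G) B = B := cj_Om_eq h.adjA.base (hfix _ hOmB)
  have hkb : ∀ b ∈ B, cj (k : G) (cj b A) = cj b A := by
    intro b hb
    apply cj_Om_eq (h.adjA.baseA.conj b)
    apply hfix
    rw [mem_mems]
    refine ⟨⟨cj b A, cj_mem_Cl h.adjA.mem b, rfl⟩, ?_⟩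
    rw [← cj_Om h.adjA.baseA.comm]
    exact le_trans (cj_le_cj.2 le_sup_left) (h.adjA.conj_line hb)
  have hko : Odd (orderOf (k : G)) := by
    rw [Subgroup.orderOf_coe]
    exact Odd.of_dvd_nat hKodd (orderOf_dvd_natCard k)
  have h1 := h.adjA.comm_of_odd hkA hkB hkb hko
  have h2 := h.cent _ h1
  have h3 := h.adjA.base.exp _ h2
  have h4 : (k : G) ^ 4 = 1 := by
    rw [show (4 : ℕ) = 2 + 2 from rfl, pow_add, pow_two]
    exact h3
  have h5 := orderOf_dvd_of_pow_eq_one h4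
  have h6 : orderOf (k : G) = 1 := by
    have h7 : orderOf (k : G) ≤ 4 := Nat.le_of_dvd (by norm_num) h5
    generalize orderOf (k : G) = n at *
    interval_cases n <;> revert hko h5 <;> decide
  rw [mem_bot]
  exact Subtype.ext (orderOf_eq_one_iff.1 h6)

/-- the number of conjugates of `B` is odd -/
theorem Base.odd_index (h : Base B) : Odd (normalizer (B : Set G)).index := by
  have h2 : Fact (Nat.Prime 2) := ⟨Nat.prime_two⟩
  have hp : IsPGroup 2 B := IsPGroup.of_card (n := 4) (by rw [h.card]; norm_num)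
  have h1 := hp.card_modEq_card_fixedPoints (G ⧸ normalizer (B : Set G))
  have hfix : MulAction.fixedPoints B (G ⧸ normalizer (B : Set G)) = {((1 : G) : G ⧸ normalizer (B : Set G))} := by
    ext x
    induction x using QuotientGroup.induction_on with
    | H g =>
      rw [MulAction.mem_fixedPoints, Set.mem_singleton_iff]
      constructor
      · intro hx
        have h3 : cj g⁻¹ B = B := by
          apply h.wc
          intro y hy
          rw [mem_cj, inv_inv] at hy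
          have h4 := hx ⟨g * y * g⁻¹, hy⟩
          have h5 : (((g * y * g⁻¹) * g : G) : G ⧸ normalizer (B : Set G)) = (g : G ⧸ normalizer (B : Set G)) := h4
          have h6 := QuotientGroup.eq.1 h5.symm
          convert h6 using 1
          group
        have h4 := normalizer_of_cj_eq h3
        rw [QuotientGroup.eq, mul_one]
        exact h4
      · intro hx b
        rw [hx]
        change (((b : G) * 1 : G) : G ⧸ normalizer (B : Set G)) = _
        rw [QuotientGroup.eq]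
        simp only [mul_one, Subgroup.inv_mem_iff]
        exact le_normalizer b.2
  rw [hfix] at h1
  have h3 : Nat.card ({((1 : G) : G ⧸ normalizer (B : Set G))} : Set (G ⧸ normalizer (B : Set G))) = 1 := by
    rw [Nat.card_eq_one_iff_unique]
    exact ⟨⟨fun a b => Subtype.ext (a.2.trans b.2.symm)⟩, ⟨⟨_, rfl⟩⟩⟩
  rw [h3] at h1
  rw [Nat.odd_iff]
  exact h1

theorem Base.normalizer_Om (h : Base B) : normalizer (Om B : Set G) = normalizer (B : Set G) := by
  ext g
  constructor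
  · intro hg
    exact normalizer_of_cj_eq (cj_Om_eq h (cj_eq_of_mem_normalizer hg))
  · intro hg
    apply normalizer_of_cj_eq
    rw [cj_Om h.comm, cj_eq_of_mem_normalizer hg]

end Cfsg.Agent.TIAbelian.End
end

-- part: TIAbelian/EndOrderThree
section
/-!
# The element `h` of order 3 of the torus
-/

set_option autoImplicit false
set_option linter.unusedSectionVars false

namespace Cfsg.Agent.TIAbelian.End

open Subgroup
open Cfsg.Agent.ClassificationK.TIPair (cj mem_normalizer_cj normalizer_of_cj_eq cj_eq_of_mem_normalizer)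
open Cfsg.Agent.ClassificationK.TIFamily (mem_cj cj_mul cj_one)

universe u

variable {G : Type u} [Group G] {B A C : Subgroup G} [Finite G]

/-- `t` normalises `X` and moves all nontrivial elements of `Om X` -/
structure Mv (X : Subgroup G) (t : G) : Prop where
  norm : cj t X = X
  mv : ∀ x ∈ Om X, x ≠ 1 → t * x * t⁻¹ ≠ x

theorem conj_Om_mem {X : Subgroup G} (hX : Base X) {t x : G} (ht : cj t X = X) (hx : x ∈ Om X) :
    t * x * t⁻¹ ∈ Om X := by
  have h1 := cj_mem (g := t) hx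
  rwa [cj_Om hX.comm, ht] at h1

theorem Mv.sq {X : Subgroup G} (hX : Base X) {t : G} (ht : Mv X t) {x : G} (hx : x ∈ Om X) :
    t * (t * x * t⁻¹) * t⁻¹ = x * (t * x * t⁻¹) := by
  by_cases hx1 : x = 1
  · rw [hx1]; simp
  set y := t * x * t⁻¹ with hy
  have hyO : y ∈ Om X := conj_Om_mem hX ht.norm hx
  have hzO : t * y * t⁻¹ ∈ Om X := conj_Om_mem hX ht.norm hyO
  have hy1 : y ≠ 1 := by
    intro h1
    apply hx1
    calc x = t⁻¹ * (t * x * t⁻¹) * t := by group
      _ = 1 := by rw [← hy, h1]; group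
  have hxy : y ≠ x := ht.mv x hx hx1
  have hc := hX.comm x (hX.Om_le hx) y (hX.Om_le hyO)
  rcases hX.four hx hyO hx1 hy1 hxy.symm hzO with h1 | h1 | h1 | h1
  · exfalso
    apply hy1
    calc y = t⁻¹ * (t * y * t⁻¹) * t := by group
      _ = 1 := by rw [h1]; group
  · exfalso
    -- `t` swaps `x` and `y`
    have hxy1 : x * y ≠ 1 := by
      intro h2
      apply hxy
      have h3 := hX.Om_sq hx
      calc y = (x * x) * y := by rw [h3, one_mul]
        _ = x * (x * y) := by group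
        _ = x := by rw [h2, mul_one]
    apply ht.mv (x * y) ((Om X).mul_mem hx hyO) hxy1
    calc t * (x * y) * t⁻¹ = (t * x * t⁻¹) * (t * y * t⁻¹) := by group
      _ = y * x := by rw [h1, ← hy]
      _ = x * y := hc.symm
  · exact absurd h1 (ht.mv y hyO hy1)
  · exact h1

/-- the cube centralises `Om X` -/
theorem Mv.cube {X : Subgroup G} (hX : Base X) {t : G} (ht : Mv X t) {x : G} (hx : x ∈ Om X) :
    t ^ 3 * x = x * t ^ 3 := by
  have h1 := ht.sq hX hx
  have hyO : t * x * t⁻¹ ∈ Om X := conj_Om_mem hX ht.norm hx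
  have h2 := ht.sq hX hyO
  have hc := hX.comm x (hX.Om_le hx) _ (hX.Om_le hyO)
  have h3 : t * (t * (t * x * t⁻¹) * t⁻¹) * t⁻¹ = x := by
    rw [h2, h1, hc, ← mul_assoc, hX.Om_sq hyO, one_mul]
  calc t ^ 3 * x = (t * (t * (t * x * t⁻¹) * t⁻¹) * t⁻¹) * t ^ 3 := by
        rw [pow_succ, pow_two]; group
    _ = x * t ^ 3 := by rw [h3]

theorem Mv.inv {X : Subgroup G} (hX : Base X) {t : G} (ht : Mv X t) : Mv X t⁻¹ where
  norm := cj_inv_eq ht.norm
  mv := by
    intro x hx hx1 h1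
    rw [inv_inv] at h1
    apply ht.mv x hx hx1
    conv_lhs => rw [← h1]
    group

/-- an element centralising `Om B` and normalising `B` moves `b` by an element of `Om B` -/
theorem Base.br_mem_of_comm (hB : Base B) {k : G} (hkB : cj k B = B) (hk : ∀ y ∈ Om B, k * y = y * k)
    {b : G} (hb : b ∈ B) : br k b ∈ Om B := by
  have h1 : k * b * k⁻¹ ∈ B := conj_mem hkB hb
  rw [mem_Om hB.comm]
  refine ⟨B.mul_mem h1 (B.inv_mem hb), ?_⟩
  have h2 := hk _ (hB.sq_mem_Om hb)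
  have h3 := hB.comm _ h1 _ (B.inv_mem hb)
  calc br k b * br k b = (k * b * k⁻¹) * (b⁻¹ * (k * b * k⁻¹)) * b⁻¹ := by rw [br]; group
    _ = (k * b * k⁻¹) * ((k * b * k⁻¹) * b⁻¹) * b⁻¹ := by rw [h3]
    _ = (k * (b * b)) * k⁻¹ * b⁻¹ * b⁻¹ := by group
    _ = 1 := by rw [h2]; group

theorem Base.sq_comm (hB : Base B) {k : G} (hkB : cj k B = B) (hk : ∀ y ∈ Om B, k * y = y * k)
    {b : G} (hb : b ∈ B) : k * k * b = b * (k * k) := by
  have h1 := hB.br_mem_of_comm hkB hk hb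
  have h2 := conj_eq_br k b
  have h3 := hk _ h1
  have h4 : k * (k * b * k⁻¹) * k⁻¹ = b := by
    calc k * (k * b * k⁻¹) * k⁻¹ = (k * br k b) * b * k⁻¹ := by rw [h2]; group
      _ = (br k b * k) * b * k⁻¹ := by rw [h3]
      _ = br k b * (k * b * k⁻¹) := by group
      _ = br k b * br k b * b := by rw [h2]; group
      _ = b := by rw [hB.Om_sq h1, one_mul]
  calc k * k * b = (k * (k * b * k⁻¹) * k⁻¹) * (k * k) := by group
    _ = b * (k * k) := by rw [h4]

/-- an element of order 3 of the torus -/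
theorem Adj.exists_three (h : Adj B A) (hcent : ∀ k : G, (∀ b ∈ B, k * b = b * k) → k ∈ B) :
    ∃ t ∈ A ⊔ B, t ^ 3 = 1 ∧ Mv A t ∧ Mv B t := by
  obtain ⟨s, hs, hsA, hsB, hs1, hs2⟩ := h.exists_torus
  have mA : Mv A s := ⟨hsA, hs1⟩
  have mB : Mv B s := ⟨hsB, hs2⟩
  -- `s^24 = 1`
  have h3B : cj (s ^ 3) B = B := by
    have : s ^ 3 = s * (s * s) := by rw [pow_succ', pow_two]
    rw [this, ← cj_cj, ← cj_cj, hsB, hsB, hsB]
  have h6 : s ^ 3 * s ^ 3 ∈ B := hcent _ (fun b hb => h.base.sq_comm h3B (fun y hy => mB.cube h.base hy) hb)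
  have h24 : s ^ 24 = 1 := by
    have h7 := h.base.exp _ h6
    have h8 : s ^ 24 = s ^ 3 * s ^ 3 * (s ^ 3 * s ^ 3) * (s ^ 3 * s ^ 3 * (s ^ 3 * s ^ 3)) := by
      simp only [← pow_add]
    rw [h8, h7]
  -- `t = s^16 = s · s^15`
  have key : ∀ X : Subgroup G, Base X → Mv X s → Mv X (s ^ 16) := by
    intro X hX m
    have hc : ∀ x ∈ Om X, s ^ 16 * x * (s ^ 16)⁻¹ = s * x * s⁻¹ := by
      intro x hx
      have h9 : Commute (s ^ 3) x := m.cube hX hx
      have h10 : s ^ 15 * x = x * s ^ 15 := by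
        have := h9.pow_left 5
        rw [← pow_mul] at this
        exact this
      have h11 : s ^ 16 = s * s ^ 15 := by rw [← pow_succ']
      calc s ^ 16 * x * (s ^ 16)⁻¹ = s * (s ^ 15 * x) * (s ^ 15)⁻¹ * s⁻¹ := by rw [h11]; group
        _ = s * (x * s ^ 15) * (s ^ 15)⁻¹ * s⁻¹ := by rw [h10]
        _ = s * x * s⁻¹ := by group
    have hn : ∀ n : ℕ, cj (s ^ n) X = X := by
      intro n
      induction n with
      | zero => rw [pow_zero]; exact cj_one' X
      | succ n ih => rw [pow_succ, ← cj_cj, m.norm, ih]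
    refine ⟨hn 16, ?_⟩
    intro x hx hx1
    rw [hc x hx]
    exact m.mv x hx hx1
  refine ⟨s ^ 16, (A ⊔ B).pow_mem hs 16, ?_, key A h.baseA mA, key B h.base mB⟩
  rw [← pow_mul, show 16 * 3 = 24 * 2 by norm_num, pow_mul, h24, one_pow]

/-- a 2-element commuting with `t` centralises `Om X` -/
theorem Mv.comm_of_two {X : Subgroup G} (hX : Base X) {t : G} (ht : Mv X t) {y : G} (hyX : cj y X = X)
    (hyt : y * t = t * y) {k : ℕ} (hy2 : y ^ 2 ^ k = 1) {x : G} (hx : x ∈ Om X) : y * x = x * y := by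
  by_cases hx1 : x = 1
  · rw [hx1]; simp
  -- it is enough that `y³` commutes with `x`
  suffices h3 : y ^ 3 * x = x * y ^ 3 by
    have hcop : Nat.Coprime 3 (2 ^ k) := Nat.Coprime.pow_right k (by norm_num)
    obtain ⟨m, hm⟩ := exists_pow_eq_self_of_coprime (n := 3) (x := y) (by
      have h4 := orderOf_dvd_of_pow_eq_one hy2
      exact (Nat.Coprime.coprime_dvd_right h4 hcop))
    have h5 : Commute (y ^ 3) x := h3
    have h6 := h5.pow_left m
    rw [hm] at h6
    exact h6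
  set w := t * x * t⁻¹ with hw
  have hwO : w ∈ Om X := conj_Om_mem hX ht.norm hx
  have hyx : y * x * y⁻¹ ∈ Om X := conj_Om_mem hX hyX hx
  have hw1 : w ≠ 1 := by
    intro h1
    apply hx1
    calc x = t⁻¹ * (t * x * t⁻¹) * t := by group
      _ = 1 := by rw [← hw, h1]; group
  have hxw : x ≠ w := (ht.mv x hx hx1).symm
  have htw := ht.sq hX hx
  rw [← hw] at htw
  have hc := hX.comm x (hX.Om_le hx) w (hX.Om_le hwO)
  have hyw : y * w * y⁻¹ = t * (y * x * y⁻¹) * t⁻¹ := by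
    have hyt' : t⁻¹ * y⁻¹ = y⁻¹ * t⁻¹ := by
      rw [← mul_inv_rev, ← mul_inv_rev, hyt]
    rw [hw]
    calc y * (t * x * t⁻¹) * y⁻¹ = (y * t) * x * (t⁻¹ * y⁻¹) := by group
      _ = (t * y) * x * (y⁻¹ * t⁻¹) := by rw [hyt, hyt']
      _ = t * (y * x * y⁻¹) * t⁻¹ := by group
  have hcube : y ^ 3 * x = (y * (y * (y * x * y⁻¹) * y⁻¹) * y⁻¹) * y ^ 3 := by
    rw [pow_succ, pow_two]; group
  have hww := hX.Om_sq hwO
  have hxx := hX.Om_sq hx
  rw [hcube]
  congr 1
  rcases hX.four hx hwO hx1 hw1 hxw hyx with h1 | h1 | h1 | h1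
  · exfalso
    apply hx1
    calc x = y⁻¹ * (y * x * y⁻¹) * y := by group
      _ = 1 := by rw [h1]; group
  · rw [h1, h1, h1]
  · -- `x → w → x w → x`
    rw [h1] at hyw
    rw [h1, hyw, htw]
    calc y * (x * w) * y⁻¹ = (y * x * y⁻¹) * (y * w * y⁻¹) := by group
      _ = w * (x * w) := by rw [h1, hyw, htw]
      _ = x * (w * w) := by rw [← mul_assoc, ← hc, mul_assoc]
      _ = x := by rw [hww, mul_one]
  · -- `x → x w → w → x`
    have h2 : t * (x * w) * t⁻¹ = x := by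
      calc t * (x * w) * t⁻¹ = (t * x * t⁻¹) * (t * w * t⁻¹) := by group
        _ = w * (x * w) := by rw [htw, ← hw]
        _ = x * (w * w) := by rw [← mul_assoc, ← hc, mul_assoc]
        _ = x := by rw [hww, mul_one]
    rw [h1, h2] at hyw
    have h3 : y * (x * w) * y⁻¹ = w := by
      calc y * (x * w) * y⁻¹ = (y * x * y⁻¹) * (y * w * y⁻¹) := by group
        _ = x * w * x := by rw [h1, hyw]
        _ = w * (x * x) := by rw [hc, mul_assoc]
        _ = w := by rw [hxx, mul_one]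
    rw [h1, h3, hyw]

end Cfsg.Agent.TIAbelian.End
end

private theorem dce_f92a54fc94c5 : _root_.True := by
  try have : _root_.True := by simp only [_root_.Cfsg.Agent.TIAbelian.End.dif.eq_1]
  try have : _root_.True := by simp only [_root_.Cfsg.Agent.TIAbelian.End.mems.congr_simp]
  try have : _root_.True := by simp only [_root_.Cfsg.Agent.TIAbelian.End.oth.eq_1]
  try have : _root_.True := by simp only [_root_.Cfsg.Agent.TIAbelian.End.pts.eq_1]
  try have : _root_.True := by simp only [_root_.Cfsg.Agent.TIAbelian.End.mems.eq_1]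
  try have : _root_.True := by simp only [_root_.Cfsg.Agent.TIAbelian.End.br.eq_1]
  exact _root_.True.intro
end

-- part: TIAbelian/EndSwapInv
section
prune_inst 0x4022000000000000000020001000000000030000c10000000008000080000601002002000000a00000000040020000400000000000000000400000000000020200400000010000008000000000000000000000000000000000000000000000000
set_option linter.all false
open scoped Cfsg.Agent.FastGrp

-- part: TIAbelian/EndZStar
section
/-!
# A class of involutions with pairwise products of odd order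
-/

set_option autoImplicit false

namespace Cfsg.Agent.TIAbelian.End

open Subgroup

universe u

variable {G : Type u} [Group G]

theorem orderOf_eq_two {z : G} (hz : z * z = 1) (hz1 : z ≠ 1) : orderOf z = 2 := by
  rw [orderOf_eq_prime_iff]
  exact ⟨by rw [pow_two, hz], hz1⟩

/-- If the products of any two elements of the set `I` of involutions, closed under conjugation by its elements, have
odd order, then all products `z₀ z` lie in a subgroup of odd order. -/
theorem exists_odd_subgroup [Finite G] (I : Set G) (h2 : ∀ z ∈ I, z * z = 1) (h1 : ∀ z ∈ I, z ≠ 1)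
    (hconj : ∀ z ∈ I, ∀ w ∈ I, z * w * z⁻¹ ∈ I) (hodd : ∀ z ∈ I, ∀ w ∈ I, Odd (orderOf (z * w)))
    {z₀ : G} (hz₀ : z₀ ∈ I) : ∃ N : Subgroup G, Odd (Nat.card N) ∧ ∀ z ∈ I, z₀ * z ∈ N := by
  have h2f : Fact (Nat.Prime 2) := ⟨Nat.prime_two⟩
  have hH : ∀ h ∈ _root_.Subgroup.closure I, ∀ w ∈ I, h * w * h⁻¹ ∈ I := by
    intro h hh
    induction hh using closure_induction with
    | mem x hx => exact hconj x hx
    | one => intro w hw; simpa using hw
    | mul x y _ _ hx hy =>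
      intro w hw
      have := hx _ (hy w hw)
      convert this using 1
      group
    | inv x hxI hx =>
      intro w hw
      -- the conjugation by `x` is an injective self-map of the finite set `I`
      have hinj : Function.Injective (fun a : I => (⟨x * a.1 * x⁻¹, hx a.1 a.2⟩ : I)) := by
        intro a b hab
        have h3 := congrArg Subtype.val hab
        simp only at h3
        apply Subtype.ext
        have h4 := mul_right_cancel h3
        exact mul_left_cancel h4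
      obtain ⟨a, ha⟩ := (Finite.surjective_of_injective hinj) ⟨w, hw⟩
      have h3 := congrArg Subtype.val ha
      simp only at h3
      have h4 : x⁻¹ * w * x⁻¹⁻¹ = a.1 := by
        rw [← h3]; group
      rw [h4]; exact a.2
  let H : Subgroup G := _root_.Subgroup.closure I
  let u : H := ⟨z₀, _root_.Subgroup.subset_closure hz₀⟩
  have hu2 : orderOf u = 2 := by
    rw [← Subgroup.orderOf_coe]
    exact orderOf_eq_two (h2 z₀ hz₀) (h1 z₀ hz₀)
  have hup : IsPGroup 2 (zpowers u) := IsPGroup.of_card (n := 1) (by rw [Nat.card_zpowers, hu2, pow_one])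
  obtain ⟨P, hP⟩ := hup.exists_le_sylow
  have huP : u ∈ P := hP (mem_zpowers u)
  have hiso : ∀ g : H, g * u * g⁻¹ ∈ P → g * u * g⁻¹ = u := by
    intro g hg
    have h3 : g * u * g⁻¹ * u ∈ P := P.mul_mem hg huP
    have h4 : Odd (orderOf (g * u * g⁻¹ * u)) := by
      rw [← Subgroup.orderOf_coe]
      exact hodd _ (hH g.1 g.2 z₀ hz₀) _ hz₀
    have h5 : g * u * g⁻¹ * u = 1 := by
      obtain ⟨k, hk⟩ := (IsPGroup.iff_orderOf.1 P.isPGroup') ⟨_, h3⟩
      rw [Subgroup.orderOf_mk] at hk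
      rw [hk] at h4
      rcases Nat.eq_zero_or_pos k with h6 | h6
      · rw [h6, pow_zero] at hk
        exact orderOf_eq_one_iff.1 hk
      · exfalso
        have : Even (2 ^ k) := (Nat.even_pow.2 ⟨even_two, by omega⟩)
        exact (Nat.not_even_iff_odd.2 h4) this
    have h6 : u * u = 1 := by rw [← pow_two, ← hu2, pow_orderOf_eq_one]
    calc g * u * g⁻¹ = (g * u * g⁻¹ * u) * u⁻¹ := by group
      _ = u := by rw [h5, one_mul]; exact inv_eq_self h6
  obtain ⟨N, -, hNodd, hN⟩ := Cfsg.Agent.S0215.result P u hu2 huP hiso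
  refine ⟨N.map H.subtype, ?_, ?_⟩
  · rw [Nat.card_congr (N.equivMapOfInjective _ H.subtype_injective).toEquiv.symm]
    exact hNodd
  · intro z hz
    obtain ⟨y, hy, hyz⟩ := exists_conj_of_odd (h2 z₀ hz₀) (h2 z hz) (hodd z₀ hz₀ z hz)
    have hyH : y ∈ H := by
      have : zpowers (z₀ * z) ≤ H := by
        rw [zpowers_le]
        exact H.mul_mem (_root_.Subgroup.subset_closure hz₀) (_root_.Subgroup.subset_closure hz)
      exact this hy
    have h3 := hN (⟨y, hyH⟩⁻¹ : H)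
    refine ⟨_, h3, ?_⟩
    have hzi := inv_eq_self (h2 z hz)
    have hzi0 := inv_eq_self (h2 z₀ hz₀)
    simp only [Subgroup.coe_subtype, Subgroup.coe_mul, InvMemClass.coe_inv, inv_inv]
    change z₀ * y⁻¹ * z₀⁻¹ * y = z₀ * z
    rw [← hyz, hzi0]
    group

end Cfsg.Agent.TIAbelian.End
end

-- part: TIAbelian/EndCount
section
/-!
# The number of vertices
-/

set_option autoImplicit false

namespace Cfsg.Agent.TIAbelian.End

open Subgroup
open Cfsg.Agent.ClassificationK.TIPair (cj mem_normalizer_cj normalizer_of_cj_eq cj_eq_of_mem_normalizer)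
open Cfsg.Agent.ClassificationK.TIFamily (mem_cj cj_mul cj_one)

universe u

variable {G : Type u} [Group G] {E V : Set (Subgroup G)}

/-- involutions fixing the vertex `U` or one of its neighbours -/
def Near (E V : Set (Subgroup G)) (U : Subgroup G) (z : G) : Prop :=
  cj z U = U ∨ ∃ X ∈ E, ∃ e, Ends E V X U e ∧ cj z e = e

open scoped Classical in
/-- the finite set of involutions -/
noncomputable def allI [Fintype G] (E : Set (Subgroup G)) : Finset G := Finset.univ.filter (fun z => z ∈ II E)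

theorem mem_allI [Fintype G] {z : G} : z ∈ allI E ↔ z ∈ II E := by simp [allI]

open scoped Classical in
/-- the near involutions -/
noncomputable def nearI [Fintype G] (E V : Set (Subgroup G)) (U : Subgroup G) : Finset G :=
  (allI E).filter (fun z => Near E V U z)

theorem Geo.card_near (hg : Geo E V) [Fintype G] {U : Subgroup G} (hU : U ∈ V) :
    (nearI E V U).card ≤ 315 := by
  classical
  have hsub : nearI E V U ⊆ pts U ∪ (mems E U).biUnion (fun X =>
      dif (oth E V X U) X ∪ ((mems E (oth E V X U)).erase X).biUnion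
        (fun Y => dif (oth E V Y (oth E V X U)) Y)) := by
    intro z hz
    rw [nearI, Finset.mem_filter, mem_allI] at hz
    obtain ⟨hzI, hz⟩ := hz
    by_cases hzU : z ∈ U
    · exact Finset.mem_union_left _ (mem_pts.2 ⟨hzU, hzI.1⟩)
    apply Finset.mem_union_right
    rw [Finset.mem_biUnion]
    rcases hz with hz | ⟨X, hX, e, he, hze⟩
    · rcases hg.fix_mem hU hzI hz with h | ⟨X, hX, f, hf, hzf⟩
      · exact absurd h hzU
      · refine ⟨X, mem_mems.2 ⟨hX, hf.leU⟩, ?_⟩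
        apply Finset.mem_union_left
        rw [mem_dif, hf.oth_eq]
        exact ⟨hzf, fun h => hzU (hf.leU h)⟩
    · refine ⟨X, mem_mems.2 ⟨hX, he.leU⟩, ?_⟩
      rw [he.oth_eq]
      rcases hg.fix_mem he.hW hzI hze with h | ⟨Y, hY, f, hf, hzf⟩
      · apply Finset.mem_union_left
        rw [mem_dif]
        exact ⟨h, fun h => hzU (he.leU h)⟩
      · by_cases hze : z ∈ e
        · apply Finset.mem_union_left
          rw [mem_dif]
          exact ⟨hze, fun h => hzU (he.leU h)⟩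
        apply Finset.mem_union_right
        rw [Finset.mem_biUnion]
        refine ⟨Y, ?_, ?_⟩
        · rw [Finset.mem_erase, mem_mems]
          refine ⟨?_, hY, hf.leU⟩
          rintro rfl
          have h1 := (he.symm hg.sqV).oth_eq
          rw [hf.oth_eq] at h1
          rw [h1] at hzf
          exact hzU hzf
        · rw [mem_dif, hf.oth_eq]
          exact ⟨hzf, fun h => hze (hf.leU h)⟩
  refine (Finset.card_le_card hsub).trans ?_
  refine (Finset.card_union_le _ _).trans ?_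
  have h1 : (pts U).card = 15 := by
    have := card_pts U
    rw [hg.cardV U hU] at this
    omega
  have hdif : ∀ X Y : Subgroup G, X ∈ E → Y ∈ V → X ≤ Y → (dif Y X).card = 12 := by
    intro X Y hX hY hXY
    have := card_dif hXY
    rw [hg.cardV Y hY, hg.cardE X hX] at this
    omega
  have h2 : ((mems E U).biUnion (fun X =>
      dif (oth E V X U) X ∪ ((mems E (oth E V X U)).erase X).biUnion
        (fun Y => dif (oth E V Y (oth E V X U)) Y))).card ≤ (mems E U).card * 60 := by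
    apply Finset.card_biUnion_le_card_mul
    intro X hX
    rw [mem_mems] at hX
    have he := hg.ends_oth hX.1 hU hX.2
    refine (Finset.card_union_le _ _).trans ?_
    have h3 : (((mems E (oth E V X U)).erase X).biUnion
        (fun Y => dif (oth E V Y (oth E V X U)) Y)).card ≤ ((mems E (oth E V X U)).erase X).card * 12 := by
      apply Finset.card_biUnion_le_card_mul
      intro Y hY
      rw [Finset.mem_erase, mem_mems] at hY
      have hf := hg.ends_oth hY.2.1 he.hW hY.2.2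
      exact le_of_eq (hdif Y _ hY.2.1 hf.hW hf.leW)
    have h4 : ((mems E (oth E V X U)).erase X).card = 4 := by
      rw [Finset.card_erase_of_mem (mem_mems.2 ⟨hX.1, he.leW⟩), hg.card_mems he.hW]
    rw [h4] at h3
    have h5 := hdif X _ hX.1 he.hW he.leW
    omega
  rw [hg.card_mems hU] at h2
  omega

/-- if the product of `z` and `w` has even order and `z w` fixes `U`, then `z` is near `U` -/
theorem Geo.near_of_even (hg : Geo E V) [Finite G] {U : Subgroup G} (hU : U ∈ V) {z w : G} (hz : z ∈ II E)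
    (hw : w ∈ II E) (hfix : cj (z * w) U = U) (he : ¬ Odd (orderOf (z * w))) : Near E V U z := by
  classical
  have := Fintype.ofFinite G
  obtain ⟨t, ht, ht1, htt, hzt, hwt, y, hy⟩ := exists_central (hg.II_sq hz) (hg.II_sq hw)
    (orderOf_pos _) he
  have hztI : z * t ∈ II E := by
    rcases hy with hy | hy
    · rw [hy]; exact II_conj' hg hz y
    · rw [hy]; exact II_conj' hg hw y
  have hzz := hg.II_sq hz
  have htI : t ∈ II E := by
    have h1 := hg.mul_mem_II hz hztI (by rw [mul_assoc, ← hzt]) (by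
      intro h
      apply ht1
      have : z * t = z * 1 := by rw [mul_one]; exact h.symm
      exact mul_left_cancel this)
    rwa [← mul_assoc, hzz, one_mul] at h1
  have htU : cj t U = U := by
    have h1 : zpowers (z * w) ≤ normalizer (U : Set G) := by
      rw [zpowers_le]
      exact normalizer_of_cj_eq hfix
    exact cj_eq_of_mem_normalizer (h1 ht)
  obtain ⟨-, Y, hY, htY⟩ := id htI
  obtain ⟨hz1, Z, hZ, hzZ⟩ := id hz
  -- `z` lies in a vertex of `Y` and fixes both vertices of `Y`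
  have key : ∀ f, f ∈ V → Y ≤ f → cj z f = f := by
    intro f hf hYf
    obtain ⟨f', hff⟩ := hg.other hY hf hYf
    rcases hff.comm t htY ht1 Z hZ z hzZ hz1 hzt.symm with h | h
    · exact (hff.fix hg h).2.1
    · exact (hff.fix' hg h).2.1
  rcases hg.fix_mem hU htI htU with h | ⟨X, hX, e, he', hte⟩
  · left
    exact key U hU (hg.le_of_mem hY hU ht1 htY h)
  · right
    exact ⟨X, hX, e, he', key e he'.hW (hg.le_of_mem hY he'.hW ht1 htY hte)⟩

/-- conjugating by an element fixing `U` preserves nearness -/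
theorem Geo.near_conj (hg : Geo E V) {U : Subgroup G} {z y : G} (hy : cj y U = U)
    (h : Near E V U z) : Near E V U (y * z * y⁻¹) := by
  have hy' : cj y⁻¹ U = U := by
    conv_lhs => rw [← hy]
    exact cj_cancel y U
  rcases h with h | ⟨X, hX, e, he, hze⟩
  · left
    rw [← cj_cj, ← cj_cj, hy', h, hy]
  · right
    refine ⟨cj y X, hg.conjE y X hX, cj y e, ?_, ?_⟩
    · have := he.conj hg hX y
      rwa [hy] at this
    · rw [← cj_cj, ← cj_cj, cj_cancel, hze]

theorem cj_swap {z : G} {U W : Subgroup G} (hz : z * z = 1) (h : cj z U = W) : cj z W = U := by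
  rw [← h, cj_cj, hz, cj_one']

/-- all involutions moving `U` to the same vertex as a far one are far, with products of odd order -/
theorem Geo.not_near (hg : Geo E V) [Finite G] {U : Subgroup G} (hU : U ∈ V) {z w : G} (hz : z ∈ II E)
    (hw : w ∈ II E) (hzw : cj z U = cj w U) (hfar : ¬ Near E V U z) :
    ¬ Near E V U w ∧ Odd (orderOf (z * w)) := by
  have hzz := hg.II_sq hz
  have hww := hg.II_sq hw
  have hfix : cj (z * w) U = U := by
    rw [← cj_cj, ← hzw, cj_cj, hzz, cj_one']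
  have hodd : Odd (orderOf (z * w)) := by
    by_contra h
    exact hfar (hg.near_of_even hU hz hw hfix h)
  refine ⟨?_, hodd⟩
  intro hn
  apply hfar
  obtain ⟨y, hy, hyz⟩ := exists_conj_of_odd hzz hww hodd
  have hyU : cj y U = U := by
    have h1 : zpowers (z * w) ≤ normalizer (U : Set G) := by
      rw [zpowers_le]
      exact normalizer_of_cj_eq hfix
    exact cj_eq_of_mem_normalizer (h1 hy)
  have h1 := hg.near_conj hyU hn
  have h2 : y * w * y⁻¹ = z := by rw [← hyz]; group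
  rwa [h2] at h1

/-- a fibre of far involutions has at most 5 elements -/
theorem Geo.card_fibre (hg : Geo E V) [Fintype G] {U : Subgroup G} (hU : U ∈ V)
    (hodd : ∀ K : Subgroup G, K ≤ normalizer (U : Set G) → Odd (Nat.card K) → Nat.card K ≤ 5)
    (S : Finset G) (hS : ∀ z ∈ S, z ∈ II E ∧ ¬ Near E V U z) (W : Subgroup G) (hSW : ∀ z ∈ S, cj z U = W) :
    S.card ≤ 5 := by
  classical
  rcases S.eq_empty_or_nonempty with rfl | ⟨z₀, hz₀⟩
  · simp
  let I : Set G := {z | z ∈ II E ∧ cj z U = W}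
  have hz₀I : z₀ ∈ I := ⟨(hS z₀ hz₀).1, hSW z₀ hz₀⟩
  have hfar : ∀ z ∈ I, ¬ Near E V U z := by
    intro z hz
    exact (hg.not_near hU (hS z₀ hz₀).1 hz.1 ((hSW z₀ hz₀).trans hz.2.symm) (hS z₀ hz₀).2).1
  obtain ⟨N, hN, hN2⟩ := exists_odd_subgroup I (fun z hz => hg.II_sq hz.1) (fun z hz => hz.1.1) (by
    intro z hz w hw
    refine ⟨II_conj hg hw.1 z, ?_⟩
    rw [inv_eq_self (hg.II_sq hz.1), ← cj_cj, ← cj_cj, hz.2, cj_swap (hg.II_sq hw.1) hw.2, hz.2]) (by
    intro z hz w hw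
    exact (hg.not_near hU hz.1 hw.1 (hz.2.trans hw.2.symm) (hfar z hz)).2) hz₀I
  let K : Subgroup G := N ⊓ normalizer (U : Set G)
  have hK : Nat.card K ≤ 5 := by
    apply hodd K inf_le_right
    have h1 : Nat.card K ∣ Nat.card N := Subgroup.card_dvd_of_le inf_le_left
    exact Odd.of_dvd_nat hN h1
  refine le_trans ?_ hK
  rw [← card_filter_mem]
  apply Finset.card_le_card_of_injOn (fun z => z₀ * z)
  · intro z hz
    simp only [Finset.coe_filter, Finset.mem_univ, true_and, Set.mem_ofPred_eq]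
    have hzI : z ∈ I := ⟨(hS z hz).1, hSW z hz⟩
    refine ⟨hN2 z hzI, ?_⟩
    apply normalizer_of_cj_eq
    rw [← cj_cj, hzI.2]
    exact cj_swap (hg.II_sq hz₀I.1) hz₀I.2
  · intro a _ b _ hab
    exact mul_left_cancel hab

end Cfsg.Agent.TIAbelian.End
end

-- part: TIAbelian/EndTwentyOne
section
/-!
# There are 21 vertices of each type
-/

set_option autoImplicit false

namespace Cfsg.Agent.TIAbelian.End

open Subgroup
open Cfsg.Agent.ClassificationK.TIPair (cj mem_normalizer_cj normalizer_of_cj_eq cj_eq_of_mem_normalizer)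
open Cfsg.Agent.ClassificationK.TIFamily (mem_cj cj_mul cj_one)

universe u

variable {G : Type u} [Group G] {E V : Set (Subgroup G)}

/-- no quadrangles -/
theorem Geo.no_four (hg : Geo E V) {X X' Y Y' U e e' w : Subgroup G} (hX : X ∈ E) (hX' : X' ∈ E)
    (hY : Y ∈ E) (hY' : Y' ∈ E) (h1 : Ends E V X U e) (h2 : Ends E V X' U e') (h3 : Ends E V Y e w)
    (h4 : Ends E V Y' e' w) (hXX : X ≠ X') (hYX : Y ≠ X) (hYX' : Y' ≠ X') : False := by
  have hee : e ≠ e' := by
    rintro rfl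
    exact h1.ne (hg.eq_vertex hX hX' hXX h1.hU h1.hW h1.leU h1.leW h2.leU h2.leW)
  have hYY : Y ≠ Y' := by
    rintro rfl
    rcases h3.uniq e' h4.hU h4.leU with h | h
    · exact hee h.symm
    · exact h4.ne h
  obtain ⟨x, hx, hx1⟩ := hg.exists_ne_one hX
  obtain ⟨y, hy, hy1⟩ := hg.exists_ne_one hY'
  have h5 := h3.sq x (h1.leW hx) y (h4.leW hy) (fun h => hYX (hg.ti X hX Y hY x hx h hx1).symm)
    (fun h => hYY (hg.ti Y' hY' Y hY y hy h hy1).symm)
  have h6 := h2.sq x (h1.leU hx) y (h4.leU hy) (fun h => hXX (hg.ti X hX X' hX' x hx h hx1))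
    (fun h => hYX' (hg.ti Y' hY' X' hX' y hy h hy1))
  have h7 := hg.ti Y hY X' hX' _ h5.1 h6.1 h5.2
  apply h1.ne
  exact hg.eq_vertex hX hY hYX.symm h1.hU h1.hW h1.leU h1.leW (h7 ▸ h2.leU) h3.leU

open scoped Classical in
/-- images of `U` under near involutions -/
noncomputable def nearV [Fintype G] (E V : Set (Subgroup G)) (U : Subgroup G) : Finset (Subgroup G) :=
  (nearI E V U).image (fun z => cj z U)

theorem Geo.card_nearV (hg : Geo E V) [Fintype G] {U : Subgroup G} (hU : U ∈ V) :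
    21 ≤ (nearV E V U).card := by
  classical
  let D : Subgroup G → Finset (Subgroup G) := fun X =>
    ((mems E (oth E V X U)).erase X).image (fun Y => oth E V Y (oth E V X U))
  have hD : ∀ X ∈ mems E U, ∀ w ∈ D X, ∃ Y, Y ∈ E ∧ Y ≠ X ∧ Ends E V Y (oth E V X U) w := by
    intro X hX w hw
    rw [mem_mems] at hX
    have he := hg.ends_oth hX.1 hU hX.2
    rw [Finset.mem_image] at hw
    obtain ⟨Y, hY, rfl⟩ := hw
    rw [Finset.mem_erase, mem_mems] at hY
    exact ⟨Y, hY.2.1, hY.1, hg.ends_oth hY.2.1 he.hW hY.2.2⟩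
  have hsub : insert U ((mems E U).biUnion D) ⊆ nearV E V U := by
    intro w hw
    rw [Finset.mem_insert, Finset.mem_biUnion] at hw
    rw [nearV, Finset.mem_image]
    rcases hw with rfl | ⟨X, hX, hw⟩
    · -- a nontrivial element of `U`
      have h1 : ∃ z ∈ w, z ≠ 1 := by
        by_contra hc
        push Not at hc
        have h2 : w = ⊥ := by
          rw [eq_bot_iff]
          intro x hx
          exact mem_bot.2 (hc x hx)
        have h4 := hg.cardV w hU
        rw [h2, Subgroup.card_bot] at h4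
        omega
      obtain ⟨z, hz, hz1⟩ := h1
      have h3 : cj z w = w := cj_of_abelian (fun x hx y hy => hg.mul_comm hU hx hy) le_rfl hz
      refine ⟨z, ?_, h3⟩
      rw [nearI, Finset.mem_filter, mem_allI]
      exact ⟨hg.II_of_mem hU hz hz1, Or.inl h3⟩
    · obtain ⟨Y, hY, hYX, hYe⟩ := hD X hX w hw
      have hX' := mem_mems.1 hX
      have he := hg.ends_oth hX'.1 hU hX'.2
      set e := oth E V X U with hedef
      obtain ⟨Z, hZ, hZX, hZY⟩ := hg.exists_third he.hW X Y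
      have hZ' := mem_mems.1 hZ
      obtain ⟨f, hf⟩ := hg.other hZ'.1 he.hW hZ'.2
      obtain ⟨z, hz, hzX⟩ := hg.exists_move (mem_mems.2 ⟨hX'.1, he.leW⟩) (mem_mems.2 ⟨hY, hYe.leU⟩) hZ'.1
        hZX.symm hZY.symm hf
      obtain ⟨h1, h2, h3⟩ := hf.fix' hg hz
      have hz1 : z ≠ 1 := by
        rintro rfl
        rw [cj_one'] at hzX
        exact hYX hzX.symm
      refine ⟨z, ?_, ?_⟩
      · rw [nearI, Finset.mem_filter, mem_allI]
        exact ⟨hg.II_of_mem hf.hW hz hz1, Or.inr ⟨X, hX'.1, e, he, h2⟩⟩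
      · have h4 := he.conj hg hX'.1 z
        rw [hzX, h2] at h4
        rcases hYe.uniq _ h4.hU h4.leU with h5 | h5
        · exact absurd h5 h4.ne
        · exact h5
  refine le_trans ?_ (Finset.card_le_card hsub)
  rw [Finset.card_insert_of_notMem]
  · rw [Finset.card_biUnion]
    · have h1 : ∑ X ∈ mems E U, (D X).card = (mems E U).card * 4 := by
        apply Finset.sum_const_nat
        intro X hX
        have hX' := mem_mems.1 hX
        have he := hg.ends_oth hX'.1 hU hX'.2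
        change (((mems E (oth E V X U)).erase X).image (fun Y => oth E V Y (oth E V X U))).card = 4
        rw [Finset.card_image_of_injOn]
        · rw [Finset.card_erase_of_mem (mem_mems.2 ⟨hX'.1, he.leW⟩), hg.card_mems he.hW]
        · intro Y hY Y' hY' h
          rw [Finset.mem_coe, Finset.mem_erase, mem_mems] at hY hY'
          simp only at h
          by_contra hne
          have h3 := hg.ends_oth hY.2.1 he.hW hY.2.2
          have h4 := hg.ends_oth hY'.2.1 he.hW hY'.2.2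
          rw [← h] at h4
          exact h3.ne (hg.eq_vertex hY.2.1 hY'.2.1 hne h3.hU h3.hW h3.leU h3.leW h4.leU h4.leW)
      rw [h1, hg.card_mems hU]
    · intro X hX X' hX' hne
      change Disjoint (D X) (D X')
      rw [Finset.disjoint_left]
      intro w hw hw'
      obtain ⟨Y, hY, hYX, hYe⟩ := hD X hX w hw
      obtain ⟨Y', hY', hYX', hYe'⟩ := hD X' hX' w hw'
      have hX2 := mem_mems.1 hX
      have hX2' := mem_mems.1 hX'
      exact hg.no_four hX2.1 hX2'.1 hY hY' (hg.ends_oth hX2.1 hU hX2.2) (hg.ends_oth hX2'.1 hU hX2'.2) hYe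
        hYe' hne hYX hYX'
  · rw [Finset.mem_biUnion]
    rintro ⟨X, hX, hw⟩
    obtain ⟨Y, hY, hYX, hYe⟩ := hD X hX U hw
    have hX' := mem_mems.1 hX
    have he := hg.ends_oth hX'.1 hU hX'.2
    exact he.ne (hg.eq_vertex hX'.1 hY hYX.symm hU he.hW hX'.2 he.leW hYe.leW hYe.leU)

open scoped Classical in
/-- the orbit of `U` -/
noncomputable def orb [Fintype G] (U : Subgroup G) : Finset (Subgroup G) := Finset.univ.image (fun g : G => cj g U)

theorem mem_orb [Fintype G] {U W : Subgroup G} : W ∈ orb U ↔ ∃ g : G, cj g U = W := by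
  classical
  simp [orb]

/-- the main count -/
theorem Geo.card_orb (hg : Geo E V) [Fintype G] {U : Subgroup G} (hU : U ∈ V)
    (hnc : ∀ X ∈ E, ∀ e, Ends E V X U e → ∀ g : G, cj g U ≠ e)
    (hodd : ∀ K : Subgroup G, K ≤ normalizer (U : Set G) → Odd (Nat.card K) → Nat.card K ≤ 5) :
    (orb U).card = 21 := by
  classical
  have hI : (allI E).card = (orb U).card * 15 := by
    have h1 : allI E = (orb U).biUnion (fun w => pts w) := by
      ext z
      rw [mem_allI, Finset.mem_biUnion]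
      constructor
      · rintro ⟨hz1, X, hX, hzX⟩
        obtain ⟨Z, hZ, -, -⟩ := hg.exists_third hU ⊥ ⊥
        have hZ' := mem_mems.1 hZ
        obtain ⟨g, hgZ⟩ := hg.trans Z hZ'.1 X hX
        refine ⟨cj g U, mem_orb.2 ⟨g, rfl⟩, mem_pts.2 ⟨?_, hz1⟩⟩
        have : X ≤ cj g U := by rw [← hgZ]; exact cj_le_cj.2 hZ'.2
        exact this hzX
      · rintro ⟨w, hw, hz⟩
        obtain ⟨g, rfl⟩ := mem_orb.1 hw
        rw [mem_pts] at hz
        exact hg.II_of_mem (hg.conjV g U hU) hz.1 hz.2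
    rw [h1, Finset.card_biUnion]
    · apply Finset.sum_const_nat
      intro w hw
      obtain ⟨g, rfl⟩ := mem_orb.1 hw
      have := card_pts (cj g U)
      rw [card_cj, hg.cardV U hU] at this
      omega
    · intro w hw w' hw' hne
      change Disjoint (pts w) (pts w')
      rw [Finset.disjoint_left]
      intro z hz hz'
      obtain ⟨g, rfl⟩ := mem_orb.1 hw
      obtain ⟨g', rfl⟩ := mem_orb.1 hw'
      rw [mem_pts] at hz hz'
      obtain ⟨X, hX, hzX, hXU⟩ := hg.cover _ (hg.conjV g U hU) z hz.1 hz.2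
      have hX2 := hg.le_of_mem hX (hg.conjV g' U hU) hz.2 hzX hz'.1
      have h2 := hg.endsV hX (hg.conjV g U hU) (hg.conjV g' U hU) hne hXU hX2
      have h3 := h2.conj hg hX g⁻¹
      rw [cj_cancel] at h3
      refine hnc _ (hg.conjE _ X hX) _ h3 (g⁻¹ * g') ?_
      rw [cj_cj]
  have hnear := hg.card_near hU
  have hnV := hg.card_nearV hU
  -- far involutions
  let F : Finset G := (allI E).filter (fun z => ¬ Near E V U z)
  have hsplit : (nearI E V U).card + F.card = (allI E).card := by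
    rw [nearI]
    exact Finset.card_filter_add_card_filter_not (s := allI E) (p := fun z => Near E V U z)
  have hF : ∀ z ∈ F, z ∈ II E ∧ ¬ Near E V U z := by
    intro z hz
    rw [Finset.mem_filter, mem_allI] at hz
    exact hz
  have h5 : F.card ≤ 5 * (F.image (fun z => cj z U)).card := by
    apply Finset.card_le_mul_card_image
    intro W hW
    apply hg.card_fibre hU hodd _ _ W
    · intro z hz
      exact (Finset.mem_filter.1 hz).2
    · intro z hz
      exact hF z (Finset.mem_filter.1 hz).1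
  have h6 : F.image (fun z => cj z U) ⊆ orb U \ nearV E V U := by
    intro W hW
    rw [Finset.mem_image] at hW
    obtain ⟨z, hz, rfl⟩ := hW
    rw [Finset.mem_sdiff]
    refine ⟨mem_orb.2 ⟨z, rfl⟩, ?_⟩
    intro h
    rw [nearV, Finset.mem_image] at h
    obtain ⟨y, hy, hyz⟩ := h
    rw [nearI, Finset.mem_filter, mem_allI] at hy
    exact (hg.not_near hU (hF z hz).1 hy.1 hyz.symm (hF z hz).2).1 hy.2
  have h7 : nearV E V U ⊆ orb U := by
    intro W hW
    rw [nearV, Finset.mem_image] at hW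
    obtain ⟨y, -, rfl⟩ := hW
    exact mem_orb.2 ⟨y, rfl⟩
  have h8 := Finset.card_le_card h6
  rw [Finset.card_sdiff_of_subset h7] at h8
  have h9 := Finset.card_le_card h7
  omega

theorem index_eq_card_image {H : Type*} [Group H] [Fintype H] {α : Type*} [DecidableEq α] (N : Subgroup H)
    (f : H → α) (h : ∀ a b, f a = f b ↔ a⁻¹ * b ∈ N) : N.index = (Finset.univ.image f).card := by
  classical
  let f' : H ⧸ N → α := Quotient.lift f (by
    intro a b hab
    rw [h]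
    exact QuotientGroup.leftRel_apply.1 hab)
  have hinj : Function.Injective f' := by
    intro x y
    induction x using Quotient.inductionOn with
    | h a =>
      induction y using Quotient.inductionOn with
      | h b =>
        intro hab
        apply Quotient.sound
        exact QuotientGroup.leftRel_apply.2 ((h a b).1 hab)
  have h1 : N.index = Nat.card (H ⧸ N) := rfl
  rw [h1, Nat.card_congr (Equiv.ofInjective f' hinj)]
  have h2 : Set.range f' = ((Finset.univ.image f : Finset α) : Set α) := by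
    ext x
    simp only [Set.mem_range, Finset.coe_image, Finset.coe_univ, Set.image_univ]
    constructor
    · rintro ⟨y, hy⟩
      induction y using Quotient.inductionOn with
      | h a => exact ⟨a, hy⟩
    · rintro ⟨a, ha⟩
      exact ⟨Quotient.mk _ a, ha⟩
  rw [h2]
  exact Nat.card_eq_fintype_card.trans (Fintype.card_coe _)

/-- the index of the normaliser of a vertex -/
theorem Geo.index_normalizer (hg : Geo E V) [Finite G] {U : Subgroup G} (hU : U ∈ V)
    (hnc : ∀ X ∈ E, ∀ e, Ends E V X U e → ∀ g : G, cj g U ≠ e)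
    (hodd : ∀ K : Subgroup G, K ≤ normalizer (U : Set G) → Odd (Nat.card K) → Nat.card K ≤ 5) :
    (normalizer (U : Set G)).index = 21 := by
  classical
  have := Fintype.ofFinite G
  rw [← hg.card_orb hU hnc hodd, orb]
  convert index_eq_card_image (normalizer (U : Set G)) (fun g : G => cj g U) ?_
  intro a b
  rw [cj_eq_comm, cj_cj]
  constructor
  · intro h
    exact normalizer_of_cj_eq h.symm
  · intro h
    exact (cj_eq_of_mem_normalizer h).symm

end Cfsg.Agent.TIAbelian.End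
end

-- part: TIAbelian/EndPlane
section
/-!
# The plane of order 4
-/

set_option autoImplicit false

namespace Cfsg.Agent.TIAbelian.End

open Subgroup
open Cfsg.Agent.ClassificationK.TIPair (cj mem_normalizer_cj normalizer_of_cj_eq cj_eq_of_mem_normalizer)
open Cfsg.Agent.ClassificationK.TIFamily (mem_cj cj_mul cj_one)
open Cfsg.Agent.LieExceptional.PlaneGeom

universe u

variable {G : Type u} [Group G] {E V : Set (Subgroup G)}

theorem Ends.cj_X_of (hg : Geo E V) {X U e : Subgroup G} (hX : X ∈ E) (h : Ends E V X U e) {g : G}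
    (hU : cj g U = U) (he : cj g e = e) : cj g X = X := by
  apply hg.eq_of_le (hg.conjE g X hX) hX
  intro x hx
  apply h.mem_of_mem hg
  · rw [← hU]; exact cj_le_cj.2 h.leU hx
  · rw [← he]; exact cj_le_cj.2 h.leW hx

theorem Ends.cj_e_of (hg : Geo E V) {X U e : Subgroup G} (h : Ends E V X U e) {g : G}
    (hX : cj g X = X) (hU : cj g U = U) : cj g e = e := by
  rcases h.cj_cases hg hX with h1 | h1
  · exact h1.2
  · exact absurd (hU.symm.trans h1.1) h.ne

theorem Ends.relIndex (hg : Geo E V) [Finite G] {X U e : Subgroup G} (hX : X ∈ E) (h : Ends E V X U e) :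
    (normalizer (e : Set G)).relIndex (normalizer (U : Set G)) = 5 := by
  classical
  have := Fintype.ofFinite G
  rw [Subgroup.relIndex]
  have h1 := index_eq_card_image ((normalizer (e : Set G)).subgroupOf (normalizer (U : Set G)))
    (fun a : normalizer (U : Set G) => cj (a : G) X) (by
    intro a b
    rw [mem_subgroupOf, cj_eq_comm, cj_cj]
    simp only [Subgroup.coe_mul, InvMemClass.coe_inv]
    have hab : cj ((a : G)⁻¹ * b) U = U :=
      cj_eq_of_mem_normalizer (mul_mem (inv_mem a.2) b.2)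
    constructor
    · intro h2
      exact normalizer_of_cj_eq (h.cj_e_of hg h2.symm hab)
    · intro h2
      exact (h.cj_X_of hg hX hab (cj_eq_of_mem_normalizer h2)).symm)
  rw [h1, ← hg.card_mems h.hU]
  congr 1
  ext Y
  rw [Finset.mem_image, mem_mems]
  constructor
  · rintro ⟨a, -, rfl⟩
    refine ⟨hg.conjE _ X hX, ?_⟩
    conv_rhs => rw [← cj_eq_of_mem_normalizer a.2]
    exact cj_le_cj.2 h.leU
  · rintro ⟨hY, hYU⟩
    by_cases hYX : Y = X
    · exact ⟨1, Finset.mem_univ _, by rw [hYX]; exact cj_one' X⟩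
    · obtain ⟨Z, hZ, hZX, hZY⟩ := hg.exists_third h.hU X Y
      have hZ' := mem_mems.1 hZ
      obtain ⟨f, hf⟩ := hg.other hZ'.1 h.hU hZ'.2
      obtain ⟨w, hw, hwX⟩ := hg.exists_move (mem_mems.2 ⟨hX, h.leU⟩) (mem_mems.2 ⟨hY, hYU⟩) hZ'.1
        hZX.symm hZY.symm hf
      have hwU : w ∈ normalizer (U : Set G) := normalizer_of_cj_eq (hf.fix' hg hw).2.1
      exact ⟨⟨w, hwU⟩, Finset.mem_univ _, hwX⟩

theorem Ends.planeData (hg : Geo E V) [Finite G] {X U e : Subgroup G} (hX : X ∈ E) (h : Ends E V X U e)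
    (hnc : ∀ X ∈ E, ∀ e, Ends E V X U e → ∀ g : G, cj g U ≠ e)
    (hodd : ∀ K : Subgroup G, K ≤ normalizer (U : Set G) → Odd (Nat.card K) → Nat.card K ≤ 5) :
    PlaneData G (normalizer (U : Set G)) (normalizer (e : Set G)) U e 4 where
  hq := by norm_num
  V1_le_P1 := le_normalizer
  V1_le_P2 := fun u hu => normalizer_of_cj_eq (h.fix hg hu).2.2
  V2_le_P1 := fun u hu => normalizer_of_cj_eq (h.fix' hg hu).2.1
  V2_le_P2 := le_normalizer
  V1_norm := fun g hgn v hv => by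
    have := cj_mem (g := g) hv
    rwa [cj_eq_of_mem_normalizer hgn] at this
  V2_norm := fun g hgn v hv => by
    have := cj_mem (g := g) hv
    rwa [cj_eq_of_mem_normalizer hgn] at this
  index_G := by rw [hg.index_normalizer h.hU hnc hodd]; norm_num
  index_1 := h.relIndex hg hX
  index_2 := (h.symm hg.sqV).relIndex hg hX
  card_V2 := by rw [hg.cardV e h.hW]; norm_num
  card_W := by
    have : (U ⊓ e : Subgroup G) = X := by
      apply le_antisymm
      · intro x hx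
        exact h.mem_of_mem hg hx.1 hx.2
      · exact le_inf h.leU h.leW
    rw [this, hg.cardE X hX]
  H1 := by
    intro g hg1 hg2 w hw hgw
    by_contra hw1
    apply hg2
    have hXw : w ∈ X := h.mem_of_mem hg hw.1 hw.2
    have hXgw : g * w * g⁻¹ ∈ X := h.mem_of_mem hg hgw.1 hgw.2
    exact normalizer_of_cj_eq (h.cj_e_of hg (hg.cj_eq hX hX hXw hw1 hXgw) (cj_eq_of_mem_normalizer hg1))
  H2 := by
    intro g hg1 hg2 w hw hgw
    by_contra hw1
    apply hg2
    have hXw : w ∈ X := h.mem_of_mem hg hw.1 hw.2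
    have hXgw : g * w * g⁻¹ ∈ X := h.mem_of_mem hg hgw.1 hgw.2
    exact normalizer_of_cj_eq ((h.symm hg.sqV).cj_e_of hg (hg.cj_eq hX hX hXw hw1 hXgw)
      (cj_eq_of_mem_normalizer hg1))
  H3 := by
    intro g hg1 hg2 v hv hgv
    by_contra hve
    have he1 := cj_eq_of_mem_normalizer hg1
    have h1 := h.conj hg hX g
    rw [he1] at h1
    have hne : cj g U ≠ U := fun h2 => hg2 (normalizer_of_cj_eq h2)
    have hYX : cj g X ≠ X := by
      intro h2
      rw [h2] at h1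
      rcases h.uniq _ h1.hU h1.leU with h3 | h3
      · exact hne h3
      · exact h1.ne h3
    have hvX : v ∉ X := fun h2 => hve (h.leW h2)
    have h3 : cj v (cj g U) = cj g U := by
      have h4 := cj_eq_of_mem_normalizer hgv
      have h5 := congrArg (cj g) h4
      rw [cj_cj] at h5
      have h6 : v * g = g * (g⁻¹ * v * g) := by group
      rw [cj_cj, h6]
      exact h5
    have h4 : cj v e = e := (h.fix hg hv).2.2
    have h5 : cj v (cj g X) = cj g X := h1.cj_X_of hg (hg.conjE g X hX) h3 h4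
    exact (h.symm hg.sqV).not_norm hg hX hv hvX (hg.conjE g X hX) h1.leW hYX h5

/-- the conclusion for simple groups -/
theorem Ends.psl34 (hg : Geo E V) [Finite G] [IsSimpleGroup G] {X U e : Subgroup G} (hX : X ∈ E)
    (h : Ends E V X U e) (hnc : ∀ X ∈ E, ∀ e, Ends E V X U e → ∀ g : G, cj g U ≠ e)
    (hodd : ∀ K : Subgroup G, K ≤ normalizer (U : Set G) → Odd (Nat.card K) → Nat.card K ≤ 5) :
    ∃ (F : Type) (_ : Field F) (_ : Fintype F), Fintype.card F = 4 ∧
        Nonempty (G ≃* Matrix.ProjectiveSpecialLinearGroup (Fin 3) F) :=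
  ⟨Cfsg.Agent.LieExceptional.PlaneFour.F4, inferInstance, inferInstance,
    Cfsg.Agent.LieExceptional.PlaneFour.F4.card,
    Cfsg.Agent.LieExceptional.PlaneFour.psl34 (h.planeData hg hX hnc hodd) (hg.sqV e h.hW)⟩

end Cfsg.Agent.TIAbelian.End
end

-- part: TIAbelian/EndSwap
section
/-!
# No involution swaps the two vertices of an edge
-/

set_option autoImplicit false

namespace Cfsg.Agent.TIAbelian.End

open Subgroup
open Cfsg.Agent.ClassificationK.TIPair (cj mem_normalizer_cj normalizer_of_cj_eq cj_eq_of_mem_normalizer)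
open Cfsg.Agent.ClassificationK.TIFamily (mem_cj cj_mul cj_one)

universe u

variable {G : Type u} [Group G] {E V : Set (Subgroup G)}

theorem Geo.even_central (hg : Geo E V) [Finite G] {z w : G} (hz : z ∈ II E) (hw : w ∈ II E)
    (he : ¬ Odd (orderOf (z * w))) :
    ∃ t ∈ zpowers (z * w), t ∈ II E ∧ z * t = t * z ∧ w * t = t * w := by
  obtain ⟨t, ht, ht1, htt, hzt, hwt, y, hy⟩ := exists_central (hg.II_sq hz) (hg.II_sq hw)
    (orderOf_pos _) he
  have hztI : z * t ∈ II E := by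
    rcases hy with hy | hy
    · rw [hy]; exact II_conj' hg hz y
    · rw [hy]; exact II_conj' hg hw y
  have hzz := hg.II_sq hz
  have htI : t ∈ II E := by
    have h1 := hg.mul_mem_II hz hztI (by rw [mul_assoc, ← hzt]) (by
      intro h
      apply ht1
      have : z * t = z * 1 := by rw [mul_one]; exact h.symm
      exact mul_left_cancel this)
    rwa [← mul_assoc, hzz, one_mul] at h1
  exact ⟨t, ht, htI, hzt, hwt⟩

theorem Geo.even_V (hg : Geo E V) {U : Subgroup G} (hU : U ∈ V) : Even (Nat.card U) := by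
  rw [hg.cardV U hU]; decide

theorem Geo.even_E (hg : Geo E V) {U : Subgroup G} (hU : U ∈ E) : Even (Nat.card U) := by
  rw [hg.cardE U hU]; decide

theorem conj_mem_of_cj {g x : G} {X : Subgroup G} (h : cj g X = X) (hx : x ∈ X) : g * x * g⁻¹ ∈ X := by
  have := cj_mem (g := g) hx
  rwa [h] at this

/-- an involution swapping the vertices of an edge fixes no vertex -/
theorem Ends.no_fix (hg : Geo E V) [Finite G] {X U e : Subgroup G} (hX : X ∈ E) (h : Ends E V X U e) {s : G}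
    (hs : s * s = 1) (hsU : cj s U = e) {w : Subgroup G} (hw : w ∈ V) : cj s w ≠ w := by
  intro hsw
  have hse : cj s e = U := cj_swap hs hsU
  have hsX : cj s X = X := by
    apply hg.eq_of_le (hg.conjE s X hX) hX
    intro x hx
    apply h.mem_of_mem hg
    · rw [← hse]; exact cj_le_cj.2 h.leW hx
    · rw [← hsU]; exact cj_le_cj.2 h.leU hx
  obtain ⟨d, hd, hd1, hsd⟩ := exists_commute (X := w) hs (hg.even_V hw) (fun x hx => conj_mem_of_cj hsw hx)
  obtain ⟨z, hz, hz1, hsz⟩ := exists_commute (X := X) hs (hg.even_E hX) (fun x hx => conj_mem_of_cj hsX hx)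
  obtain ⟨D, hD, hdD, hDw⟩ := hg.cover w hw d hd hd1
  have hsD : cj s D = D := hg.cj_eq_of_comm hD hdD hd1 hsd
  have hzI : z ∈ II E := ⟨hz1, X, hX, hz⟩
  have hdI : d ∈ II E := ⟨hd1, D, hD, hdD⟩
  by_cases ho : Odd (orderOf (z * d))
  · obtain ⟨y, hy, hyd⟩ := exists_conj_of_odd (hg.II_sq hzI) (hg.II_sq hdI) ho
    have hys : s * y = y * s := by
      have h1 : zpowers (z * d) ≤ centralizer ({s} : Set G) := by
        rw [zpowers_le, mem_centralizer_singleton_iff]
        calc z * d * s = z * (d * s) := by group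
          _ = z * (s * d) := by rw [hsd]
          _ = (z * s) * d := by group
          _ = (s * z) * d := by rw [hsz]
          _ = s * (z * d) := by group
      exact (mem_centralizer_singleton_iff.1 (h1 hy)).symm
    have hXD : cj y⁻¹ X = D := by
      apply hg.cj_eq hX hD hz hz1
      rw [inv_inv, hyd]; exact hdD
    have h2 := h.conj hg hX y⁻¹
    rw [hXD] at h2
    have h3 : ∀ W : Subgroup G, cj s (cj y⁻¹ W) = cj y⁻¹ (cj s W) := by
      intro W
      rw [cj_cj, cj_cj]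
      have : s * y⁻¹ = y⁻¹ * s := by
        have h4 : y⁻¹ * (s * y) * y⁻¹ = y⁻¹ * (y * s) * y⁻¹ := by rw [hys]
        simpa only [mul_assoc, _root_.inv_mul_cancel_left, _root_.mul_inv_cancel, _root_.mul_one] using h4.symm
      rw [this]
    rcases h2.uniq w hw hDw with h4 | h4
    · rw [h4, h3, hsU] at hsw
      exact h.ne (cj_injective _ hsw).symm
    · rw [h4, h3, hse] at hsw
      exact h.ne (cj_injective _ hsw)
  · obtain ⟨t, ht, htI, hzt, hdt⟩ := hg.even_central hzI hdI ho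
    have hst : s * t = t * s := by
      have h1 : zpowers (z * d) ≤ centralizer ({s} : Set G) := by
        rw [zpowers_le, mem_centralizer_singleton_iff]
        calc z * d * s = z * (d * s) := by group
          _ = z * (s * d) := by rw [hsd]
          _ = (z * s) * d := by group
          _ = (s * z) * d := by rw [hsz]
          _ = s * (z * d) := by group
      exact (mem_centralizer_singleton_iff.1 (h1 ht)).symm
    obtain ⟨ht1, Y, hY, htY⟩ := id htI
    have hsY : cj s Y = Y := hg.cj_eq_of_comm hY htY ht1 hst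
    -- every vertex `f` of `Y` containing `X`
    have key : ∀ f ∈ V, Y ≤ f → X ≤ f → Y = X := by
      intro f hf hYf hXf
      have hYsf : Y ≤ cj s f := by rw [← hsY]; exact cj_le_cj.2 hYf
      rcases h.uniq f hf hXf with rfl | rfl
      · rw [hsU] at hYsf
        exact hg.eq_of_le hY hX (fun y hy => h.mem_of_mem hg (hYf hy) (hYsf hy))
      · rw [hse] at hYsf
        exact hg.eq_of_le hY hX (fun y hy => h.mem_of_mem hg (hYsf hy) (hYf hy))
    obtain ⟨f, f', hff⟩ := hg.two Y hY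
    have hYX : Y = X := by
      rcases hff.comm t htY ht1 X hX z hz hz1 hzt.symm with h1 | h1
      · exact key f hff.hU hff.leU (hg.le_of_mem hX hff.hU hz1 hz h1)
      · exact key f' hff.hW hff.leW (hg.le_of_mem hX hff.hW hz1 hz h1)
    subst hYX
    have hDX : D = Y := by
      rcases h.comm t htY ht1 D hD d hdD hd1 hdt.symm with h1 | h1
      · have hDU := hg.le_of_mem hD h.hU hd1 hdD h1
        have hDe : D ≤ e := by rw [← hsD, ← hsU]; exact cj_le_cj.2 hDU
        exact hg.eq_of_le hD hX (fun y hy => h.mem_of_mem hg (hDU hy) (hDe hy))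
      · have hDe := hg.le_of_mem hD h.hW hd1 hdD h1
        have hDU : D ≤ U := by rw [← hsD, ← hse]; exact cj_le_cj.2 hDe
        exact hg.eq_of_le hD hX (fun y hy => h.mem_of_mem hg (hDU hy) (hDe hy))
    subst hDX
    rcases h.uniq w hw hDw with h4 | h4
    · rw [h4, hsU] at hsw
      exact h.ne hsw.symm
    · rw [h4, hse] at hsw
      exact h.ne hsw

/-- A simple group acting on the cosets of `N`, with an involution acting without fixed points, and `2k` cosets,
`k` odd: impossible. -/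
theorem card_le_two_of_odd_perm [Finite G] [IsSimpleGroup G] (N : Subgroup G) {k : ℕ} (hk : Odd k)
    (hN : N.index = 2 * k) {s : G} (hs : s * s = 1) (hfix : ∀ g : G, g⁻¹ * s * g ∉ N) : Nat.card G ≤ 2 := by
  classical
  have hf : Finite (G ⧸ N) := inferInstance
  have := Fintype.ofFinite (G ⧸ N)
  let φ : G →* ℤˣ := Equiv.Perm.sign.comp (MulAction.toPermHom G (G ⧸ N))
  have h1 : φ s = -1 := by
    change Equiv.Perm.sign (MulAction.toPermHom G (G ⧸ N) s) = -1
    set σ := MulAction.toPermHom G (G ⧸ N) s with hσ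
    have hσ2 : σ ^ 2 = 1 := by rw [hσ, ← map_pow, pow_two, hs, map_one]
    have : Fact (Nat.Prime 2) := ⟨Nat.prime_two⟩
    have h2 := Equiv.Perm.cycleType_of_pow_prime_eq_one (p := 2) hσ2
    have h3 := Equiv.Perm.sum_cycleType σ
    rw [h2, Multiset.sum_replicate] at h3
    have h4 : σ.support = Finset.univ := by
      ext x
      simp only [Equiv.Perm.mem_support, Finset.mem_univ, iff_true]
      induction x using QuotientGroup.induction_on with
      | H g =>
        intro h5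
        apply hfix g
        have h6 : (((s * g : G) : G ⧸ N)) = (g : G ⧸ N) := h5
        have h7 := QuotientGroup.eq.1 h6.symm
        rwa [← mul_assoc] at h7
    have h5 : Fintype.card (G ⧸ N) = 2 * k := by
      rw [← hN, Subgroup.index, Nat.card_eq_fintype_card]
    rw [h4, Finset.card_univ, h5, smul_eq_mul] at h3
    have h6 : Multiset.card σ.cycleType = k := by omega
    rw [Equiv.Perm.sign_of_cycleType', h2, Multiset.map_replicate, Multiset.prod_replicate, h6]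
    rw [show (-(-1 : ℤˣ) ^ 2) = -1 by simp only [_root_.even_two, _root_.Even.neg_pow, _root_.one_pow]]
    exact hk.neg_one_pow
  have hker : φ.ker = ⊥ := by
    rcases (inferInstance : φ.ker.Normal).eq_bot_or_eq_top with h2 | h2
    · exact h2
    · exfalso
      have h3 : s ∈ φ.ker := by rw [h2]; trivial
      rw [MonoidHom.mem_ker, h1] at h3
      exact absurd h3 (by decide)
  have hinj : Function.Injective φ := (MonoidHom.ker_eq_bot_iff φ).1 hker
  have h2 := Nat.card_le_card_of_injective φ hinj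
  have h3 : Nat.card ℤˣ = 2 := by
    rw [Nat.card_eq_fintype_card]; rfl
  omega

/-- If the two vertices of an edge are conjugate and this is realised by an involution, contradiction. -/
theorem Ends.false_of_swap (hg : Geo E V) [Finite G] [IsSimpleGroup G] {X U e : Subgroup G} (hX : X ∈ E)
    (h : Ends E V X U e) {s : G} (hs : s * s = 1) (hsU : cj s U = e)
    (hodd : Odd (normalizer (X : Set G)).index) : False := by
  classical
  have := Fintype.ofFinite G
  have hse : cj s e = U := cj_swap hs hsU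
  have hsX : cj s X = X := by
    apply hg.eq_of_le (hg.conjE s X hX) hX
    intro x hx
    apply h.mem_of_mem hg
    · rw [← hse]; exact cj_le_cj.2 h.leW hx
    · rw [← hsU]; exact cj_le_cj.2 h.leU hx
  have h5 := h.relIndex hg hX
  have h2 : (normalizer (U : Set G)).relIndex (normalizer (X : Set G)) = 2 := by
    rw [Subgroup.relIndex]
    have h1 := index_eq_card_image ((normalizer (U : Set G)).subgroupOf (normalizer (X : Set G)))
      (fun a : normalizer (X : Set G) => cj (a : G) U) (by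
      intro a b
      rw [mem_subgroupOf, cj_eq_comm, cj_cj]
      simp only [Subgroup.coe_mul, InvMemClass.coe_inv]
      constructor
      · intro h2
        exact normalizer_of_cj_eq h2.symm
      · intro h2
        exact (cj_eq_of_mem_normalizer h2).symm)
    rw [h1]
    have h3 : (Finset.univ.image (fun a : normalizer (X : Set G) => cj (a : G) U)) = {U, e} := by
      ext W
      rw [Finset.mem_image, Finset.mem_insert, Finset.mem_singleton]
      constructor
      · rintro ⟨a, -, rfl⟩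
        rcases h.cj_cases hg (cj_eq_of_mem_normalizer a.2) with h4 | h4
        · exact Or.inl h4.1
        · exact Or.inr h4.1
      · rintro (rfl | rfl)
        · exact ⟨1, Finset.mem_univ _, cj_one' _⟩
        · exact ⟨⟨s, normalizer_of_cj_eq hsX⟩, Finset.mem_univ _, hsU⟩
    rw [h3, Finset.card_pair h.ne]
  have hinf : (normalizer (U : Set G)) ⊓ (normalizer (X : Set G)) =
      (normalizer (e : Set G)) ⊓ (normalizer (U : Set G)) := by
    ext g
    constructor
    · rintro ⟨hgU, hgX⟩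
      exact ⟨normalizer_of_cj_eq (h.cj_e_of hg (cj_eq_of_mem_normalizer hgX) (cj_eq_of_mem_normalizer hgU)),
        hgU⟩
    · rintro ⟨hge, hgU⟩
      exact ⟨hgU, normalizer_of_cj_eq (h.cj_X_of hg hX (cj_eq_of_mem_normalizer hgU)
        (cj_eq_of_mem_normalizer hge))⟩
  have h6 : ((normalizer (U : Set G)) ⊓ (normalizer (X : Set G))).index = 2 * (normalizer (X : Set G)).index := by
    rw [← Subgroup.relIndex_mul_index (inf_le_right : _ ≤ normalizer (X : Set G)), Subgroup.inf_relIndex_right,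
      h2]
  have h7 : ((normalizer (e : Set G)) ⊓ (normalizer (U : Set G))).index = 5 * (normalizer (U : Set G)).index := by
    rw [← Subgroup.relIndex_mul_index (inf_le_right : _ ≤ normalizer (U : Set G)), Subgroup.inf_relIndex_right,
      h5]
  rw [hinf, h7] at h6
  obtain ⟨m, hm⟩ := hodd
  obtain ⟨k, hk, hkN⟩ : ∃ k, Odd k ∧ (normalizer (U : Set G)).index = 2 * k := by
    refine ⟨(normalizer (U : Set G)).index / 2, ?_, by (clear * - h6; omega)⟩
    rw [Nat.odd_iff]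
    omega
  have h8 := card_le_two_of_odd_perm (normalizer (U : Set G)) hk hkN hs (by
    intro g hgs
    have h9 := mem_normalizer_cj.2 hgs
    exact h.no_fix hg hX hs hsU (hg.conjV g U h.hU) (cj_eq_of_mem_normalizer h9))
  have h9 : Nat.card U ≤ Nat.card G := Subgroup.card_le_card_group U
  rw [hg.cardV U h.hU] at h9
  omega

end Cfsg.Agent.TIAbelian.End
end

-- part: TIAbelian/EndSwapInv
section
/-!
# If the two lines on `B` are conjugate, they are swapped by an involution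
-/

set_option autoImplicit false
set_option linter.unusedSectionVars false

namespace Cfsg.Agent.TIAbelian.End

open Subgroup
open Cfsg.Agent.ClassificationK.TIPair (cj mem_normalizer_cj normalizer_of_cj_eq cj_eq_of_mem_normalizer)
open Cfsg.Agent.ClassificationK.TIFamily (mem_cj cj_mul cj_one)

universe u

variable {G : Type u} [Group G] {B A C : Subgroup G} [Finite G]

/-- the members of the line `Om A ⊔ Om B` -/
theorem Adj.member (h : Adj B A) {X : Subgroup G} (hX : X ∈ Cl B) (hXU : Om X ≤ Om A ⊔ Om B) (hne : X ≠ B) :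
    ∃ b ∈ B, X = cj b A := by
  have bX := h.base.of_mem hX
  obtain ⟨x, hx, hx1⟩ := bX.exists_ne
  obtain ⟨Y, hY, hxY, -⟩ := h.cover (hXU hx) hx1
  rcases hY with rfl | ⟨b, hb, rfl⟩
  · exact absurd (h.base.ti2 hX (self_mem_Cl Y) (bX.Om_le hx) (h.base.Om_le hxY) hx1) hne
  · refine ⟨b, hb, h.base.ti2 hX (cj_mem_Cl h.mem b) (bX.Om_le hx) ((h.baseA.conj b).Om_le hxY) hx1⟩

theorem Mv.eq_one (hB : Base B) {t : G} (ht : Mv B t) {b : G} (hb : b ∈ B) (htb : t * b * t⁻¹ = b) : b = 1 := by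
  have h1 : t * (b * b) * t⁻¹ = b * b := by
    calc t * (b * b) * t⁻¹ = (t * b * t⁻¹) * (t * b * t⁻¹) := by group
      _ = b * b := by rw [htb]
  have h2 : b * b = 1 := by
    by_contra h3
    exact ht.mv _ (hB.sq_mem_Om hb) h3 h1
  have h3 : b ∈ Om B := (mem_Om hB.comm).2 ⟨hb, h2⟩
  by_contra h4
  exact ht.mv b h3 h4 htb

/-- members of the line fixed by `t`: only `A` and `B` -/
theorem Adj.member_fixed (h : Adj B A) {t : G} (htA : cj t A = A) (ht : Mv B t) {X : Subgroup G}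
    (hX : X ∈ Cl B) (hXU : Om X ≤ Om A ⊔ Om B) (hne : X ≠ B) (htX : cj t X = X) : X = A := by
  obtain ⟨b, hb, rfl⟩ := h.member hX hXU hne
  have h1 : cj (t * b * t⁻¹) A = cj b A := by
    conv_rhs => rw [← htX]
    rw [cj_cj, ← cj_cj (t * b) t⁻¹, cj_inv_eq htA]
  have hbt : t * b * t⁻¹ ∈ B := conj_mem ht.norm hb
  have h2 : b⁻¹ * (t * b * t⁻¹) ∈ Om B := by
    apply h.symm.mem_Om_of_norm (B.mul_mem (B.inv_mem hb) hbt)
    rw [← cj_cj, h1, cj_cancel]
  have h3 : t * b * t⁻¹ * (t * b * t⁻¹) = b * b := by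
    have h4 : t * b * t⁻¹ = b * (b⁻¹ * (t * b * t⁻¹)) := by group
    rw [h4, h.base.sq_mul hb (h.base.Om_le h2), h.base.Om_sq h2, mul_one]
  have h5 : b * b = 1 := by
    by_contra h6
    apply ht.mv _ (h.base.sq_mem_Om hb) h6
    rw [← h3]
    calc t * (t * b * t⁻¹ * (t * b * t⁻¹)) * t⁻¹ = t * (b * b) * t⁻¹ := by rw [h3]
      _ = t * b * t⁻¹ * (t * b * t⁻¹) := by group
  exact h.symm.norm ((mem_Om h.base.comm).2 ⟨hb, h5⟩)

/-- the map `s ↦ s⁻¹ (t s t⁻¹)` is onto, if `t` has no fixed points on `S` -/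
theorem exists_lang {S : Subgroup G} {t : G} (htS : ∀ s ∈ S, t * s * t⁻¹ ∈ S)
    (hfix : ∀ s ∈ S, t * s * t⁻¹ = s → s = 1) {c : G} (hc : c ∈ S) : ∃ s ∈ S, s⁻¹ * (t * s * t⁻¹) = c := by
  refine exists_of_card (S := S) (T := S) (K := ⊥) (fun s => s⁻¹ * (t * s * t⁻¹))
    (fun s hs => S.mul_mem (S.inv_mem hs) (htS s hs)) ?_ (by simp only [_root_.Subgroup.mem_bot, _root_.Nat.card_eq_fintype_card, _root_.Fintype.card_unique, _root_.one_mul]) c hc
  intro x hx y hy hxy
  have h1 : x * y⁻¹ = 1 := by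
    -- `y x⁻¹` is fixed
    apply hfix _ (S.mul_mem hx (S.inv_mem hy))
    calc t * (x * y⁻¹) * t⁻¹ = (x * (x⁻¹ * (t * x * t⁻¹))) * (t * y⁻¹ * t⁻¹) := by group
      _ = (x * (y⁻¹ * (t * y * t⁻¹))) * (t * y⁻¹ * t⁻¹) := by rw [hxy]
      _ = x * y⁻¹ := by group
  have h2 : x = y := mul_inv_eq_one.1 h1
  rw [h2]; simp

/-- a neighbour `C₀` on the second line normalised by `t` -/
theorem Full.exists_fixed (h : Full B A C) {t : G} (ht : Mv B t) (htA : cj t A = A) :
    ∃ C₀, Full B A C₀ ∧ Om C₀ ⊔ Om B = Om C ⊔ Om B ∧ cj t C₀ = C₀ := by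
  have hg := h.geo
  have he := h.ends
  -- `t` fixes both lines
  have htU : cj t (Om A ⊔ Om B) = Om A ⊔ Om B := by
    have : cj t (Om A ⊔ Om B) = cj t (Om A) ⊔ cj t (Om B) := Subgroup.map_sup _ _ _
    rw [this, cj_Om h.adjA.baseA.comm, cj_Om h.adjA.base.comm, htA, ht.norm]
  have htB : cj t (Om B) = Om B := by rw [cj_Om h.adjA.base.comm, ht.norm]
  have htW : cj t (Om C ⊔ Om B) = Om C ⊔ Om B := he.cj_e_of hg htB htU
  have h1 : Om (cj t C) ≤ Om C ⊔ Om B := by
    rw [← cj_Om h.adjC.baseA.comm, ← htW]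
    exact cj_le_cj.2 le_sup_left
  have h2 : cj t C ≠ B := by
    intro h3
    apply h.adjC.ne
    apply cj_injective t
    simp only
    rw [h3, ht.norm]
  obtain ⟨b₀, hb₀, hb₀C⟩ := h.adjC.member (cj_mem_Cl h.adjC.mem t) h1 h2
  obtain ⟨β, hβ, hββ⟩ := exists_lang (S := B) (fun s hs => conj_mem ht.norm hs)
    (fun s hs hs1 => ht.eq_one h.adjC.base hs hs1) (B.inv_mem hb₀)
  have h3 : cj t (cj β C) = cj β C := by
    have h4 : t * β * t⁻¹ * b₀ = β := by
      calc t * β * t⁻¹ * b₀ = β * (β⁻¹ * (t * β * t⁻¹)) * b₀ := by group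
        _ = β := by rw [hββ]; group
    have h8 : t * β * t⁻¹ * t = t * β := by group
    calc cj t (cj β C) = cj (t * β * t⁻¹) (cj t C) := by
          rw [cj_cj, cj_cj, h8]
      _ = cj β C := by rw [hb₀C, cj_cj, h4]
  have hline : cj β (Om C ⊔ Om B) = Om C ⊔ Om B := by
    apply Subgroup.eq_of_le_of_card_ge (h.adjC.conj_line hβ)
    rw [card_cj]
  have h5 : Om (cj β C) ≤ Om C ⊔ Om B := by
    rw [← cj_Om h.adjC.baseA.comm, ← hline]
    exact cj_le_cj.2 le_sup_left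
  have hne : cj β C ≠ B := by
    intro h6
    apply h.adjC.ne
    apply cj_injective β
    simp only
    rw [h6, h.adjC.base.cj_mem_self hβ]
  obtain ⟨hadj, heq⟩ := VV_eq_sup h.adjC.base h.adjC.line_mem_VV (self_mem_Cl B) (cj_mem_Cl h.adjC.mem β) hne
    le_sup_right h5
  refine ⟨cj β C, ⟨h.adjA, hadj, h.cent, ?_⟩, heq.symm, h3⟩
  intro h6
  apply h.ne
  have h7 : Om C ⊔ Om B ≤ Om A ⊔ Om B := by
    rw [heq]; exact sup_le h6 le_sup_right
  exact le_trans le_sup_left h7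

theorem Adj.mem_S (h : Adj B A) {x : G} : x ∈ Om A ⊔ B ↔ ∃ a ∈ Om A, ∃ b ∈ B, x = a * b := by
  constructor
  · intro hx
    let S : Subgroup G :=
      { carrier := {x | ∃ a ∈ Om A, ∃ b ∈ B, x = a * b}
        mul_mem' := by
          rintro _ _ ⟨a, ha, y, hy, rfl⟩ ⟨a', ha', y', hy', rfl⟩
          refine ⟨a * a', (Om A).mul_mem ha ha', (a'⁻¹ * y * a') * y', B.mul_mem ?_ hy', ?_⟩
          · exact conj_mem' (h.norm ha') hy
          · group
        one_mem' := ⟨1, (Om A).one_mem, 1, B.one_mem, by simp⟩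
        inv_mem' := by
          rintro _ ⟨a, ha, y, hy, rfl⟩
          refine ⟨a⁻¹, (Om A).inv_mem ha, a * y⁻¹ * a⁻¹, conj_mem (h.norm ha) (B.inv_mem hy), ?_⟩
          group }
    have hX : Om A ≤ S := fun a ha => ⟨a, ha, 1, B.one_mem, by simp⟩
    have hY : B ≤ S := fun y hy => ⟨1, (Om A).one_mem, y, hy, by simp⟩
    exact (sup_le hX hY) hx
  · rintro ⟨a, ha, y, hy, rfl⟩
    exact (Om A ⊔ B).mul_mem ((le_sup_left : Om A ≤ Om A ⊔ B) ha) ((le_sup_right : B ≤ Om A ⊔ B) hy)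

theorem Base.brk_mul (hB : Base B) {k : G} (hkB : cj k B = B) (hk : ∀ y ∈ Om B, k * y = y * k) {b c : G}
    (hb : b ∈ B) (hc : c ∈ B) : br k (b * c) = br k b * br k c := by
  have h1 := hB.comm _ (hB.Om_le (hB.br_mem_of_comm hkB hk hc)) _ (B.inv_mem hb)
  calc br k (b * c) = (k * b * k⁻¹) * (br k c * b⁻¹) := by rw [br, br]; group
    _ = (k * b * k⁻¹) * (b⁻¹ * br k c) := by rw [h1]
    _ = br k b * br k c := by rw [br, br]; group

theorem Base.brk_congr (hB : Base B) {k : G} (hkB : cj k B = B) (hk : ∀ y ∈ Om B, k * y = y * k) {b c : G}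
    (hb : b ∈ B) (hc : c ∈ B) (hbc : b * b = c * c) : br k b = br k c := by
  have h1 := hB.inv_mul_mem hb hc hbc
  have h2 := hB.brk_mul hkB hk hb (B.mul_mem (B.inv_mem hb) hc)
  rw [mul_inv_cancel_left, br_eq_one_iff.2 (hk _ h1), mul_one] at h2
  exact h2.symm

theorem Mv.inv_conj (hB : Base B) {t : G} (ht : Mv B t) {x : G} (hx : x ∈ Om B) :
    t⁻¹ * x * t = x * (t * x * t⁻¹) := by
  have h1 := ht.sq hB hx
  have h2 := ht.cube hB hx
  rw [← h1]
  calc t⁻¹ * x * t = t⁻¹ * (x * t ^ 3) * (t ^ 3)⁻¹ * t := by group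
    _ = t⁻¹ * (t ^ 3 * x) * (t ^ 3)⁻¹ * t := by rw [h2]
    _ = t * (t * x * t⁻¹) * t⁻¹ := by
      rw [pow_succ, pow_two]; group

/-- `t` acts inversely on the two factors -/
theorem Adj.br_twist (h : Adj B A) {t : G} (ht : Mv B t) (hA : Mv A t) {a b : G} (ha : a ∈ Om A)
    (hb : b ∈ B) : br (t * a * t⁻¹) b = t⁻¹ * br a b * t := by
  by_cases ha1 : a = 1
  · rw [ha1]; simp [br]
  by_cases hbO : b ∈ Om B
  · rw [h.br_Om (conj_Om_mem h.baseA hA.norm ha) hbO, h.br_Om ha hbO]; group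
  have hta := conj_Om_mem h.baseA hA.norm ha
  have hx := h.br_mem ha hb
  have hx1 : br a b ≠ 1 := fun h1 => hbO (h.br_one ha ha1 hb h1)
  have hz := h.br_mem hta hb
  have hty := conj_Om_mem h.base ht.norm hx
  have hty1 : t * br a b * t⁻¹ ≠ 1 := by
    intro h1
    apply hx1
    calc br a b = t⁻¹ * (t * br a b * t⁻¹) * t := by group
      _ = 1 := by rw [h1]; group
  have hta1 : t * a * t⁻¹ ≠ 1 := by
    intro h1
    apply ha1
    calc a = t⁻¹ * (t * a * t⁻¹) * t := by group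
      _ = 1 := by rw [h1]; group
  rcases h.base.four hx hty hx1 hty1 (ht.mv _ hx hx1).symm hz with h1 | h1 | h1 | h1
  · exact absurd (h.br_one hta hta1 hb h1) hbO
  · exact absurd (h.br_left_inj hta ha hb hbO h1) (hA.mv a ha ha1)
  · exfalso
    have h2 : br (t * a * t⁻¹) (t * b * t⁻¹) = t * br a b * t⁻¹ := by
      rw [br_conj]
      congr 3
      group
    have htb : t * b * t⁻¹ ∈ B := conj_mem ht.norm hb
    have h3 : br (t * a * t⁻¹) (b * (b⁻¹ * (t * b * t⁻¹))) =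
        br (t * a * t⁻¹) b * br (t * a * t⁻¹) (b⁻¹ * (t * b * t⁻¹)) :=
      h.br_mul_right hta hb (B.mul_mem (B.inv_mem hb) htb)
    rw [mul_inv_cancel_left, h2, h1] at h3
    have h4 : br (t * a * t⁻¹) (b⁻¹ * (t * b * t⁻¹)) = 1 :=
      mul_left_cancel (a := t * br a b * t⁻¹) (by rw [mul_one]; exact h3.symm)
    have h5 := h.br_one hta hta1 (B.mul_mem (B.inv_mem hb) htb) h4
    have h6 := h.base.Om_sq h5
    rw [h.base.sq_mul (B.inv_mem hb) htb] at h6
    have h7 : b⁻¹ * b⁻¹ = (b * b)⁻¹ := by group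
    rw [h7, inv_mul_eq_one] at h6
    apply ht.mv _ (h.base.sq_mem_Om hb) (h.base.sq_ne hb hbO)
    calc t * (b * b) * t⁻¹ = t * b * t⁻¹ * (t * b * t⁻¹) := by group
      _ = b * b := h6.symm
  · rw [h1, ht.inv_conj h.base hx]

theorem Adj.br_twist' (h : Adj B A) {t : G} (ht : Mv B t) (hA : Mv A t) {a b : G} (ha : a ∈ Om A)
    (hb : b ∈ B) : br a (t * b * t⁻¹) = t⁻¹ * br a b * t := by
  have ha' : t⁻¹ * a * t ∈ Om A := by
    have := conj_Om_mem h.baseA (cj_inv_eq hA.norm) ha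
    rwa [inv_inv] at this
  have h1 := h.br_twist ht hA ha' hb
  have h2 : t * (t⁻¹ * a * t) * t⁻¹ = a := by group
  rw [h2] at h1
  -- `h1 : br a b = t⁻¹ * br (t⁻¹ a t) b * t`
  have h3 : br a (t * b * t⁻¹) = t * br (t⁻¹ * a * t) b * t⁻¹ := by
    rw [br, br]; group
  have h4 : br (t⁻¹ * a * t) b = t * br a b * t⁻¹ := by rw [h1]; group
  have hx := h.br_mem ha hb
  rw [h3, h4, ht.inv_conj h.base hx, ht.sq h.base hx]

/-- `[k,t] ∈ S₁ = Om A · B` for `k` centralising `Om B` -/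
theorem Adj.comm_mem_S (h : Adj B A) (hcent : ∀ k : G, (∀ b ∈ B, k * b = b * k) → k ∈ B) {t : G} (ht : Mv B t)
    (hA : Mv A t) {k : G} (hkB : cj k B = B) (hk : ∀ y ∈ Om B, k * y = y * k) :
    k * (t * k⁻¹ * t⁻¹) ∈ Om A ⊔ B := by
  obtain ⟨b, hb, -, -, hbO, -, -⟩ := h.base.exists_pair
  have hB := h.base
  have hk' : ∀ y ∈ Om B, k⁻¹ * y = y * k⁻¹ := by
    intro y hy
    have h1 := hk y hy
    calc k⁻¹ * y = k⁻¹ * (y * k) * k⁻¹ := by group
      _ = k⁻¹ * (k * y) * k⁻¹ := by rw [h1]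
      _ = y * k⁻¹ := by group
  have hbrinv : ∀ d ∈ B, br k⁻¹ d = br k d := by
    intro d hd
    have h1 := hk' _ (hB.br_mem_of_comm hkB hk hd)
    have h2 := hB.Om_sq (hB.br_mem_of_comm hkB hk hd)
    have h3 : k⁻¹ * (k * d * k⁻¹) * k = d := by group
    rw [conj_eq_br] at h3
    have h4 : k⁻¹ * d * k = br k d * d := by
      calc k⁻¹ * d * k = (br k d * br k d) * (k⁻¹ * d * k) := by rw [h2, one_mul]
        _ = br k d * ((br k d * k⁻¹) * d * k) := by group
        _ = br k d * ((k⁻¹ * br k d) * d * k) := by rw [h1]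
        _ = br k d * (k⁻¹ * (br k d * d) * k) := by group
        _ = br k d * d := by rw [h3]
    calc br k⁻¹ d = (k⁻¹ * d * k) * d⁻¹ := by rw [br, inv_inv]
      _ = br k d := by rw [h4]; group
  -- the element `c`
  set c := k * (t * k⁻¹ * t⁻¹) with hc
  have hψ : ∀ d ∈ B, br c d = br k d * (t * br k (t⁻¹ * d * t) * t⁻¹) := by
    intro d hd
    have hd' : t⁻¹ * d * t ∈ B := conj_mem' ht.norm hd
    have h1 : t * k⁻¹ * t⁻¹ * d * (t * k⁻¹ * t⁻¹)⁻¹ = (t * br k (t⁻¹ * d * t) * t⁻¹) * d := by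
      calc t * k⁻¹ * t⁻¹ * d * (t * k⁻¹ * t⁻¹)⁻¹ = t * (k⁻¹ * (t⁻¹ * d * t) * k⁻¹⁻¹) * t⁻¹ := by group
        _ = t * (br k⁻¹ (t⁻¹ * d * t) * (t⁻¹ * d * t)) * t⁻¹ := by rw [conj_eq_br k⁻¹ (t⁻¹ * d * t)]
        _ = (t * br k (t⁻¹ * d * t) * t⁻¹) * d := by rw [hbrinv _ hd']; group
    have h2 : t * br k (t⁻¹ * d * t) * t⁻¹ ∈ Om B :=
      conj_Om_mem hB ht.norm (hB.br_mem_of_comm hkB hk hd')
    have h3 := hk _ h2
    have h4 := hB.comm _ (hB.Om_le h2) _ (hB.Om_le (hB.br_mem_of_comm hkB hk hd))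
    calc br c d = k * (t * k⁻¹ * t⁻¹ * d * (t * k⁻¹ * t⁻¹)⁻¹) * k⁻¹ * d⁻¹ := by rw [br, hc]; group
      _ = k * ((t * br k (t⁻¹ * d * t) * t⁻¹) * d) * k⁻¹ * d⁻¹ := by rw [h1]
      _ = (k * (t * br k (t⁻¹ * d * t) * t⁻¹)) * d * k⁻¹ * d⁻¹ := by group
      _ = ((t * br k (t⁻¹ * d * t) * t⁻¹) * k) * d * k⁻¹ * d⁻¹ := by rw [h3]
      _ = (t * br k (t⁻¹ * d * t) * t⁻¹) * br k d := by rw [br_def k d]; group
      _ = br k d * (t * br k (t⁻¹ * d * t) * t⁻¹) := h4
  have htb : t * b * t⁻¹ ∈ B := conj_mem ht.norm hb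
  have hφ := hB.br_mem_of_comm hkB hk hb
  have hφ1 := hB.br_mem_of_comm hkB hk htb
  -- twist property of `c`
  have htw : br c (t * b * t⁻¹) = t⁻¹ * br c b * t := by
    have hb' : t⁻¹ * b * t ∈ B := conj_mem' ht.norm hb
    have e1 : t⁻¹ * (t * b * t⁻¹) * t = b := by group
    have e2 : br k (t⁻¹ * b * t) = br k b * br k (t * b * t⁻¹) := by
      rw [← hB.brk_mul hkB hk hb htb]
      apply hB.brk_congr hkB hk hb' (B.mul_mem hb htb)
      rw [hB.sq_mul hb htb]
      have e3 := ht.inv_conj hB (hB.sq_mem_Om hb)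
      calc t⁻¹ * b * t * (t⁻¹ * b * t) = t⁻¹ * (b * b) * t := by group
        _ = b * b * (t * (b * b) * t⁻¹) := e3
        _ = b * b * (t * b * t⁻¹ * (t * b * t⁻¹)) := by group
    rw [hψ _ htb, hψ _ hb, e1]
    have e4 : t⁻¹ * (br k b * (t * br k (t⁻¹ * b * t) * t⁻¹)) * t =
        (t⁻¹ * br k b * t) * br k (t⁻¹ * b * t) := by group
    rw [e4, e2, ht.inv_conj hB hφ]
    have e5 := hB.comm _ (hB.Om_le (conj_Om_mem hB ht.norm hφ)) _ (hB.Om_le hφ)
    have e6 := hB.comm _ (hB.Om_le hφ1) _ (hB.Om_le (conj_Om_mem hB ht.norm hφ))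
    calc br k (t * b * t⁻¹) * (t * br k b * t⁻¹) = (t * br k b * t⁻¹) * br k (t * b * t⁻¹) := e6
      _ = (t * br k b * t⁻¹) * (br k b * br k b) * br k (t * b * t⁻¹) := by rw [hB.Om_sq hφ, mul_one]
      _ = ((t * br k b * t⁻¹) * br k b) * (br k b * br k (t * b * t⁻¹)) := by group
      _ = br k b * (t * br k b * t⁻¹) * (br k b * br k (t * b * t⁻¹)) := by rw [e5]
  -- `c` centralises `Om B` and normalises `B`
  have hcO : ∀ y ∈ Om B, c * y = y * c := by
    intro y hy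
    have h1 : t⁻¹ * y * t ∈ Om B := by
      have := conj_Om_mem hB (cj_inv_eq ht.norm) hy
      rwa [inv_inv] at this
    have h2 := hk' _ h1
    have h3 := hk y hy
    calc c * y = k * t * (k⁻¹ * (t⁻¹ * y * t)) * t⁻¹ := by rw [hc]; group
      _ = k * t * ((t⁻¹ * y * t) * k⁻¹) * t⁻¹ := by rw [h2]
      _ = (k * y) * (t * k⁻¹ * t⁻¹) := by group
      _ = (y * k) * (t * k⁻¹ * t⁻¹) := by rw [h3]
      _ = y * c := by rw [hc]; group
  have hcB : cj c B = B := by
    rw [hc, ← cj_cj, ← cj_cj, ← cj_cj, cj_inv_eq ht.norm, cj_inv_eq hkB, ht.norm, hkB]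
  obtain ⟨a, ha, hab⟩ := h.br_left_surj hb hbO (hB.br_mem_of_comm hcB hcO hb)
  have hab1 : br a (t * b * t⁻¹) = br c (t * b * t⁻¹) := by
    rw [h.br_twist' ht hA ha hb, htw, hab]
  have hz : a⁻¹ * c ∈ B := by
    apply hcent
    intro d hd
    apply comm_of_br_eq
    -- `br a d = br c d`
    have hbsq : t * b * t⁻¹ * (t * b * t⁻¹) = t * (b * b) * t⁻¹ := by group
    have hne : b * b ≠ t * b * t⁻¹ * (t * b * t⁻¹) := by
      rw [hbsq]
      exact (ht.mv _ (hB.sq_mem_Om hb) (hB.sq_ne hb hbO)).symm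
    have htbO : t * b * t⁻¹ ∉ Om B := by
      intro h1
      apply hbO
      have h2 := conj_Om_mem hB (cj_inv_eq ht.norm) h1
      convert h2 using 1; group
    rcases hB.four (hB.sq_mem_Om hb) (hB.sq_mem_Om htb) (hB.sq_ne hb hbO) (hB.sq_ne htb htbO) hne
      (hB.sq_mem_Om hd) with h2 | h2 | h2 | h2
    · have h3 : d ∈ Om B := (mem_Om hB.comm).2 ⟨hd, h2⟩
      rw [h.br_Om ha h3, br_eq_one_iff.2 (hcO d h3)]
    · rw [h.br_congr ha hd hb h2, hab, hB.brk_congr hcB hcO hd hb h2]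
    · rw [h.br_congr ha hd htb h2, hab1, hB.brk_congr hcB hcO hd htb h2]
    · rw [← hB.sq_mul hb htb] at h2
      rw [h.br_congr ha hd (B.mul_mem hb htb) h2, hB.brk_congr hcB hcO hd (B.mul_mem hb htb) h2,
        h.br_mul_right ha hb htb, hB.brk_mul hcB hcO hb htb, hab, hab1]
  rw [h.mem_S]
  exact ⟨a, ha, a⁻¹ * c, hz, by group⟩

end Cfsg.Agent.TIAbelian.End
end

private theorem dce_97776f78737e : _root_.True := by
  try have : _root_.True := by simp only [_root_.Cfsg.Agent.TIAbelian.End.nearI.eq_1]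
  try have : _root_.True := by simp only [_root_.Cfsg.Agent.TIAbelian.End.orb.eq_1]
  try have : _root_.True := by simp only [_root_.Cfsg.Agent.TIAbelian.End.allI.eq_1]
  try have : _root_.True := by simp only [_root_.Cfsg.Agent.TIAbelian.End.nearV.eq_1]
  exact _root_.True.intro
end

-- part: TIAbelian/CaseBGeo
section
prune_inst 0x42010040011220000001800100200006010000002004000010000010208418040000208013270001080b280c06002004002100100420000000a000000400400000000024000740c00110000004806000000000000000000000000000000000000000000000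
set_option linter.all false
open scoped Cfsg.Agent.FastGrp

-- part: TIAbelian/PairBase
section
set_option autoImplicit false

namespace Cfsg.Agent.TIAbelian.PairBase

variable {G : Type*} [Group G]

/-- The conjugate subgroup `g H g⁻¹`. -/
def cj (g : G) (H : Subgroup G) : Subgroup G := H.map (MulAut.conj g).toMonoidHom

theorem mem_cj {g x : G} {H : Subgroup G} : x ∈ cj g H ↔ g⁻¹ * x * g ∈ H := by
  constructor
  · rintro ⟨y, hy, rfl⟩
    simpa [mul_assoc] using hy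
  · intro h
    exact ⟨_, h, by simp only [mul_assoc, _root_.MulEquiv.toMonoidHom_eq_coe, _root_.MonoidHom.coe_coe, _root_.MulAut.conj_apply, _root_.mul_inv_cancel_left, _root_.mul_inv_cancel, _root_.mul_one]⟩

theorem conj_mem_cj {g x : G} {H : Subgroup G} (hx : x ∈ H) : g * x * g⁻¹ ∈ cj g H := by
  rw [mem_cj]
  simpa [mul_assoc] using hx

theorem cj_cj (g k : G) (H : Subgroup G) : cj g (cj k H) = cj (g * k) H := by
  ext x
  simp only [mem_cj, mul_inv_rev, mul_assoc]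

@[simp] theorem cj_one (H : Subgroup G) : cj (1 : G) H = H := by
  ext x
  simp [mem_cj]

theorem cj_inv_cj (g : G) (H : Subgroup G) : cj g⁻¹ (cj g H) = H := by
  rw [cj_cj, inv_mul_cancel, cj_one]

theorem cj_cj_inv (g : G) (H : Subgroup G) : cj g (cj g⁻¹ H) = H := by
  rw [cj_cj, mul_inv_cancel, cj_one]

theorem cj_inj {g : G} {H K : Subgroup G} (h : cj g H = cj g K) : H = K := by
  rw [← cj_inv_cj g H, h, cj_inv_cj]

theorem cj_self {g : G} {H : Subgroup G} (hg : g ∈ H) : cj g H = H := by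
  ext x
  rw [mem_cj]
  constructor
  · intro h
    have := H.mul_mem (H.mul_mem hg h) (H.inv_mem hg)
    simpa [mul_assoc] using this
  · intro h
    exact H.mul_mem (H.mul_mem (H.inv_mem hg) h) hg

theorem conj_mem_of_cj {g x : G} {H : Subgroup G} (h : cj g H = H) (hx : x ∈ H) :
    g * x * g⁻¹ ∈ H := by
  rw [← h]
  exact conj_mem_cj hx

theorem cj_inv_eq {g : G} {H : Subgroup G} (h : cj g H = H) : cj g⁻¹ H = H := by
  conv_lhs => rw [← h]
  exact cj_inv_cj g H

theorem conj_mem_of_cj' {g x : G} {H : Subgroup G} (h : cj g H = H) (hx : x ∈ H) :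
    g⁻¹ * x * g ∈ H := by
  have := conj_mem_of_cj (cj_inv_eq h) hx
  simpa using this

theorem cj_mul_eq {g k : G} {H : Subgroup G} (hg : cj g H = H) (hk : cj k H = H) :
    cj (g * k) H = H := by
  rw [← cj_cj, hk, hg]

theorem cj_pow_eq {g : G} {H : Subgroup G} (hg : cj g H = H) (n : ℕ) : cj (g ^ n) H = H := by
  induction n with
  | zero => simp
  | succ n ih => rw [pow_succ]; exact cj_mul_eq ih hg

/-- Repeated squaring reaches the identity, so there is a last power of `x` not satisfying `p`. -/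
theorem two_descend (x : G) (n : ℕ) (hn : x ^ (2 ^ n) = 1) (p : G → Prop) (p1 : p 1)
    (hx : ¬ p x) : ∃ k, ¬ p (x ^ (2 ^ k)) ∧ p (x ^ (2 ^ k) * x ^ (2 ^ k)) := by
  by_contra hcon
  push Not at hcon
  have key : ∀ k, ¬ p (x ^ (2 ^ k)) := by
    intro k
    induction k with
    | zero => simpa using hx
    | succ k ih =>
      have := hcon k ih
      rwa [← pow_add, ← two_mul, ← pow_succ'] at this
  exact key n (by rwa [hn])

section Additive

variable {M : Type*} [AddCommGroup M]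

theorem addA1 (σ : M →+ M) (fix : ∀ m, σ (σ m) = m → σ m = m)
    (h4 : ∀ m, σ (σ (σ (σ m))) = m) (e : M) (he : e + e = 0) : σ e = e := by
  have he1 : σ e + σ e = 0 := by rw [← map_add, he, map_zero]
  have he2 : σ (σ e) + σ (σ e) = 0 := by rw [← map_add, he1, map_zero]
  have hc : σ (σ (σ e) + e) = σ (σ e) + e := by
    apply fix
    rw [map_add, map_add, h4, add_comm]
  have hd : σ (σ e + e) = σ e + e := by
    apply fix
    rw [map_add, map_add]
    rw [map_add] at hc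
    have h1 : σ (σ (σ e)) + σ (σ e) - (σ e + e)
        = (σ (σ (σ e)) + σ e) - (σ (σ e) + e) + (σ (σ e) + σ (σ e)) - (σ e + σ e) := by abel
    rw [hc, he2, he1] at h1
    simp only [sub_self, add_zero] at h1
    exact sub_eq_zero.mp h1
  apply fix
  rw [map_add, add_comm (σ e) e] at hd
  exact add_right_cancel hd

theorem addA2 (σ : M →+ M) (fix : ∀ m, σ (σ m) = m → σ m = m)
    (h4 : ∀ m, σ (σ (σ (σ m))) = m) (b : M) (hb : σ (b + b) = b + b) : σ b = b := by
  have hc : σ (σ b - b) = σ b - b := by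
    apply addA1 σ fix h4
    have h1 : σ b - b + (σ b - b) = (σ b + σ b) - (b + b) := by abel
    rw [h1, ← map_add, hb, sub_self]
  apply fix
  have h2 : σ (σ b) = σ (σ b - b) + σ b := by rw [← map_add]; congr 1; abel
  rw [h2, hc]
  rw [map_add] at hb
  have h3 : σ b - b + σ b = (σ b + σ b) - b := by abel
  rw [h3, hb]
  abel

/-- `X` of order two is impossible. -/
theorem addB1 (σ : M →+ M) (h2 : ∀ m, σ (σ m) = m) (hY : ∀ m, σ m = m → m + m = 0) (y : M)
    (hy : ∀ m, σ m = m → m = 0 ∨ m = y) (c : M) (hc : c + c ≠ 0) (hc4 : (c + c) + (c + c) = 0)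
    (e : M) (he : e + e = 0) (hey : σ e ≠ e) : False := by
  have h1 : (c + σ c) + (c + σ c) = 0 := by
    apply hY
    rw [map_add, h2, add_comm]
  have h3 : σ (c + c) = c + c := by
    have : σ (c + c) = (c + σ c) + (c + σ c) - (c + c) := by rw [map_add]; abel
    rw [this, h1, zero_sub, neg_eq_iff_add_eq_zero]
    exact hc4
  have hfix : ∀ m : M, σ (m + m) = m + m → σ (σ m - m) = σ m - m := by
    intro m hm
    rw [map_sub, h2]
    rw [map_add] at hm
    have : m - σ m - (σ m - m) = (m + m) - (σ m + σ m) := by abel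
    rw [hm, sub_self] at this
    exact sub_eq_zero.mp this
  have hc0 : σ c ≠ c := fun h => hc (hY c h)
  have e1 : σ c - c = y := by
    rcases hy _ (hfix c h3) with h | h
    · exact absurd (sub_eq_zero.mp h) hc0
    · exact h
  have e2 : σ e - e = y := by
    rcases hy _ (hfix e (by rw [he, map_zero])) with h | h
    · exact absurd (sub_eq_zero.mp h) hey
    · exact h
  have hyy : y + y = 0 := by
    rw [← e1]
    exact hY _ (hfix c h3)
  have h5 : σ (c + e) = c + e := by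
    have : σ (c + e) - (c + e) = (σ c - c) + (σ e - e) := by rw [map_add]; abel
    rw [e1, e2, hyy] at this
    exact sub_eq_zero.mp this
  have h6 := hY _ h5
  apply hc
  have : c + c = (c + e + (c + e)) - (e + e) := by abel
  rw [this, h6, he, sub_zero]

end Additive

/-- A conjugacy class of abelian TI 2-subgroups, not cyclic, not elementary, without
distinct commuting members. -/
structure TIFam (P : Set (Subgroup G)) : Prop where
  conj : ∀ C ∈ P, ∀ g : G, cj g C ∈ P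
  trans : ∀ C ∈ P, ∀ D ∈ P, ∃ g : G, cj g C = D
  comm : ∀ C ∈ P, ∀ x ∈ C, ∀ y ∈ C, x * y = y * x
  two : ∀ C ∈ P, ∀ x ∈ C, ∃ n : ℕ, x ^ (2 ^ n) = 1
  ti : ∀ C ∈ P, ∀ D ∈ P, ∀ x : G, x ∈ C → x ∈ D → x ≠ 1 → C = D
  noncyc : ∀ C ∈ P, ∀ z : G, ∃ e ∈ C, e ≠ 1 ∧ e * e = 1 ∧ e ≠ z
  nonelem : ∀ C ∈ P, ∃ c ∈ C, c * c ≠ 1
  weak : ∀ C ∈ P, ∀ D ∈ P, (∀ c ∈ C, ∀ d ∈ D, c * d = d * c) → C = D

namespace TIFam

variable {P : Set (Subgroup G)} (h : TIFam P)
include h

theorem norm_of_comm {B : Subgroup G} (hB : B ∈ P) {x b : G} (hb : b ∈ B) (hb1 : b ≠ 1)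
    (hxb : x * b = b * x) : cj x B = B := by
  refine h.ti _ (h.conj B hB x) B hB b ?_ hb hb1
  rw [mem_cj]
  have : x⁻¹ * b * x = b := by
    rw [mul_assoc, ← hxb, inv_mul_cancel_left]
  rwa [this]

theorem norm_of_conj {B : Subgroup G} (hB : B ∈ P) {x b : G} (hb : b ∈ B) (hb1 : b ≠ 1)
    (hxb : x * b * x⁻¹ ∈ B) : cj x B = B := by
  refine h.ti _ (h.conj B hB x) B hB (x * b * x⁻¹) (conj_mem_cj hb) hxb ?_
  intro h0
  apply hb1
  have : b = x⁻¹ * (x * b * x⁻¹) * x := by simp [mul_assoc]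
  rw [this, h0]
  simp

/-- Mutually normalizing elements of different members commute. -/
theorem comm_of_norm {A B : Subgroup G} (hA : A ∈ P) (hB : B ∈ P) (hne : A ≠ B) {x y : G}
    (hx : x ∈ A) (hxB : cj x B = B) (hy : y ∈ B) (hyA : cj y A = A) : x * y = y * x := by
  have h1 : x * y * x⁻¹ * y⁻¹ ∈ B := B.mul_mem (conj_mem_of_cj hxB hy) (B.inv_mem hy)
  have h2 : x * y * x⁻¹ * y⁻¹ ∈ A := by
    have : x * y * x⁻¹ * y⁻¹ = x * (y * x⁻¹ * y⁻¹) := by simp [mul_assoc]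
    rw [this]
    exact A.mul_mem hx (conj_mem_of_cj hyA (A.inv_mem hx))
  have h3 : x * y * x⁻¹ * y⁻¹ = 1 := by
    by_contra h0
    exact hne (h.ti A hA B hB _ h2 h1 h0)
  rw [mul_inv_eq_one] at h3
  rw [mul_inv_eq_iff_eq_mul] at h3
  exact h3

end TIFam

/-- The commutative group structure on a subgroup whose elements commute. -/
abbrev commGrp {B : Subgroup G} (hc : ∀ x ∈ B, ∀ y ∈ B, x * y = y * x) : CommGroup ↥B :=
  { (inferInstance : Group ↥B) with
    mul_comm := fun a b => Subtype.ext (hc _ a.2 _ b.2) }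

/-- conjugation by `x` on `B`. -/
def conjHom {B : Subgroup G} (x : G) (hx : cj x B = B) : ↥B →* ↥B where
  toFun b := ⟨x * b * x⁻¹, conj_mem_of_cj hx b.2⟩
  map_one' := by ext; simp
  map_mul' a b := by ext; simp only [mul_assoc, _root_.Subgroup.coe_mul, _root_.MulMemClass.mk_mul_mk, _root_.inv_mul_cancel_left]

/-- `N_B(A)`. -/
def nr (B A : Subgroup G) : Subgroup G where
  carrier := {y | y ∈ B ∧ cj y A = A}
  one_mem' := ⟨B.one_mem, cj_one A⟩
  mul_mem' := fun ha hb => ⟨B.mul_mem ha.1 hb.1, cj_mul_eq ha.2 hb.2⟩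
  inv_mem' := fun ha => ⟨B.inv_mem ha.1, cj_inv_eq ha.2⟩

namespace TIFam

variable {P : Set (Subgroup G)} (h : TIFam P)
include h

theorem comm_nr {A B : Subgroup G} (hA : A ∈ P) (hB : B ∈ P) (hne : A ≠ B) {x y : G}
    (hx : x ∈ nr A B) (hy : y ∈ nr B A) : x * y = y * x :=
  h.comm_of_norm hA hB hne hx.1 hx.2 hy.1 hy.2

theorem mem_nr_of_comm {A B : Subgroup G} (hA : A ∈ P) {x b : G}
    (hx : x ∈ A) (hx1 : x ≠ 1) (hb : b ∈ B) (hxb : x * b = b * x) : b ∈ nr B A :=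
  ⟨hb, h.norm_of_comm hA hx hx1 hxb.symm⟩

theorem stageA0 {A B : Subgroup G} (hA : A ∈ P) (hB : B ∈ P) (hne : A ≠ B) {x : G}
    (hx : x ∈ nr A B) (hxx : x * x ≠ 1) : ∀ b ∈ B, cj b A = A := by
  obtain ⟨n, hn⟩ := h.two A hA x hx.1
  obtain ⟨k, hk1, hk2⟩ := two_descend x n hn (fun y => y * y = 1) (by simp) hxx
  set y := x ^ (2 ^ k) with hy
  have hyA : y ∈ nr A B := (nr A B).pow_mem hx _
  intro b hb
  let _ := commGrp (h.comm B hB)
  set σ : Additive ↥B →+ Additive ↥B := MonoidHom.toAdditive (conjHom y hyA.2) with hσ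
  have hσv : ∀ m : ↥B, ((σ (Additive.ofMul m)).toMul : G) = y * m * y⁻¹ := fun m => rfl
  have fix : ∀ m, σ (σ m) = m → σ m = m := by
    intro m hm
    have h1 : y * (y * (m.toMul : G) * y⁻¹) * y⁻¹ = (m.toMul : G) := congrArg (fun t => ((Additive.toMul t : ↥B) : G)) hm
    have h2 : (y * y) * (m.toMul : G) = (m.toMul : G) * (y * y) := by
      have := congrArg (· * (y * y)) h1
      simpa only [mul_assoc, _root_.inv_mul_cancel_left, _root_.inv_mul_cancel, _root_.mul_one] using this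
    have h3 : (m.toMul : G) ∈ nr B A :=
      h.mem_nr_of_comm hA (A.mul_mem hyA.1 hyA.1) hk1 m.toMul.2 h2
    have h4 := h.comm_nr hA hB hne hyA h3
    apply Additive.toMul.injective
    apply Subtype.ext
    show y * (m.toMul : G) * y⁻¹ = m.toMul
    rw [h4, mul_inv_cancel_right]
  have h4 : ∀ m, σ (σ (σ (σ m))) = m := by
    intro m
    apply Additive.toMul.injective
    apply Subtype.ext
    show y * (y * (y * (y * (m.toMul : G) * y⁻¹) * y⁻¹) * y⁻¹) * y⁻¹ = m.toMul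
    have e1 : y * (y * (y * (y * (m.toMul : G) * y⁻¹) * y⁻¹) * y⁻¹) * y⁻¹
        = (y * y * (y * y)) * (m.toMul : G) * (y * y * (y * y))⁻¹ := by simp only [mul_assoc, _root_.mul_inv_rev]
    rw [e1, hk2]
    simp
  have key : ∀ m : ↥B, y * (m : G) * y⁻¹ = m := by
    intro m
    by_contra hm
    obtain ⟨n', hn'⟩ := h.two B hB m m.2
    obtain ⟨j, hj1, hj2⟩ := two_descend (m : G) n' hn' (fun t => y * t * y⁻¹ = t) (by simp) hm
    apply hj1
    have e := addA2 σ fix h4 (Additive.ofMul (m ^ (2 ^ j))) (by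
      apply Additive.toMul.injective
      apply Subtype.ext
      exact hj2)
    exact congrArg (fun t => ((Additive.toMul t : ↥B) : G)) e
  have h5 := key ⟨b, hb⟩
  have h6 : y * b = b * y := by
    have := congrArg (· * y) h5
    simpa only [mul_assoc, _root_.inv_mul_cancel, _root_.mul_one] using this
  have hy1 : y ≠ 1 := by
    intro h0
    apply hk1
    rw [h0, one_mul]
  exact h.norm_of_comm hA hyA.1 hy1 h6.symm

theorem not_all_norm {A B : Subgroup G} (hA : A ∈ P) (hB : B ∈ P) (hne : A ≠ B) :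
    ∃ b ∈ B, b ∉ nr B A := by
  by_contra hcon
  push Not at hcon
  obtain ⟨c, hc, hcc⟩ := h.nonelem B hB
  have h1 := h.stageA0 hB hA hne.symm (hcon c hc) hcc
  apply hne
  apply h.weak A hA B hB
  intro a ha b hb
  exact h.comm_nr hA hB hne ⟨ha, h1 a ha⟩ (hcon b hb)

theorem stageA {A B : Subgroup G} (hA : A ∈ P) (hB : B ∈ P) (hne : A ≠ B) {x : G}
    (hx : x ∈ nr A B) : x * x = 1 := by
  by_contra h0
  obtain ⟨b, hb, hb2⟩ := h.not_all_norm hA hB hne
  exact hb2 ⟨hb, h.stageA0 hA hB hne hx h0 b hb⟩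

theorem stageA_inv {A B : Subgroup G} (hA : A ∈ P) (hB : B ∈ P) (hne : A ≠ B) {x : G}
    (hx : x ∈ nr A B) : x⁻¹ = x :=
  inv_eq_of_mul_eq_one_left (h.stageA hA hB hne hx)

theorem comm_elt {A B : Subgroup G} (hA : A ∈ P) (hB : B ∈ P) (hne : A ≠ B) {x b : G}
    (hx : x ∈ nr A B) (hb : b ∈ B) (hbb : b * b ∈ nr B A) : x * b * x⁻¹ * b⁻¹ ∈ nr B A := by
  by_cases hx1 : x = 1
  · subst hx1
    simp [(nr B A).one_mem]
  have hxi := h.stageA_inv hA hB hne hx
  have hxx := h.stageA hA hB hne hx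
  have he : x * b * x⁻¹ ∈ B := conj_mem_of_cj hx.2 hb
  have hc : x * b * x⁻¹ * b⁻¹ ∈ B := B.mul_mem he (B.inv_mem hb)
  have hcc : (x * b * x⁻¹ * b⁻¹) * (x * b * x⁻¹ * b⁻¹) = 1 := by
    have e1 : (x * b * x⁻¹ * b⁻¹) * (x * b * x⁻¹ * b⁻¹)
        = (x * b * x⁻¹) * (b⁻¹ * (x * b * x⁻¹)) * b⁻¹ := by simp only [mul_assoc]
    rw [e1, h.comm B hB _ (B.inv_mem hb) _ he]
    have e2 : (x * b * x⁻¹) * ((x * b * x⁻¹) * b⁻¹) * b⁻¹ = (x * (b * b) * x⁻¹) * (b * b)⁻¹ := by
      simp only [mul_assoc, _root_.inv_mul_cancel_left, _root_.mul_inv_rev]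
    rw [e2, h.comm_nr hA hB hne hx hbb]
    simp
  refine h.mem_nr_of_comm hA hx.1 hx1 hc ?_
  have e3 : x * (x * b * x⁻¹ * b⁻¹) * x⁻¹ = (x * b * x⁻¹ * b⁻¹)⁻¹ := by
    have : x * (x * b * x⁻¹ * b⁻¹) * x⁻¹ = (x * x) * b * x⁻¹ * b⁻¹ * x⁻¹ := by simp only [mul_assoc]
    rw [this, hxx]
    simp only [mul_assoc, hxi, _root_.one_mul, _root_.mul_inv_rev, _root_.inv_inv]
  rw [inv_eq_of_mul_eq_one_left hcc] at e3
  have := congrArg (· * x) e3
  simpa only [mul_assoc, _root_.mul_right_inj, _root_.inv_mul_cancel, _root_.mul_one] using this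

theorem exists_sq_nr {A B : Subgroup G} (hA : A ∈ P) (hB : B ∈ P) (hne : A ≠ B) :
    ∃ b ∈ B, b ∉ nr B A ∧ b * b ∈ nr B A := by
  obtain ⟨b, hb, hb2⟩ := h.not_all_norm hA hB hne
  obtain ⟨n, hn⟩ := h.two B hB b hb
  obtain ⟨k, hk1, hk2⟩ := two_descend b n hn (fun t => t ∈ nr B A) (nr B A).one_mem hb2
  exact ⟨_, B.pow_mem hb _, hk1, hk2⟩

theorem map_inj {A B : Subgroup G} (hA : A ∈ P) {b x x' : G} (hb : b ∈ B)
    (hbn : b ∉ nr B A) (hx : x ∈ A) (hx' : x' ∈ A)
    (he : x * b * x⁻¹ * b⁻¹ = x' * b * x'⁻¹ * b⁻¹) : x = x' := by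
  by_contra hxx
  apply hbn
  have h1 : x'⁻¹ * x ≠ 1 := by
    intro h0
    apply hxx
    rw [inv_mul_eq_one] at h0
    exact h0.symm
  refine h.mem_nr_of_comm hA (A.mul_mem (A.inv_mem hx') hx) h1 hb ?_
  have h2 := mul_right_cancel he
  have h3 := congrArg (fun t => x'⁻¹ * t * x) h2
  simpa only [mul_assoc, _root_.inv_mul_cancel, _root_.mul_one, _root_.inv_mul_cancel_left] using h3

theorem card_nr_le [Finite G] {A B : Subgroup G} (hA : A ∈ P) (hB : B ∈ P) (hne : A ≠ B) :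
    Nat.card ↥(nr A B) ≤ Nat.card ↥(nr B A) := by
  obtain ⟨b, hb, hb1, hb2⟩ := h.exists_sq_nr hA hB hne
  refine Nat.card_le_card_of_injective (fun x : ↥(nr A B) =>
    (⟨x * b * (x : G)⁻¹ * b⁻¹, h.comm_elt hA hB hne x.2 hb hb2⟩ : ↥(nr B A))) ?_
  intro x x' he
  apply Subtype.ext
  exact h.map_inj hA hb hb1 x.2.1 x'.2.1 (congrArg Subtype.val he)

theorem card_nr_eq [Finite G] {A B : Subgroup G} (hA : A ∈ P) (hB : B ∈ P) (hne : A ≠ B) :
    Nat.card ↥(nr A B) = Nat.card ↥(nr B A) :=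
  le_antisymm (h.card_nr_le hA hB hne) (h.card_nr_le hB hA hne.symm)

/-- `|N_A(B)| ≥ 3` when it is not trivial. -/
theorem exists_two {A B : Subgroup G} (hA : A ∈ P) (hB : B ∈ P) (hne : A ≠ B) {x₀ y₀ : G}
    (hx₀ : x₀ ∈ nr A B) (hx1 : x₀ ≠ 1) (hy₀ : y₀ ∈ nr B A) (hy1 : y₀ ≠ 1) :
    ∃ x ∈ nr A B, x ≠ 1 ∧ x ≠ x₀ := by
  by_contra hcon
  push Not at hcon
  have hX : ∀ x ∈ nr A B, x = 1 ∨ x = x₀ := fun x hx => by
    by_cases h0 : x = 1
    · exact Or.inl h0
    · exact Or.inr (hcon x hx h0)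
  obtain ⟨a, ha, ha1, ha2⟩ := h.exists_sq_nr hB hA hne.symm
  have hY0 : ∀ y ∈ nr B A, y ≠ 1 → y * a * y⁻¹ * a⁻¹ = x₀ := by
    intro y hy hy'
    rcases hX _ (h.comm_elt hB hA hne.symm hy ha ha2) with h0 | h0
    · exfalso
      apply hy'
      exact h.map_inj hB ha ha1 hy.1 B.one_mem (by rw [h0]; simp)
    · exact h0
  have hY : ∀ y ∈ nr B A, y = 1 ∨ y = y₀ := by
    intro y hy
    by_cases h0 : y = 1
    · exact Or.inl h0
    · right
      exact h.map_inj hB ha ha1 hy.1 hy₀.1 (by rw [hY0 y hy h0, hY0 y₀ hy₀ hy1])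
  let _ := commGrp (h.comm B hB)
  set σ : Additive ↥B →+ Additive ↥B := MonoidHom.toAdditive (conjHom x₀ hx₀.2) with hσ
  have hxx := h.stageA hA hB hne hx₀
  have hfix : ∀ m : Additive ↥B, σ m = m → ((Additive.toMul m : ↥B) : G) ∈ nr B A := by
    intro m hm
    have h1 : x₀ * (m.toMul : G) * x₀⁻¹ = m.toMul :=
      congrArg (fun t => ((Additive.toMul t : ↥B) : G)) hm
    refine h.mem_nr_of_comm hA hx₀.1 hx1 m.toMul.2 ?_
    have := congrArg (· * x₀) h1
    simpa only [mul_assoc, _root_.inv_mul_cancel, _root_.mul_one] using this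
  obtain ⟨c0, hc0, hcc0⟩ := h.nonelem B hB
  obtain ⟨n, hn⟩ := h.two B hB c0 hc0
  obtain ⟨k, hk1, hk2⟩ := two_descend c0 n hn (fun t => t * t = 1) (by simp) hcc0
  obtain ⟨e, he, he1, hee, hey⟩ := h.noncyc B hB y₀
  refine addB1 σ ?_ ?_ (Additive.ofMul ⟨y₀, hy₀.1⟩) ?_
    (Additive.ofMul ⟨c0 ^ (2 ^ k), B.pow_mem hc0 _⟩) ?_ ?_ (Additive.ofMul ⟨e, he⟩) ?_ ?_
  · intro m
    apply Additive.toMul.injective
    apply Subtype.ext
    show x₀ * (x₀ * (m.toMul : G) * x₀⁻¹) * x₀⁻¹ = m.toMul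
    have : x₀ * (x₀ * (m.toMul : G) * x₀⁻¹) * x₀⁻¹ = (x₀ * x₀) * (m.toMul : G) * (x₀ * x₀)⁻¹ := by
      simp only [mul_assoc, _root_.mul_inv_rev]
    rw [this, hxx]
    simp
  · intro m hm
    apply Additive.toMul.injective
    apply Subtype.ext
    exact h.stageA hB hA hne.symm (hfix m hm)
  · intro m hm
    rcases hY _ (hfix m hm) with h0 | h0
    · left
      apply Additive.toMul.injective
      exact Subtype.ext h0
    · right
      apply Additive.toMul.injective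
      exact Subtype.ext h0
  · intro h0
    exact hk1 (congrArg (fun t => ((Additive.toMul t : ↥B) : G)) h0)
  · apply Additive.toMul.injective
    apply Subtype.ext
    exact hk2
  · apply Additive.toMul.injective
    apply Subtype.ext
    exact hee
  · intro h0
    rcases hY _ (hfix _ h0) with h2 | h2
    · exact he1 h2
    · exact hey h2

theorem mul_conj_mem {A B : Subgroup G} (hA : A ∈ P) (hB : B ∈ P) (hne : A ≠ B) {x b : G}
    (hx : x ∈ nr A B) (hx1 : x ≠ 1) (hb : b ∈ B) : b * (x * b * x⁻¹) ∈ nr B A := by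
  have hxx := h.stageA hA hB hne hx
  have he : x * b * x⁻¹ ∈ B := conj_mem_of_cj hx.2 hb
  refine h.mem_nr_of_comm hA hx.1 hx1 (B.mul_mem hb he) ?_
  have e1 : x * (b * (x * b * x⁻¹)) = (x * b * x⁻¹) * ((x * x) * b * (x * x)⁻¹) * x := by
    simp only [mul_assoc, _root_.mul_inv_rev, _root_.inv_mul_cancel_left, _root_.inv_mul_cancel, _root_.mul_one]
  rw [e1, hxx]
  simp only [one_mul, inv_one, mul_one]
  rw [h.comm B hB _ he _ hb]

/-- Two members are collinear if they are different and have commuting nontrivial elements. -/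
def _root_.Cfsg.Agent.TIAbelian.PairBase.Col (A B : Subgroup G) : Prop :=
  A ≠ B ∧ ∃ x ∈ A, ∃ y ∈ B, x ≠ 1 ∧ y ≠ 1 ∧ x * y = y * x

end TIFam

theorem Col.symm {A B : Subgroup G} (hc : Col A B) : Col B A := by
  obtain ⟨h1, x, hx, y, hy, hx1, hy1, hxy⟩ := hc
  exact ⟨h1.symm, y, hy, x, hx, hy1, hx1, hxy.symm⟩

namespace TIFam

variable {P : Set (Subgroup G)} (h : TIFam P)
include h

theorem col_nr {A B : Subgroup G} (hB : B ∈ P) (hc : Col A B) :
    ∃ x ∈ nr A B, x ≠ 1 := by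
  obtain ⟨h1, x, hx, y, hy, hx1, hy1, hxy⟩ := hc
  exact ⟨x, ⟨hx, h.norm_of_comm hB hy hy1 hxy⟩, hx1⟩

theorem sq_mem_nr {A B : Subgroup G} (hA : A ∈ P) (hB : B ∈ P) (hc : Col A B) {b : G}
    (hb : b ∈ B) : b * b ∈ nr B A := by
  obtain ⟨x₁, hx₁, hx₁1⟩ := h.col_nr hB hc
  obtain ⟨y₁, hy₁, hy₁1⟩ := h.col_nr hA hc.symm
  obtain ⟨x₂, hx₂, hx₂1, hx₂₁⟩ := h.exists_two hA hB hc.1 hx₁ hx₁1 hy₁ hy₁1
  have hx₃ : x₁ * x₂ ≠ 1 := by
    intro h0
    apply hx₂₁
    have := h.stageA hA hB hc.1 hx₁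
    exact mul_left_cancel (h0.trans this.symm)
  have p1 := h.mul_conj_mem hA hB hc.1 hx₁ hx₁1 hb
  have p2 := h.mul_conj_mem hA hB hc.1 hx₂ hx₂1 hb
  have p3 := h.mul_conj_mem hA hB hc.1 ((nr A B).mul_mem hx₁ hx₂) hx₃ hb
  have hb1 : x₁ * b * x₁⁻¹ ∈ B := conj_mem_of_cj hx₁.2 hb
  have hb3 : (x₁ * x₂) * b * (x₁ * x₂)⁻¹ ∈ B := conj_mem_of_cj (cj_mul_eq hx₁.2 hx₂.2) hb
  have e2 : x₁ * b * x₁⁻¹ * ((x₁ * x₂) * b * (x₁ * x₂)⁻¹) = b * (x₂ * b * x₂⁻¹) := by
    have e3 := h.comm_nr hA hB hc.1 hx₁ p2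
    have e4 := congrArg (· * x₁⁻¹) e3
    simp only [mul_inv_cancel_right] at e4
    rw [← e4]
    simp only [mul_assoc, _root_.mul_inv_rev, _root_.inv_mul_cancel_left]
  have e5 := (nr B A).mul_mem ((nr B A).mul_mem p1 p3) ((nr B A).inv_mem p2)
  have e6 : b * (x₁ * b * x₁⁻¹) * (b * (x₁ * x₂ * b * (x₁ * x₂)⁻¹)) * (b * (x₂ * b * x₂⁻¹))⁻¹
      = b * b := by
    rw [mul_inv_eq_iff_eq_mul, ← e2]
    have e7 : b * (x₁ * b * x₁⁻¹) * (b * (x₁ * x₂ * b * (x₁ * x₂)⁻¹))
      = b * ((x₁ * b * x₁⁻¹) * b) * (x₁ * x₂ * b * (x₁ * x₂)⁻¹) := by simp only [mul_assoc]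
    rw [e7, h.comm B hB _ hb1 _ hb]
    simp only [mul_assoc]
  rw [← e6]
  exact e5

theorem comm_mem {A B : Subgroup G} (hA : A ∈ P) (hB : B ∈ P) (hc : Col A B) {x b : G}
    (hx : x ∈ nr A B) (hb : b ∈ B) : x * b * x⁻¹ * b⁻¹ ∈ nr B A :=
  h.comm_elt hA hB hc.1 hx hb (h.sq_mem_nr hA hB hc hb)

theorem surj [Finite G] {A B : Subgroup G} (hA : A ∈ P) (hB : B ∈ P) (hc : Col A B) {b y : G}
    (hb : b ∈ B) (hbn : b ∉ nr B A) (hy : y ∈ nr B A) :
    ∃ x ∈ nr A B, x * b * x⁻¹ * b⁻¹ = y := by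
  have hinj : Function.Injective (fun x : ↥(nr A B) =>
      (⟨x * b * (x : G)⁻¹ * b⁻¹, h.comm_mem hA hB hc x.2 hb⟩ : ↥(nr B A))) := by
    intro x x' he
    apply Subtype.ext
    exact h.map_inj hA hb hbn x.2.1 x'.2.1 (congrArg Subtype.val he)
  have hbij := (Nat.bijective_iff_injective_and_card _).2 ⟨hinj, h.card_nr_eq hA hB hc.1⟩
  obtain ⟨x, hx⟩ := hbij.2 ⟨y, hy⟩
  exact ⟨x, x.2, congrArg Subtype.val hx⟩

end TIFam

end Cfsg.Agent.TIAbelian.PairBase
end

-- part: TIAbelian/PairOmega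
section
set_option autoImplicit false

namespace Cfsg.Agent.TIAbelian.PairOmega

open Cfsg.Agent.TIAbelian.PairBase

/-- Two involutions: either conjugate, or there is a central involution `z` of the dihedral
group and `s z`, `t z` are conjugate to `s` or `t`. -/
theorem dih {Γ : Type*} [Group Γ] [Finite Γ] (s t : Γ) (hs : s * s = 1) (ht : t * t = 1) :
    (∃ g : Γ, g * s * g⁻¹ = t) ∨
    ∃ z : Γ, z ≠ 1 ∧ z * s = s * z ∧ z * t = t * z ∧
      (∃ g : Γ, s * z = g * s * g⁻¹ ∨ s * z = g * t * g⁻¹) ∧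
      (∃ g : Γ, t * z = g * s * g⁻¹ ∨ t * z = g * t * g⁻¹) := by
  have hsi : s⁻¹ = s := inv_eq_of_mul_eq_one_left hs
  have hti : t⁻¹ = t := inv_eq_of_mul_eq_one_left ht
  set k := s * t with hk
  have hki : k⁻¹ = t * s := by rw [hk, mul_inv_rev, hsi, hti]
  have hsk : ∀ i : ℕ, s * (k ^ i)⁻¹ = k ^ i * s := by
    intro i
    have h1 : s * k⁻¹ * s = k := by
      rw [hki]
      have : s * (t * s) * s = s * t * (s * s) := by simp only [mul_assoc]
      rw [this, hs, mul_one]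
    have h2 : (s * k⁻¹ * s⁻¹) ^ i = s * (k⁻¹) ^ i * s⁻¹ := conj_pow
    rw [hsi, h1, inv_pow] at h2
    have := congrArg (· * s) h2
    simp only [mul_assoc, hs, mul_one] at this
    exact this.symm
  have hconj : ∀ j : ℕ, ∃ g : Γ, k ^ j * s = g * s * g⁻¹ ∨ k ^ j * s = g * t * g⁻¹ := by
    intro j
    rcases Nat.even_or_odd j with ⟨i, hi⟩ | ⟨i, hi⟩
    · refine ⟨k ^ i, Or.inl ?_⟩
      rw [mul_assoc, hsk, ← mul_assoc, ← pow_add, hi]
    · refine ⟨k ^ i * s, Or.inr ?_⟩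
      have h1 : k ^ i * s * t * (k ^ i * s)⁻¹ = k ^ i * k * (s * (k ^ i)⁻¹) := by
        rw [mul_inv_rev, hsi, hk]
        simp only [mul_assoc]
      rw [h1, hsk, ← pow_succ, ← mul_assoc, ← pow_add, hi]
      congr 2
      omega
  have hpos := orderOf_pos k
  rcases Nat.even_or_odd (orderOf k) with ⟨m, hm⟩ | ⟨m, hm⟩
  · right
    have hm0 : 0 < m := by omega
    have hzz : k ^ m * k ^ m = 1 := by rw [← pow_add, ← hm, pow_orderOf_eq_one]
    have hzi : (k ^ m)⁻¹ = k ^ m := inv_eq_of_mul_eq_one_left hzz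
    have hzs : k ^ m * s = s * k ^ m := by
      have := hsk m
      rw [hzi] at this
      exact this.symm
    have hkz : k ^ m * k = k * k ^ m := by rw [← pow_succ, ← pow_succ']
    have hzt : k ^ m * t = t * k ^ m := by
      have h1 : t = s * k := by rw [hk, ← mul_assoc, hs, one_mul]
      rw [h1, ← mul_assoc, hzs, mul_assoc, mul_assoc, hkz]
    refine ⟨k ^ m, ?_, hzs, hzt, ?_, ?_⟩
    · intro h0
      have := Nat.le_of_dvd hm0 (orderOf_dvd_of_pow_eq_one h0)
      omega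
    · rw [← hzs]
      exact hconj m
    · obtain ⟨m', rfl⟩ : ∃ m', m = m' + 1 := ⟨m - 1, by omega⟩
      rw [← hzt]
      have h1 : k ^ (m' + 1) * t = k ^ m' * s := by
        rw [pow_succ, mul_assoc, hk, mul_assoc, ht, mul_one]
      rw [h1]
      exact hconj m'
  · left
    refine ⟨k ^ m, ?_⟩
    rw [mul_assoc, hsk, ← mul_assoc, ← pow_add]
    have h1 : k ^ (m + m) = k⁻¹ := by
      rw [eq_inv_iff_mul_eq_one, ← pow_succ]
      have : m + m + 1 = orderOf k := by omega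
      rw [this, pow_orderOf_eq_one]
    rw [h1, hki, mul_assoc, hs, mul_one]

variable {G : Type*} [Group G]

/-- `x` and `y` induce the same map on `U`. -/
def EqOnU (U : Subgroup G) (x y : G) : Prop := ∀ u ∈ U, x * u * x⁻¹ = y * u * y⁻¹

/-- the stabiliser of `U`. -/
def stb (U : Subgroup G) : Subgroup G where
  carrier := {g | cj g U = U}
  one_mem' := cj_one U
  mul_mem' := fun ha hb => cj_mul_eq ha hb
  inv_mem' := fun ha => cj_inv_eq ha

/-- the action of the stabiliser of `U` on `U`. -/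
def actU (U : Subgroup G) : ↥(stb U) →* Equiv.Perm ↥U where
  toFun g :=
    { toFun := fun u => ⟨g * u * (g : G)⁻¹, conj_mem_of_cj g.2 u.2⟩
      invFun := fun u => ⟨(g : G)⁻¹ * u * g, conj_mem_of_cj' g.2 u.2⟩
      left_inv := fun u => Subtype.ext (by simp [mul_assoc])
      right_inv := fun u => Subtype.ext (by simp [mul_assoc]) }
  map_one' := by ext; simp only [_root_.OneMemClass.coe_one, _root_.one_mul, _root_.inv_one, _root_.mul_one, _root_.Subtype.coe_eta, _root_.Equiv.coe_fn_mk, _root_.Equiv.Perm.coe_one, _root_.id_eq]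
  map_mul' a b := by ext; simp only [mul_assoc, _root_.Subgroup.coe_mul, _root_.mul_inv_rev, _root_.Equiv.coe_fn_mk, _root_.Equiv.Perm.coe_mul, _root_.Function.comp_apply]

theorem actU_eq {U : Subgroup G} (x y : ↥(stb U)) : actU U x = actU U y ↔ EqOnU U x y := by
  constructor
  · intro h u hu
    exact congrArg (fun f : Equiv.Perm ↥U => ((f ⟨u, hu⟩ : ↥U) : G)) h
  · intro h
    ext u
    exact h u u.2

theorem dihU [Finite G] (U : Subgroup G) (a b : G) (ha : cj a U = U) (hb : cj b U = U)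
    (haa : ∀ u ∈ U, (a * a) * u = u * (a * a)) (hbb : ∀ u ∈ U, (b * b) * u = u * (b * b)) :
    (∃ g : G, cj g U = U ∧ EqOnU U (g * b * g⁻¹) a) ∨
    ∃ z : G, cj z U = U ∧ ¬ EqOnU U z 1 ∧ EqOnU U (z * b) (b * z) ∧ EqOnU U (z * a) (a * z) ∧
      (∃ g : G, cj g U = U ∧ (EqOnU U (b * z) (g * b * g⁻¹) ∨ EqOnU U (b * z) (g * a * g⁻¹))) ∧
      (∃ g : G, cj g U = U ∧ (EqOnU U (a * z) (g * b * g⁻¹) ∨ EqOnU U (a * z) (g * a * g⁻¹))) := by
  set ρ := (actU U).rangeRestrict with hρ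
  have hρe : ∀ x y : ↥(stb U), ρ x = ρ y ↔ EqOnU U x y := by
    intro x y
    rw [← actU_eq]
    constructor
    · intro h
      exact congrArg Subtype.val h
    · intro h
      exact Subtype.ext h
  have hsurj : Function.Surjective ρ := MonoidHom.rangeRestrict_surjective _
  have h1 : ∀ x : ↥(stb U), (∀ u ∈ U, ((x : G) * x) * u = u * ((x : G) * x)) → ρ x * ρ x = 1 := by
    intro x hx
    rw [← map_mul, ← map_one ρ, hρe]
    intro u hu
    have := hx u hu
    simp only [Subgroup.coe_mul, Subgroup.coe_one, one_mul, inv_one, mul_one]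
    rw [this, mul_inv_cancel_right]
  rcases dih (ρ ⟨b, hb⟩) (ρ ⟨a, ha⟩) (h1 ⟨b, hb⟩ hbb) (h1 ⟨a, ha⟩ haa) with ⟨g, hg⟩ |
    ⟨z, hz1, hzb, hza, ⟨g, hg⟩, ⟨g', hg'⟩⟩
  · left
    obtain ⟨g, rfl⟩ := hsurj g
    refine ⟨g, g.2, ?_⟩
    rw [← map_mul, ← map_inv, ← map_mul, hρe] at hg
    exact hg
  · right
    obtain ⟨z, rfl⟩ := hsurj z
    obtain ⟨g, rfl⟩ := hsurj g
    obtain ⟨g', rfl⟩ := hsurj g'
    simp only [← map_mul, ← map_inv, hρe] at hzb hza hg hg'
    refine ⟨z, z.2, ?_, hzb, hza, ⟨g, g.2, hg⟩, ⟨g', g'.2, hg'⟩⟩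
    intro h0
    apply hz1
    rw [← map_one ρ, hρe]
    exact h0

/-- `s` acts on `U` as an involution with centraliser `U ∩ S`. -/
structure Tv (U S : Subgroup G) (s : G) : Prop where
  norm : cj s U = U
  sq : ∀ u ∈ U, (s * s) * u = u * (s * s)
  fix : ∀ u ∈ U, s * u = u * s ↔ u ∈ S

theorem eq_comm_iff {s u : G} : s * u = u * s ↔ s * u * s⁻¹ = u := by
  rw [mul_inv_eq_iff_eq_mul]

theorem Tv.congr {U S : Subgroup G} {s s' : G} (h : Tv U S s) (he : EqOnU U s s')
    (hn : cj s' U = U) : Tv U S s' := by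
  refine ⟨hn, ?_, ?_⟩
  · intro u hu
    rw [eq_comm_iff]
    have h1 : s' * s' * u * (s' * s')⁻¹ = s' * (s' * u * s'⁻¹) * s'⁻¹ := by simp only [mul_assoc, _root_.mul_inv_rev]
    rw [h1, ← he u hu, ← he _ (conj_mem_of_cj h.norm hu)]
    have h2 := h.sq u hu
    rw [eq_comm_iff] at h2
    have h3 : s * (s * u * s⁻¹) * s⁻¹ = s * s * u * (s * s)⁻¹ := by simp [mul_assoc]
    rw [h3, h2]
  · intro u hu
    rw [← h.fix u hu, eq_comm_iff, eq_comm_iff, he u hu]

theorem Tv.conj {U S : Subgroup G} {s g : G} (h : Tv U S s) (hg : cj g U = U) :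
    Tv U (cj g S) (g * s * g⁻¹) := by
  have key : ∀ u ∈ U, g⁻¹ * u * g ∈ U := fun u hu => conj_mem_of_cj' hg hu
  refine ⟨cj_mul_eq (cj_mul_eq hg h.norm) (cj_inv_eq hg), ?_, ?_⟩
  · intro u hu
    have h1 := h.sq _ (key u hu)
    have h2 := congrArg (fun t => g * t * g⁻¹) h1
    simpa only [mul_assoc, _root_.inv_mul_cancel_left, _root_.mul_inv_cancel, _root_.mul_one, _root_.mul_inv_cancel_left] using h2
  · intro u hu
    rw [mem_cj, ← h.fix _ (key u hu)]
    constructor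
    · intro h1
      have h2 := congrArg (fun t => g⁻¹ * t * g) h1
      simpa only [mul_assoc, _root_.inv_mul_cancel_left, _root_.inv_mul_cancel, _root_.mul_one] using h2
    · intro h1
      have h2 := congrArg (fun t => g * t * g⁻¹) h1
      simpa only [mul_assoc, _root_.mul_inv_cancel, _root_.mul_one, _root_.mul_inv_cancel_left] using h2

section

variable {P : Set (Subgroup G)} (h : TIFam P)
include h

theorem Tv.unique {U S S' : Subgroup G} {s : G} (hS : S ∈ P) (hS' : S' ∈ P) (h1 : Tv U S s)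
    (h2 : Tv U S' s) (hn : ∃ u ∈ U, u ∈ S ∧ u ≠ 1) : S = S' := by
  obtain ⟨u, hu, huS, hu1⟩ := hn
  exact h.ti S hS S' hS' u huS ((h2.fix u hu).1 ((h1.fix u hu).2 huS)) hu1

theorem Tv.fixpt {U S S' : Subgroup G} {s : G} (hU : ∀ u ∈ U, u * u = 1)
    (hS : S ∈ P) (hS' : S' ∈ P) (h1 : Tv U S s)
    (hs : cj s S' = S') (hn : ∃ u ∈ U, u ∈ S' ∧ u ≠ 1) : S = S' := by
  obtain ⟨u, hu, huS, hu1⟩ := hn
  have hw : s * u * s⁻¹ ∈ S' := conj_mem_of_cj hs huS
  have hwU : s * u * s⁻¹ ∈ U := conj_mem_of_cj h1.norm hu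
  by_cases h0 : s * u * s⁻¹ = u
  · exact h.ti S hS S' hS' u ((h1.fix u hu).1 (eq_comm_iff.2 h0)) huS hu1
  · have h2 : u * (s * u * s⁻¹) ≠ 1 := by
      intro h3
      apply h0
      exact mul_left_cancel (h3.trans (hU u hu).symm)
    refine h.ti S hS S' hS' (u * (s * u * s⁻¹)) ?_ (S'.mul_mem huS hw) h2
    rw [← h1.fix _ (U.mul_mem hu hwU), eq_comm_iff]
    have h3 : s * (u * (s * u * s⁻¹)) * s⁻¹ = (s * u * s⁻¹) * ((s * s) * u * (s * s)⁻¹) := by
      simp only [mul_assoc, _root_.mul_inv_rev, _root_.inv_mul_cancel_left]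
    rw [h3, eq_comm_iff.1 (h1.sq u hu), h.comm S' hS' _ hw _ huS]

/-- The centralizing part of Lemma T. -/
theorem lemT_aux {U S S' : Subgroup G} (hU : ∀ u ∈ U, u * u = 1) (hS : S ∈ P) (hS' : S' ∈ P)
    {s t z : G} (hs : Tv U S s) (ht : Tv U S' t) (hn : ∃ u ∈ U, u ∈ S ∧ u ≠ 1)
    (hz : cj z U = U) (hzs : EqOnU U (z * s) (s * z))
    (hg : ∃ g : G, cj g U = U ∧ (EqOnU U (s * z) (g * s * g⁻¹) ∨ EqOnU U (s * z) (g * t * g⁻¹))) :
    ∀ u ∈ U, u ∈ S → z * u = u * z := by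
  have hsz : cj (s * z) U = U := cj_mul_eq hs.norm hz
  -- `s z` is a transvection
  obtain ⟨S'', hS'', hT⟩ : ∃ S'' ∈ P, Tv U S'' (s * z) := by
    obtain ⟨g, hg, hg1 | hg1⟩ := hg
    · exact ⟨_, h.conj S hS g, (hs.conj hg).congr (fun u hu => (hg1 u hu).symm) hsz⟩
    · exact ⟨_, h.conj S' hS' g, (ht.conj hg).congr (fun u hu => (hg1 u hu).symm) hsz⟩
  have hfix : cj (s * z) S = S := by
    obtain ⟨u, hu, huS, hu1⟩ := hn
    refine h.norm_of_conj hS huS hu1 ?_
    have hw : s * z * u * (s * z)⁻¹ ∈ U := conj_mem_of_cj hsz hu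
    rw [← hs.fix _ hw, eq_comm_iff]
    have h1 : s * (s * z * u * (s * z)⁻¹) * s⁻¹ = s * (z * s * u * (z * s)⁻¹) * s⁻¹ := by
      rw [hzs u hu]
    rw [h1]
    have h2 : s * (z * s * u * (z * s)⁻¹) * s⁻¹ = (s * z) * (s * u * s⁻¹) * (s * z)⁻¹ := by
      simp only [mul_assoc, _root_.mul_inv_rev]
    rw [h2, eq_comm_iff.1 ((hs.fix u hu).2 huS)]
  have hSS : S'' = S := Tv.fixpt h hU hS'' hS hT hfix hn
  rw [hSS] at hT
  intro u hu huS
  have h1 := (hT.fix u hu).2 huS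
  have h2 := (hs.fix u hu).2 huS
  have h3 : s * (z * u) = s * (u * z) := by
    rw [← mul_assoc, h1, ← mul_assoc, ← mul_assoc, h2]
  exact mul_left_cancel h3

theorem lemT [Finite G] {U S S' : Subgroup G} (hU : ∀ u ∈ U, u * u = 1) (hS : S ∈ P) (hS' : S' ∈ P)
    {s t : G} (hs : Tv U S s) (ht : Tv U S' t) (hn : ∃ u ∈ U, u ∈ S ∧ u ≠ 1)
    (hn' : ∃ u ∈ U, u ∈ S' ∧ u ≠ 1)
    (hgen : ∀ u ∈ U, ∃ v ∈ U, ∃ w ∈ U, v ∈ S ∧ w ∈ S' ∧ u = v * w) :
    ∃ g : G, cj g U = U ∧ EqOnU U (g * s * g⁻¹) t := by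
  rcases dihU U t s ht.norm hs.norm ht.sq hs.sq with hg | ⟨z, hz, hz1, hzs, hzt, hg, hg'⟩
  · exact hg
  · exfalso
    apply hz1
    have c1 := lemT_aux h hU hS hS' hs ht hn hz hzs hg
    have c2 := lemT_aux h hU hS' hS ht hs hn' hz hzt
      (by
        obtain ⟨g, hg1, hg2⟩ := hg'
        exact ⟨g, hg1, hg2.symm⟩)
    intro u hu
    obtain ⟨v, hv, w, hw, hvS, hwS, rfl⟩ := hgen u hu
    have e1 := c1 v hv hvS
    have e2 := c2 w hw hwS
    have : z * (v * w) = (v * w) * z := by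
      rw [← mul_assoc, e1, mul_assoc, e2, ← mul_assoc]
    rw [this]
    simp

end


/-- The product of two elementwise commuting subgroups. -/
def prodS (X Y : Subgroup G) (hc : ∀ x ∈ X, ∀ y ∈ Y, x * y = y * x) : Subgroup G where
  carrier := {g | ∃ x ∈ X, ∃ y ∈ Y, g = x * y}
  one_mem' := ⟨1, X.one_mem, 1, Y.one_mem, by simp⟩
  mul_mem' := by
    rintro _ _ ⟨x, hx, y, hy, rfl⟩ ⟨x', hx', y', hy', rfl⟩
    refine ⟨x * x', X.mul_mem hx hx', y * y', Y.mul_mem hy hy', ?_⟩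
    have : x * y * (x' * y') = x * (y * x') * y' := by simp only [mul_assoc]
    rw [this, ← hc x' hx' y hy]
    simp only [mul_assoc]
  inv_mem' := by
    rintro _ ⟨x, hx, y, hy, rfl⟩
    refine ⟨x⁻¹, X.inv_mem hx, y⁻¹, Y.inv_mem hy, ?_⟩
    rw [mul_inv_rev, hc _ (X.inv_mem hx) _ (Y.inv_mem hy)]

theorem left_mem_prodS {X Y : Subgroup G} {hc : ∀ x ∈ X, ∀ y ∈ Y, x * y = y * x} {x : G}
    (hx : x ∈ X) : x ∈ prodS X Y hc := ⟨x, hx, 1, Y.one_mem, by simp⟩

theorem right_mem_prodS {X Y : Subgroup G} {hc : ∀ x ∈ X, ∀ y ∈ Y, x * y = y * x} {y : G}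
    (hy : y ∈ Y) : y ∈ prodS X Y hc := ⟨1, X.one_mem, y, hy, by simp⟩

theorem cj_eq_of_forall {B U : Subgroup G} (hB : ∀ b ∈ B, ∀ u ∈ U, b * u * b⁻¹ ∈ U) {b : G}
    (hb : b ∈ B) : cj b U = U := by
  ext x
  rw [mem_cj]
  constructor
  · intro hx
    have := hB b hb _ hx
    simpa [mul_assoc] using this
  · intro hx
    have := hB b⁻¹ (B.inv_mem hb) _ hx
    simpa using this

section

variable {P : Set (Subgroup G)} (h : TIFam P)
include h

theorem norm_prodS {A B : Subgroup G} (hA : A ∈ P) (hB : B ∈ P) (hc : Col A B)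
    {hXY : ∀ x ∈ nr A B, ∀ y ∈ nr B A, x * y = y * x} {b : G} (hb : b ∈ B) :
    cj b (prodS (nr A B) (nr B A) hXY) = prodS (nr A B) (nr B A) hXY := by
  refine cj_eq_of_forall (B := B) ?_ hb
  rintro b hb _ ⟨x, hx, y, hy, rfl⟩
  have h1 := (nr B A).inv_mem (h.comm_mem hA hB hc hx hb)
  refine ⟨x, hx, (x * b * x⁻¹ * b⁻¹)⁻¹ * y, (nr B A).mul_mem h1 hy, ?_⟩
  have h2 : b * (x * y) * b⁻¹ = (x * b * x⁻¹ * b⁻¹)⁻¹ * x * (b * y * b⁻¹) := by
    simp only [mul_assoc, _root_.mul_inv_rev, _root_.inv_inv, _root_.inv_mul_cancel, _root_.mul_one, _root_.inv_mul_cancel_left]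
  rw [h2, h.comm B hB b hb y hy.1, mul_inv_cancel_right]
  rw [← h.comm_nr hA hB hc.1 hx h1, mul_assoc]

theorem prodS_sq {A B : Subgroup G} (hA : A ∈ P) (hB : B ∈ P) (hc : Col A B)
    {hXY : ∀ x ∈ nr A B, ∀ y ∈ nr B A, x * y = y * x} :
    ∀ u ∈ prodS (nr A B) (nr B A) hXY, u * u = 1 := by
  rintro _ ⟨x, hx, y, hy, rfl⟩
  have : x * y * (x * y) = x * (y * x) * y := by simp only [mul_assoc]
  rw [this, ← hXY x hx y hy]
  have : x * (x * y) * y = (x * x) * (y * y) := by simp only [mul_assoc]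
  rw [this, h.stageA hA hB hc.1 hx, h.stageA hB hA hc.1.symm hy, one_mul]

theorem tv_prodS {A B : Subgroup G} (hA : A ∈ P) (hB : B ∈ P) (hc : Col A B)
    {hXY : ∀ x ∈ nr A B, ∀ y ∈ nr B A, x * y = y * x} {b : G} (hb : b ∈ B) (hbn : b ∉ nr B A) :
    Tv (prodS (nr A B) (nr B A) hXY) B b := by
  have hmemB : ∀ x ∈ nr A B, ∀ y ∈ nr B A, x * y ∈ B → x = 1 := by
    intro x hx y hy hxy
    by_contra h0
    have : x ∈ B := by
      have := B.mul_mem hxy (B.inv_mem hy.1)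
      simpa using this
    exact hc.1 (h.ti A hA B hB x hx.1 this h0)
  refine ⟨norm_prodS h hA hB hc hb, ?_, ?_⟩
  · rintro _ ⟨x, hx, y, hy, rfl⟩
    have hbb := h.sq_mem_nr hA hB hc hb
    rw [← mul_assoc (b * b), ← hXY x hx _ hbb, mul_assoc x (b * b) y,
      h.comm B hB _ hbb.1 _ hy.1, mul_assoc]
  · rintro _ ⟨x, hx, y, hy, rfl⟩
    constructor
    · intro h1
      have h2 : x = 1 := by
        by_contra h0
        apply hbn
        refine h.mem_nr_of_comm hA hx.1 h0 hb ?_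
        have h3 : b * x * y = x * b * y := by
          rw [mul_assoc, h1, mul_assoc, ← h.comm B hB _ hb _ hy.1, mul_assoc]
        exact (mul_right_cancel h3).symm
      rw [h2, one_mul]
      exact hy.1
    · intro h1
      rw [hmemB x hx y hy h1, one_mul]
      exact h.comm B hB _ hb _ hy.1

/-- `N_B(A) = Ω₁(B)` for collinear `A`, `B`. -/
theorem mem_nr_iff [Finite G] {A B : Subgroup G} (hA : A ∈ P) (hB : B ∈ P) (hc : Col A B) {b : G}
    (hb : b ∈ B) : b ∈ nr B A ↔ b * b = 1 := by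
  constructor
  · exact fun h1 => h.stageA hB hA hc.1.symm h1
  intro hbb
  by_contra hbn
  have hXY : ∀ x ∈ nr A B, ∀ y ∈ nr B A, x * y = y * x :=
    fun x hx y hy => h.comm_nr hA hB hc.1 hx hy
  set U := prodS (nr A B) (nr B A) hXY with hUdef
  have hU : ∀ u ∈ U, u * u = 1 := prodS_sq h hA hB hc
  obtain ⟨a, ha, han⟩ := h.not_all_norm hB hA hc.1.symm
  have hTa : Tv U A a := by
    have h1 := tv_prodS h hB hA hc.symm (hXY := fun y hy x hx => (hXY x hx y hy).symm) ha han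
    have h2 : prodS (nr B A) (nr A B) (fun y hy x hx => (hXY x hx y hy).symm) = U := by
      ext g
      constructor
      · rintro ⟨y, hy, x, hx, rfl⟩
        exact ⟨x, hx, y, hy, (hXY x hx y hy).symm⟩
      · rintro ⟨x, hx, y, hy, rfl⟩
        exact ⟨y, hy, x, hx, hXY x hx y hy⟩
    rwa [h2] at h1
  obtain ⟨x₁, hx₁, hx₁1⟩ := h.col_nr hB hc
  obtain ⟨y₁, hy₁, hy₁1⟩ := h.col_nr hA hc.symm
  have hnB : ∃ u ∈ U, u ∈ B ∧ u ≠ 1 := ⟨y₁, right_mem_prodS hy₁, hy₁.1, hy₁1⟩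
  have hnA : ∃ u ∈ U, u ∈ A ∧ u ≠ 1 := ⟨x₁, left_mem_prodS hx₁, hx₁.1, hx₁1⟩
  have hgen : ∀ u ∈ U, ∃ v ∈ U, ∃ w ∈ U, v ∈ B ∧ w ∈ A ∧ u = v * w := by
    rintro _ ⟨x, hx, y, hy, rfl⟩
    exact ⟨y, right_mem_prodS hy, x, left_mem_prodS hx, hy.1, hx.1, hXY x hx y hy⟩
  -- every element of `B` outside `Y` has square one
  have key : ∀ b' ∈ B, b' ∉ nr B A → b' * b' = 1 := by
    intro b' hb' hbn'
    have hT := tv_prodS h hA hB hc (hXY := hXY) hb hbn
    have hT' := tv_prodS h hA hB hc (hXY := hXY) hb' hbn'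
    obtain ⟨g, hg, hg1⟩ := lemT h hU hB hA hT hTa hnB hnA hgen
    obtain ⟨g', hg', hg1'⟩ := lemT h hU hB hA hT' hTa hnB hnA hgen
    have hgi := cj_inv_eq hg'
    have hk : cj (g'⁻¹ * g) U = U := cj_mul_eq hgi hg
    have hE : EqOnU U ((g'⁻¹ * g) * b * (g'⁻¹ * g)⁻¹) b' := by
      intro u hu
      have h1 : g' * u * g'⁻¹ ∈ U := conj_mem_of_cj hg' hu
      have h2 := (hg1 _ h1).trans (hg1' _ h1).symm
      have h3 := congrArg (fun t => g'⁻¹ * t * g') h2
      simpa only [mul_assoc, _root_.mul_inv_rev, _root_.inv_inv, _root_.inv_mul_cancel_left, _root_.inv_mul_cancel, _root_.mul_one] using h3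
    have hTk : Tv U (cj (g'⁻¹ * g) B) b' := (hT.conj hk).congr hE hT'.norm
    have hkB : cj (g'⁻¹ * g) B = B := by
      refine (Tv.unique h hB (h.conj B hB _) hT' hTk hnB).symm
    -- `b' = y (k b k⁻¹)`
    set k := g'⁻¹ * g with hkdef
    have hkb : k * b * k⁻¹ ∈ B := conj_mem_of_cj hkB hb
    have hy : b' * (k * b * k⁻¹)⁻¹ ∈ nr B A := by
      refine h.mem_nr_of_comm hA hx₁.1 hx₁1 (B.mul_mem hb' (B.inv_mem hkb)) ?_
      have h1 : (k * b * k⁻¹)⁻¹ * x₁ * ((k * b * k⁻¹)⁻¹)⁻¹ ∈ U :=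
        conj_mem_of_cj (cj_inv_eq (hT.conj hk).norm) (left_mem_prodS hx₁)
      have h2 := hE _ h1
      have h3 : k * b * k⁻¹ * ((k * b * k⁻¹)⁻¹ * x₁ * ((k * b * k⁻¹)⁻¹)⁻¹) * (k * b * k⁻¹)⁻¹ = x₁ := by
        simp only [mul_assoc, _root_.mul_inv_rev, _root_.inv_inv, _root_.inv_mul_cancel_left, _root_.mul_inv_cancel_left, _root_.mul_inv_cancel, _root_.mul_one]
      rw [h3] at h2
      have h4 := congrArg (· * (b' * (k * b * k⁻¹)⁻¹)) h2
      rw [h4]
      simp only [mul_assoc, _root_.mul_inv_rev, _root_.inv_inv, _root_.inv_mul_cancel_left, _root_.mul_inv_cancel_left, _root_.mul_inv_cancel, _root_.mul_one]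
    have hyy := h.stageA hB hA hc.1.symm hy
    have e1 : b' = b' * (k * b * k⁻¹)⁻¹ * (k * b * k⁻¹) := by simp [mul_assoc]
    have e2 : b' * b' = (b' * (k * b * k⁻¹)⁻¹) * ((k * b * k⁻¹) * (b' * (k * b * k⁻¹)⁻¹))
        * (k * b * k⁻¹) := by simp only [mul_assoc, _root_.mul_inv_rev, _root_.inv_inv, _root_.inv_mul_cancel_left, _root_.mul_inv_cancel_left, _root_.mul_inv_cancel, _root_.mul_one]
    rw [e2, h.comm B hB _ hkb _ hy.1]
    have e3 : (b' * (k * b * k⁻¹)⁻¹) * ((b' * (k * b * k⁻¹)⁻¹) * (k * b * k⁻¹)) * (k * b * k⁻¹)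
        = (b' * (k * b * k⁻¹)⁻¹) * (b' * (k * b * k⁻¹)⁻¹) * (k * (b * b) * k⁻¹) := by
      simp only [mul_assoc, _root_.mul_inv_rev, _root_.inv_inv, _root_.inv_mul_cancel_left, _root_.mul_inv_cancel, _root_.mul_one]
    rw [e3, hyy, hbb]
    simp
  obtain ⟨c, hcB, hcc⟩ := h.nonelem B hB
  by_cases hcn : c ∈ nr B A
  · exact hcc (h.stageA hB hA hc.1.symm hcn)
  · exact hcc (key c hcB hcn)

end

end Cfsg.Agent.TIAbelian.PairOmega
end

-- part: TIAbelian/CaseBBase
section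
set_option autoImplicit false

namespace Cfsg.Agent.TIAbelian.CaseBBase

open Cfsg.Agent.TIAbelian.PairBase hiding TIFam
open Cfsg.Agent.TIAbelian.PairOmega

variable {G : Type*} [Group G]

/-- A conjugacy class of abelian TI 2-subgroups, not cyclic, not elementary. -/
structure Fam (P : Set (Subgroup G)) : Prop where
  conj : ∀ C ∈ P, ∀ g : G, cj g C ∈ P
  trans : ∀ C ∈ P, ∀ D ∈ P, ∃ g : G, cj g C = D
  comm : ∀ C ∈ P, ∀ x ∈ C, ∀ y ∈ C, x * y = y * x
  two : ∀ C ∈ P, ∀ x ∈ C, ∃ n : ℕ, x ^ (2 ^ n) = 1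
  ti : ∀ C ∈ P, ∀ D ∈ P, ∀ x : G, x ∈ C → x ∈ D → x ≠ 1 → C = D
  noncyc : ∀ C ∈ P, ∀ z : G, ∃ e ∈ C, e ≠ 1 ∧ e * e = 1 ∧ e ≠ z
  nonelem : ∀ C ∈ P, ∃ c ∈ C, c * c ≠ 1

namespace Fam

variable {P : Set (Subgroup G)} (h : Fam P)
include h

theorem norm_of_comm {B : Subgroup G} (hB : B ∈ P) {x b : G} (hb : b ∈ B) (hb1 : b ≠ 1)
    (hxb : x * b = b * x) : cj x B = B := by
  refine h.ti _ (h.conj B hB x) B hB b ?_ hb hb1
  rw [mem_cj]
  have : x⁻¹ * b * x = b := by
    rw [mul_assoc, ← hxb, inv_mul_cancel_left]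
  rwa [this]

theorem norm_of_conj {B : Subgroup G} (hB : B ∈ P) {x b : G} (hb : b ∈ B) (hb1 : b ≠ 1)
    (hxb : x * b * x⁻¹ ∈ B) : cj x B = B := by
  refine h.ti _ (h.conj B hB x) B hB (x * b * x⁻¹) (conj_mem_cj hb) hxb ?_
  intro h0
  apply hb1
  have : b = x⁻¹ * (x * b * x⁻¹) * x := by simp [mul_assoc]
  rw [this, h0]
  simp

/-- Mutually normalizing elements of different members commute. -/
theorem comm_of_norm {A B : Subgroup G} (hA : A ∈ P) (hB : B ∈ P) (hne : A ≠ B) {x y : G}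
    (hx : x ∈ A) (hxB : cj x B = B) (hy : y ∈ B) (hyA : cj y A = A) : x * y = y * x := by
  have h1 : x * y * x⁻¹ * y⁻¹ ∈ B := B.mul_mem (conj_mem_of_cj hxB hy) (B.inv_mem hy)
  have h2 : x * y * x⁻¹ * y⁻¹ ∈ A := by
    have : x * y * x⁻¹ * y⁻¹ = x * (y * x⁻¹ * y⁻¹) := by simp [mul_assoc]
    rw [this]
    exact A.mul_mem hx (conj_mem_of_cj hyA (A.inv_mem hx))
  have h3 : x * y * x⁻¹ * y⁻¹ = 1 := by
    by_contra h0
    exact hne (h.ti A hA B hB _ h2 h1 h0)
  rw [mul_inv_eq_one] at h3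
  rw [mul_inv_eq_iff_eq_mul] at h3
  exact h3

end Fam

namespace Fam

variable {P : Set (Subgroup G)} (h : Fam P)
include h

theorem comm_nr {A B : Subgroup G} (hA : A ∈ P) (hB : B ∈ P) (hne : A ≠ B) {x y : G}
    (hx : x ∈ nr A B) (hy : y ∈ nr B A) : x * y = y * x :=
  h.comm_of_norm hA hB hne hx.1 hx.2 hy.1 hy.2

theorem mem_nr_of_comm {A B : Subgroup G} (hA : A ∈ P) {x b : G}
    (hx : x ∈ A) (hx1 : x ≠ 1) (hb : b ∈ B) (hxb : x * b = b * x) : b ∈ nr B A :=
  ⟨hb, h.norm_of_comm hA hx hx1 hxb.symm⟩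

theorem stageA0 {A B : Subgroup G} (hA : A ∈ P) (hB : B ∈ P) (hne : A ≠ B) {x : G}
    (hx : x ∈ nr A B) (hxx : x * x ≠ 1) : ∀ b ∈ B, cj b A = A := by
  obtain ⟨n, hn⟩ := h.two A hA x hx.1
  obtain ⟨k, hk1, hk2⟩ := two_descend x n hn (fun y => y * y = 1) (by simp) hxx
  set y := x ^ (2 ^ k) with hy
  have hyA : y ∈ nr A B := (nr A B).pow_mem hx _
  intro b hb
  let _ := commGrp (h.comm B hB)
  set σ : Additive ↥B →+ Additive ↥B := MonoidHom.toAdditive (conjHom y hyA.2) with hσ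
  have hσv : ∀ m : ↥B, ((σ (Additive.ofMul m)).toMul : G) = y * m * y⁻¹ := fun m => rfl
  have fix : ∀ m, σ (σ m) = m → σ m = m := by
    intro m hm
    have h1 : y * (y * (m.toMul : G) * y⁻¹) * y⁻¹ = (m.toMul : G) := congrArg (fun t => ((Additive.toMul t : ↥B) : G)) hm
    have h2 : (y * y) * (m.toMul : G) = (m.toMul : G) * (y * y) := by
      have := congrArg (· * (y * y)) h1
      simpa only [mul_assoc, _root_.inv_mul_cancel_left, _root_.inv_mul_cancel, _root_.mul_one] using this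
    have h3 : (m.toMul : G) ∈ nr B A :=
      h.mem_nr_of_comm hA (A.mul_mem hyA.1 hyA.1) hk1 m.toMul.2 h2
    have h4 := h.comm_nr hA hB hne hyA h3
    apply Additive.toMul.injective
    apply Subtype.ext
    show y * (m.toMul : G) * y⁻¹ = m.toMul
    rw [h4, mul_inv_cancel_right]
  have h4 : ∀ m, σ (σ (σ (σ m))) = m := by
    intro m
    apply Additive.toMul.injective
    apply Subtype.ext
    show y * (y * (y * (y * (m.toMul : G) * y⁻¹) * y⁻¹) * y⁻¹) * y⁻¹ = m.toMul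
    have e1 : y * (y * (y * (y * (m.toMul : G) * y⁻¹) * y⁻¹) * y⁻¹) * y⁻¹
        = (y * y * (y * y)) * (m.toMul : G) * (y * y * (y * y))⁻¹ := by simp only [mul_assoc, _root_.mul_inv_rev]
    rw [e1, hk2]
    simp
  have key : ∀ m : ↥B, y * (m : G) * y⁻¹ = m := by
    intro m
    by_contra hm
    obtain ⟨n', hn'⟩ := h.two B hB m m.2
    obtain ⟨j, hj1, hj2⟩ := two_descend (m : G) n' hn' (fun t => y * t * y⁻¹ = t) (by simp) hm
    apply hj1
    have e := addA2 σ fix h4 (Additive.ofMul (m ^ (2 ^ j))) (by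
      apply Additive.toMul.injective
      apply Subtype.ext
      exact hj2)
    exact congrArg (fun t => ((Additive.toMul t : ↥B) : G)) e
  have h5 := key ⟨b, hb⟩
  have h6 : y * b = b * y := by
    have := congrArg (· * y) h5
    simpa only [mul_assoc, _root_.inv_mul_cancel, _root_.mul_one] using this
  have hy1 : y ≠ 1 := by
    intro h0
    apply hk1
    rw [h0, one_mul]
  exact h.norm_of_comm hA hyA.1 hy1 h6.symm

/-- `A` and `B` do not commute elementwise. -/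
def _root_.Cfsg.Agent.TIAbelian.CaseBBase.Nc (A B : Subgroup G) : Prop :=
  ∃ a ∈ A, ∃ b ∈ B, a * b ≠ b * a

omit h in
theorem _root_.Cfsg.Agent.TIAbelian.CaseBBase.Nc.symm {A B : Subgroup G} (hc : Nc A B) : Nc B A := by
  obtain ⟨a, ha, b, hb, hab⟩ := hc
  exact ⟨b, hb, a, ha, fun h0 => hab h0.symm⟩

theorem ne {A B : Subgroup G} (hA : A ∈ P) (hne : Nc A B) : A ≠ B := by
  rintro rfl
  obtain ⟨a, ha, b, hb, hab⟩ := hne
  exact hab (h.comm A hA a ha b hb)

theorem not_all_norm {A B : Subgroup G} (hA : A ∈ P) (hB : B ∈ P) (hne : Nc A B) :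
    ∃ b ∈ B, b ∉ nr B A := by
  by_contra hcon
  push Not at hcon
  obtain ⟨c, hc, hcc⟩ := h.nonelem B hB
  have hne0 := h.ne hA hne
  have h1 := h.stageA0 hB hA hne0.symm (hcon c hc) hcc
  obtain ⟨a₀, ha₀, b₀, hb₀, hab⟩ := hne
  exact hab (h.comm_nr hA hB hne0 ⟨ha₀, h1 a₀ ha₀⟩ (hcon b₀ hb₀))

theorem stageA {A B : Subgroup G} (hA : A ∈ P) (hB : B ∈ P) (hne : Nc A B) {x : G}
    (hx : x ∈ nr A B) : x * x = 1 := by
  by_contra h0
  obtain ⟨b, hb, hb2⟩ := h.not_all_norm hA hB hne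
  exact hb2 ⟨hb, h.stageA0 hA hB (h.ne hA hne) hx h0 b hb⟩

theorem stageA_inv {A B : Subgroup G} (hA : A ∈ P) (hB : B ∈ P) (hne : Nc A B) {x : G}
    (hx : x ∈ nr A B) : x⁻¹ = x :=
  inv_eq_of_mul_eq_one_left (h.stageA hA hB hne hx)

theorem comm_elt {A B : Subgroup G} (hA : A ∈ P) (hB : B ∈ P) (hne : Nc A B) {x b : G}
    (hx : x ∈ nr A B) (hb : b ∈ B) (hbb : b * b ∈ nr B A) : x * b * x⁻¹ * b⁻¹ ∈ nr B A := by
  by_cases hx1 : x = 1
  · subst hx1
    simp [(nr B A).one_mem]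
  have hxi := h.stageA_inv hA hB hne hx
  have hxx := h.stageA hA hB hne hx
  have he : x * b * x⁻¹ ∈ B := conj_mem_of_cj hx.2 hb
  have hc : x * b * x⁻¹ * b⁻¹ ∈ B := B.mul_mem he (B.inv_mem hb)
  have hcc : (x * b * x⁻¹ * b⁻¹) * (x * b * x⁻¹ * b⁻¹) = 1 := by
    have e1 : (x * b * x⁻¹ * b⁻¹) * (x * b * x⁻¹ * b⁻¹)
        = (x * b * x⁻¹) * (b⁻¹ * (x * b * x⁻¹)) * b⁻¹ := by simp only [mul_assoc]
    rw [e1, h.comm B hB _ (B.inv_mem hb) _ he]
    have e2 : (x * b * x⁻¹) * ((x * b * x⁻¹) * b⁻¹) * b⁻¹ = (x * (b * b) * x⁻¹) * (b * b)⁻¹ := by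
      simp only [mul_assoc, _root_.inv_mul_cancel_left, _root_.mul_inv_rev]
    rw [e2, h.comm_nr hA hB (h.ne hA hne) hx hbb]
    simp
  refine h.mem_nr_of_comm hA hx.1 hx1 hc ?_
  have e3 : x * (x * b * x⁻¹ * b⁻¹) * x⁻¹ = (x * b * x⁻¹ * b⁻¹)⁻¹ := by
    have : x * (x * b * x⁻¹ * b⁻¹) * x⁻¹ = (x * x) * b * x⁻¹ * b⁻¹ * x⁻¹ := by simp only [mul_assoc]
    rw [this, hxx]
    simp only [mul_assoc, hxi, _root_.one_mul, _root_.mul_inv_rev, _root_.inv_inv]
  rw [inv_eq_of_mul_eq_one_left hcc] at e3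
  have := congrArg (· * x) e3
  simpa only [mul_assoc, _root_.mul_right_inj, _root_.inv_mul_cancel, _root_.mul_one] using this

theorem exists_sq_nr {A B : Subgroup G} (hA : A ∈ P) (hB : B ∈ P) (hne : Nc A B) :
    ∃ b ∈ B, b ∉ nr B A ∧ b * b ∈ nr B A := by
  obtain ⟨b, hb, hb2⟩ := h.not_all_norm hA hB hne
  obtain ⟨n, hn⟩ := h.two B hB b hb
  obtain ⟨k, hk1, hk2⟩ := two_descend b n hn (fun t => t ∈ nr B A) (nr B A).one_mem hb2
  exact ⟨_, B.pow_mem hb _, hk1, hk2⟩

theorem map_inj {A B : Subgroup G} (hA : A ∈ P) {b x x' : G} (hb : b ∈ B)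
    (hbn : b ∉ nr B A) (hx : x ∈ A) (hx' : x' ∈ A)
    (he : x * b * x⁻¹ * b⁻¹ = x' * b * x'⁻¹ * b⁻¹) : x = x' := by
  by_contra hxx
  apply hbn
  have h1 : x'⁻¹ * x ≠ 1 := by
    intro h0
    apply hxx
    rw [inv_mul_eq_one] at h0
    exact h0.symm
  refine h.mem_nr_of_comm hA (A.mul_mem (A.inv_mem hx') hx) h1 hb ?_
  have h2 := mul_right_cancel he
  have h3 := congrArg (fun t => x'⁻¹ * t * x) h2
  simpa only [mul_assoc, _root_.inv_mul_cancel, _root_.mul_one, _root_.inv_mul_cancel_left] using h3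

theorem card_nr_le [Finite G] {A B : Subgroup G} (hA : A ∈ P) (hB : B ∈ P) (hne : Nc A B) :
    Nat.card ↥(nr A B) ≤ Nat.card ↥(nr B A) := by
  obtain ⟨b, hb, hb1, hb2⟩ := h.exists_sq_nr hA hB hne
  refine Nat.card_le_card_of_injective (fun x : ↥(nr A B) =>
    (⟨x * b * (x : G)⁻¹ * b⁻¹, h.comm_elt hA hB hne x.2 hb hb2⟩ : ↥(nr B A))) ?_
  intro x x' he
  apply Subtype.ext
  exact h.map_inj hA hb hb1 x.2.1 x'.2.1 (congrArg Subtype.val he)

theorem card_nr_eq [Finite G] {A B : Subgroup G} (hA : A ∈ P) (hB : B ∈ P) (hne : Nc A B) :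
    Nat.card ↥(nr A B) = Nat.card ↥(nr B A) :=
  le_antisymm (h.card_nr_le hA hB hne) (h.card_nr_le hB hA hne.symm)

/-- `|N_A(B)| ≥ 3` when it is not trivial. -/
theorem exists_two {A B : Subgroup G} (hA : A ∈ P) (hB : B ∈ P) (hne : Nc A B) {x₀ y₀ : G}
    (hx₀ : x₀ ∈ nr A B) (hx1 : x₀ ≠ 1) (hy₀ : y₀ ∈ nr B A) (hy1 : y₀ ≠ 1) :
    ∃ x ∈ nr A B, x ≠ 1 ∧ x ≠ x₀ := by
  by_contra hcon
  push Not at hcon
  have hX : ∀ x ∈ nr A B, x = 1 ∨ x = x₀ := fun x hx => by
    by_cases h0 : x = 1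
    · exact Or.inl h0
    · exact Or.inr (hcon x hx h0)
  obtain ⟨a, ha, ha1, ha2⟩ := h.exists_sq_nr hB hA hne.symm
  have hY0 : ∀ y ∈ nr B A, y ≠ 1 → y * a * y⁻¹ * a⁻¹ = x₀ := by
    intro y hy hy'
    rcases hX _ (h.comm_elt hB hA hne.symm hy ha ha2) with h0 | h0
    · exfalso
      apply hy'
      exact h.map_inj hB ha ha1 hy.1 B.one_mem (by rw [h0]; simp)
    · exact h0
  have hY : ∀ y ∈ nr B A, y = 1 ∨ y = y₀ := by
    intro y hy
    by_cases h0 : y = 1
    · exact Or.inl h0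
    · right
      exact h.map_inj hB ha ha1 hy.1 hy₀.1 (by rw [hY0 y hy h0, hY0 y₀ hy₀ hy1])
  let _ := commGrp (h.comm B hB)
  set σ : Additive ↥B →+ Additive ↥B := MonoidHom.toAdditive (conjHom x₀ hx₀.2) with hσ
  have hxx := h.stageA hA hB hne hx₀
  have hfix : ∀ m : Additive ↥B, σ m = m → ((Additive.toMul m : ↥B) : G) ∈ nr B A := by
    intro m hm
    have h1 : x₀ * (m.toMul : G) * x₀⁻¹ = m.toMul :=
      congrArg (fun t => ((Additive.toMul t : ↥B) : G)) hm
    refine h.mem_nr_of_comm hA hx₀.1 hx1 m.toMul.2 ?_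
    have := congrArg (· * x₀) h1
    simpa only [mul_assoc, _root_.inv_mul_cancel, _root_.mul_one] using this
  obtain ⟨c0, hc0, hcc0⟩ := h.nonelem B hB
  obtain ⟨n, hn⟩ := h.two B hB c0 hc0
  obtain ⟨k, hk1, hk2⟩ := two_descend c0 n hn (fun t => t * t = 1) (by simp) hcc0
  obtain ⟨e, he, he1, hee, hey⟩ := h.noncyc B hB y₀
  refine addB1 σ ?_ ?_ (Additive.ofMul ⟨y₀, hy₀.1⟩) ?_
    (Additive.ofMul ⟨c0 ^ (2 ^ k), B.pow_mem hc0 _⟩) ?_ ?_ (Additive.ofMul ⟨e, he⟩) ?_ ?_
  · intro m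
    apply Additive.toMul.injective
    apply Subtype.ext
    show x₀ * (x₀ * (m.toMul : G) * x₀⁻¹) * x₀⁻¹ = m.toMul
    have : x₀ * (x₀ * (m.toMul : G) * x₀⁻¹) * x₀⁻¹ = (x₀ * x₀) * (m.toMul : G) * (x₀ * x₀)⁻¹ := by
      simp only [mul_assoc, _root_.mul_inv_rev]
    rw [this, hxx]
    simp
  · intro m hm
    apply Additive.toMul.injective
    apply Subtype.ext
    exact h.stageA hB hA hne.symm (hfix m hm)
  · intro m hm
    rcases hY _ (hfix m hm) with h0 | h0
    · left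
      apply Additive.toMul.injective
      exact Subtype.ext h0
    · right
      apply Additive.toMul.injective
      exact Subtype.ext h0
  · intro h0
    exact hk1 (congrArg (fun t => ((Additive.toMul t : ↥B) : G)) h0)
  · apply Additive.toMul.injective
    apply Subtype.ext
    exact hk2
  · apply Additive.toMul.injective
    apply Subtype.ext
    exact hee
  · intro h0
    rcases hY _ (hfix _ h0) with h2 | h2
    · exact he1 h2
    · exact hey h2

theorem mul_conj_mem {A B : Subgroup G} (hA : A ∈ P) (hB : B ∈ P) (hne : Nc A B) {x b : G}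
    (hx : x ∈ nr A B) (hx1 : x ≠ 1) (hb : b ∈ B) : b * (x * b * x⁻¹) ∈ nr B A := by
  have hxx := h.stageA hA hB hne hx
  have he : x * b * x⁻¹ ∈ B := conj_mem_of_cj hx.2 hb
  refine h.mem_nr_of_comm hA hx.1 hx1 (B.mul_mem hb he) ?_
  have e1 : x * (b * (x * b * x⁻¹)) = (x * b * x⁻¹) * ((x * x) * b * (x * x)⁻¹) * x := by
    simp only [mul_assoc, _root_.mul_inv_rev, _root_.inv_mul_cancel_left, _root_.inv_mul_cancel, _root_.mul_one]
  rw [e1, hxx]
  simp only [one_mul, inv_one, mul_one]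
  rw [h.comm B hB _ he _ hb]

end Fam

/-- Two members are neighbours if they do not commute but have commuting nontrivial elements. -/
def Nb (A B : Subgroup G) : Prop :=
  Nc A B ∧ ∃ x ∈ A, ∃ y ∈ B, x ≠ 1 ∧ y ≠ 1 ∧ x * y = y * x

theorem Nb.symm {A B : Subgroup G} (hc : Nb A B) : Nb B A := by
  obtain ⟨h1, x, hx, y, hy, hx1, hy1, hxy⟩ := hc
  exact ⟨h1.symm, y, hy, x, hx, hy1, hx1, hxy.symm⟩

namespace Fam

variable {P : Set (Subgroup G)} (h : Fam P)
include h

theorem col_nr {A B : Subgroup G} (hB : B ∈ P) (hc : Nb A B) :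
    ∃ x ∈ nr A B, x ≠ 1 := by
  obtain ⟨h1, x, hx, y, hy, hx1, hy1, hxy⟩ := hc
  exact ⟨x, ⟨hx, h.norm_of_comm hB hy hy1 hxy⟩, hx1⟩

theorem sq_mem_nr {A B : Subgroup G} (hA : A ∈ P) (hB : B ∈ P) (hc : Nb A B) {b : G}
    (hb : b ∈ B) : b * b ∈ nr B A := by
  obtain ⟨x₁, hx₁, hx₁1⟩ := h.col_nr hB hc
  obtain ⟨y₁, hy₁, hy₁1⟩ := h.col_nr hA hc.symm
  obtain ⟨x₂, hx₂, hx₂1, hx₂₁⟩ := h.exists_two hA hB hc.1 hx₁ hx₁1 hy₁ hy₁1
  have hx₃ : x₁ * x₂ ≠ 1 := by
    intro h0
    apply hx₂₁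
    have := h.stageA hA hB hc.1 hx₁
    exact mul_left_cancel (h0.trans this.symm)
  have p1 := h.mul_conj_mem hA hB hc.1 hx₁ hx₁1 hb
  have p2 := h.mul_conj_mem hA hB hc.1 hx₂ hx₂1 hb
  have p3 := h.mul_conj_mem hA hB hc.1 ((nr A B).mul_mem hx₁ hx₂) hx₃ hb
  have hb1 : x₁ * b * x₁⁻¹ ∈ B := conj_mem_of_cj hx₁.2 hb
  have hb3 : (x₁ * x₂) * b * (x₁ * x₂)⁻¹ ∈ B := conj_mem_of_cj (cj_mul_eq hx₁.2 hx₂.2) hb
  have e2 : x₁ * b * x₁⁻¹ * ((x₁ * x₂) * b * (x₁ * x₂)⁻¹) = b * (x₂ * b * x₂⁻¹) := by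
    have e3 := h.comm_nr hA hB (h.ne hA hc.1) hx₁ p2
    have e4 := congrArg (· * x₁⁻¹) e3
    simp only [mul_inv_cancel_right] at e4
    rw [← e4]
    simp only [mul_assoc, _root_.mul_inv_rev, _root_.inv_mul_cancel_left]
  have e5 := (nr B A).mul_mem ((nr B A).mul_mem p1 p3) ((nr B A).inv_mem p2)
  have e6 : b * (x₁ * b * x₁⁻¹) * (b * (x₁ * x₂ * b * (x₁ * x₂)⁻¹)) * (b * (x₂ * b * x₂⁻¹))⁻¹
      = b * b := by
    rw [mul_inv_eq_iff_eq_mul, ← e2]
    have e7 : b * (x₁ * b * x₁⁻¹) * (b * (x₁ * x₂ * b * (x₁ * x₂)⁻¹))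
      = b * ((x₁ * b * x₁⁻¹) * b) * (x₁ * x₂ * b * (x₁ * x₂)⁻¹) := by simp only [mul_assoc]
    rw [e7, h.comm B hB _ hb1 _ hb]
    simp only [mul_assoc]
  rw [← e6]
  exact e5

theorem comm_mem {A B : Subgroup G} (hA : A ∈ P) (hB : B ∈ P) (hc : Nb A B) {x b : G}
    (hx : x ∈ nr A B) (hb : b ∈ B) : x * b * x⁻¹ * b⁻¹ ∈ nr B A :=
  h.comm_elt hA hB hc.1 hx hb (h.sq_mem_nr hA hB hc hb)

theorem surj [Finite G] {A B : Subgroup G} (hA : A ∈ P) (hB : B ∈ P) (hc : Nb A B) {b y : G}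
    (hb : b ∈ B) (hbn : b ∉ nr B A) (hy : y ∈ nr B A) :
    ∃ x ∈ nr A B, x * b * x⁻¹ * b⁻¹ = y := by
  have hinj : Function.Injective (fun x : ↥(nr A B) =>
      (⟨x * b * (x : G)⁻¹ * b⁻¹, h.comm_mem hA hB hc x.2 hb⟩ : ↥(nr B A))) := by
    intro x x' he
    apply Subtype.ext
    exact h.map_inj hA hb hbn x.2.1 x'.2.1 (congrArg Subtype.val he)
  have hbij := (Nat.bijective_iff_injective_and_card _).2 ⟨hinj, h.card_nr_eq hA hB hc.1⟩
  obtain ⟨x, hx⟩ := hbij.2 ⟨y, hy⟩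
  exact ⟨x, x.2, congrArg Subtype.val hx⟩

end Fam


section

variable {P : Set (Subgroup G)} (h : Fam P)
include h

theorem Tv.unique {U S S' : Subgroup G} {s : G} (hS : S ∈ P) (hS' : S' ∈ P) (h1 : Tv U S s)
    (h2 : Tv U S' s) (hn : ∃ u ∈ U, u ∈ S ∧ u ≠ 1) : S = S' := by
  obtain ⟨u, hu, huS, hu1⟩ := hn
  exact h.ti S hS S' hS' u huS ((h2.fix u hu).1 ((h1.fix u hu).2 huS)) hu1

theorem Tv.fixpt {U S S' : Subgroup G} {s : G} (hU : ∀ u ∈ U, u * u = 1)
    (hS : S ∈ P) (hS' : S' ∈ P) (h1 : Tv U S s)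
    (hs : cj s S' = S') (hn : ∃ u ∈ U, u ∈ S' ∧ u ≠ 1) : S = S' := by
  obtain ⟨u, hu, huS, hu1⟩ := hn
  have hw : s * u * s⁻¹ ∈ S' := conj_mem_of_cj hs huS
  have hwU : s * u * s⁻¹ ∈ U := conj_mem_of_cj h1.norm hu
  by_cases h0 : s * u * s⁻¹ = u
  · exact h.ti S hS S' hS' u ((h1.fix u hu).1 (eq_comm_iff.2 h0)) huS hu1
  · have h2 : u * (s * u * s⁻¹) ≠ 1 := by
      intro h3
      apply h0
      exact mul_left_cancel (h3.trans (hU u hu).symm)
    refine h.ti S hS S' hS' (u * (s * u * s⁻¹)) ?_ (S'.mul_mem huS hw) h2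
    rw [← h1.fix _ (U.mul_mem hu hwU), eq_comm_iff]
    have h3 : s * (u * (s * u * s⁻¹)) * s⁻¹ = (s * u * s⁻¹) * ((s * s) * u * (s * s)⁻¹) := by
      simp only [mul_assoc, _root_.mul_inv_rev, _root_.inv_mul_cancel_left]
    rw [h3, eq_comm_iff.1 (h1.sq u hu), h.comm S' hS' _ hw _ huS]

/-- The centralizing part of Lemma T. -/
theorem lemT_aux {U S S' : Subgroup G} (hU : ∀ u ∈ U, u * u = 1) (hS : S ∈ P) (hS' : S' ∈ P)
    {s t z : G} (hs : Tv U S s) (ht : Tv U S' t) (hn : ∃ u ∈ U, u ∈ S ∧ u ≠ 1)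
    (hz : cj z U = U) (hzs : EqOnU U (z * s) (s * z))
    (hg : ∃ g : G, cj g U = U ∧ (EqOnU U (s * z) (g * s * g⁻¹) ∨ EqOnU U (s * z) (g * t * g⁻¹))) :
    ∀ u ∈ U, u ∈ S → z * u = u * z := by
  have hsz : cj (s * z) U = U := cj_mul_eq hs.norm hz
  -- `s z` is a transvection
  obtain ⟨S'', hS'', hT⟩ : ∃ S'' ∈ P, Tv U S'' (s * z) := by
    obtain ⟨g, hg, hg1 | hg1⟩ := hg
    · exact ⟨_, h.conj S hS g, (hs.conj hg).congr (fun u hu => (hg1 u hu).symm) hsz⟩
    · exact ⟨_, h.conj S' hS' g, (ht.conj hg).congr (fun u hu => (hg1 u hu).symm) hsz⟩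
  have hfix : cj (s * z) S = S := by
    obtain ⟨u, hu, huS, hu1⟩ := hn
    refine h.norm_of_conj hS huS hu1 ?_
    have hw : s * z * u * (s * z)⁻¹ ∈ U := conj_mem_of_cj hsz hu
    rw [← hs.fix _ hw, eq_comm_iff]
    have h1 : s * (s * z * u * (s * z)⁻¹) * s⁻¹ = s * (z * s * u * (z * s)⁻¹) * s⁻¹ := by
      rw [hzs u hu]
    rw [h1]
    have h2 : s * (z * s * u * (z * s)⁻¹) * s⁻¹ = (s * z) * (s * u * s⁻¹) * (s * z)⁻¹ := by
      simp only [mul_assoc, _root_.mul_inv_rev]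
    rw [h2, eq_comm_iff.1 ((hs.fix u hu).2 huS)]
  have hSS : S'' = S := Tv.fixpt h hU hS'' hS hT hfix hn
  rw [hSS] at hT
  intro u hu huS
  have h1 := (hT.fix u hu).2 huS
  have h2 := (hs.fix u hu).2 huS
  have h3 : s * (z * u) = s * (u * z) := by
    rw [← mul_assoc, h1, ← mul_assoc, ← mul_assoc, h2]
  exact mul_left_cancel h3

theorem lemT [Finite G] {U S S' : Subgroup G} (hU : ∀ u ∈ U, u * u = 1) (hS : S ∈ P) (hS' : S' ∈ P)
    {s t : G} (hs : Tv U S s) (ht : Tv U S' t) (hn : ∃ u ∈ U, u ∈ S ∧ u ≠ 1)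
    (hn' : ∃ u ∈ U, u ∈ S' ∧ u ≠ 1)
    (hgen : ∀ u ∈ U, ∃ v ∈ U, ∃ w ∈ U, v ∈ S ∧ w ∈ S' ∧ u = v * w) :
    ∃ g : G, cj g U = U ∧ EqOnU U (g * s * g⁻¹) t := by
  rcases dihU U t s ht.norm hs.norm ht.sq hs.sq with hg | ⟨z, hz, hz1, hzs, hzt, hg, hg'⟩
  · exact hg
  · exfalso
    apply hz1
    have c1 := lemT_aux h hU hS hS' hs ht hn hz hzs hg
    have c2 := lemT_aux h hU hS' hS ht hs hn' hz hzt
      (by
        obtain ⟨g, hg1, hg2⟩ := hg'
        exact ⟨g, hg1, hg2.symm⟩)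
    intro u hu
    obtain ⟨v, hv, w, hw, hvS, hwS, rfl⟩ := hgen u hu
    have e1 := c1 v hv hvS
    have e2 := c2 w hw hwS
    have : z * (v * w) = (v * w) * z := by
      rw [← mul_assoc, e1, mul_assoc, e2, ← mul_assoc]
    rw [this]
    simp

end



section

variable {P : Set (Subgroup G)} (h : Fam P)
include h

theorem norm_prodS {A B : Subgroup G} (hA : A ∈ P) (hB : B ∈ P) (hc : Nb A B)
    {hXY : ∀ x ∈ nr A B, ∀ y ∈ nr B A, x * y = y * x} {b : G} (hb : b ∈ B) :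
    cj b (prodS (nr A B) (nr B A) hXY) = prodS (nr A B) (nr B A) hXY := by
  refine cj_eq_of_forall (B := B) ?_ hb
  rintro b hb _ ⟨x, hx, y, hy, rfl⟩
  have h1 := (nr B A).inv_mem (h.comm_mem hA hB hc hx hb)
  refine ⟨x, hx, (x * b * x⁻¹ * b⁻¹)⁻¹ * y, (nr B A).mul_mem h1 hy, ?_⟩
  have h2 : b * (x * y) * b⁻¹ = (x * b * x⁻¹ * b⁻¹)⁻¹ * x * (b * y * b⁻¹) := by
    simp only [mul_assoc, _root_.mul_inv_rev, _root_.inv_inv, _root_.inv_mul_cancel, _root_.mul_one, _root_.inv_mul_cancel_left]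
  rw [h2, h.comm B hB b hb y hy.1, mul_inv_cancel_right]
  rw [← h.comm_nr hA hB (h.ne hA hc.1) hx h1, mul_assoc]

theorem prodS_sq {A B : Subgroup G} (hA : A ∈ P) (hB : B ∈ P) (hc : Nb A B)
    {hXY : ∀ x ∈ nr A B, ∀ y ∈ nr B A, x * y = y * x} :
    ∀ u ∈ prodS (nr A B) (nr B A) hXY, u * u = 1 := by
  rintro _ ⟨x, hx, y, hy, rfl⟩
  have : x * y * (x * y) = x * (y * x) * y := by simp only [mul_assoc]
  rw [this, ← hXY x hx y hy]
  have : x * (x * y) * y = (x * x) * (y * y) := by simp only [mul_assoc]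
  rw [this, h.stageA hA hB hc.1 hx, h.stageA hB hA hc.1.symm hy, one_mul]

theorem tv_prodS {A B : Subgroup G} (hA : A ∈ P) (hB : B ∈ P) (hc : Nb A B)
    {hXY : ∀ x ∈ nr A B, ∀ y ∈ nr B A, x * y = y * x} {b : G} (hb : b ∈ B) (hbn : b ∉ nr B A) :
    Tv (prodS (nr A B) (nr B A) hXY) B b := by
  have hmemB : ∀ x ∈ nr A B, ∀ y ∈ nr B A, x * y ∈ B → x = 1 := by
    intro x hx y hy hxy
    by_contra h0
    have : x ∈ B := by
      have := B.mul_mem hxy (B.inv_mem hy.1)
      simpa using this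
    exact h.ne hA hc.1 (h.ti A hA B hB x hx.1 this h0)
  refine ⟨norm_prodS h hA hB hc hb, ?_, ?_⟩
  · rintro _ ⟨x, hx, y, hy, rfl⟩
    have hbb := h.sq_mem_nr hA hB hc hb
    rw [← mul_assoc (b * b), ← hXY x hx _ hbb, mul_assoc x (b * b) y,
      h.comm B hB _ hbb.1 _ hy.1, mul_assoc]
  · rintro _ ⟨x, hx, y, hy, rfl⟩
    constructor
    · intro h1
      have h2 : x = 1 := by
        by_contra h0
        apply hbn
        refine h.mem_nr_of_comm hA hx.1 h0 hb ?_
        have h3 : b * x * y = x * b * y := by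
          rw [mul_assoc, h1, mul_assoc, ← h.comm B hB _ hb _ hy.1, mul_assoc]
        exact (mul_right_cancel h3).symm
      rw [h2, one_mul]
      exact hy.1
    · intro h1
      rw [hmemB x hx y hy h1, one_mul]
      exact h.comm B hB _ hb _ hy.1

/-- `N_B(A) = Ω₁(B)` for collinear `A`, `B`. -/
theorem mem_nr_iff [Finite G] {A B : Subgroup G} (hA : A ∈ P) (hB : B ∈ P) (hc : Nb A B) {b : G}
    (hb : b ∈ B) : b ∈ nr B A ↔ b * b = 1 := by
  constructor
  · exact fun h1 => h.stageA hB hA hc.1.symm h1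
  intro hbb
  by_contra hbn
  have hXY : ∀ x ∈ nr A B, ∀ y ∈ nr B A, x * y = y * x :=
    fun x hx y hy => h.comm_nr hA hB (h.ne hA hc.1) hx hy
  set U := prodS (nr A B) (nr B A) hXY with hUdef
  have hU : ∀ u ∈ U, u * u = 1 := prodS_sq h hA hB hc
  obtain ⟨a, ha, han⟩ := h.not_all_norm hB hA hc.1.symm
  have hTa : Tv U A a := by
    have h1 := tv_prodS h hB hA hc.symm (hXY := fun y hy x hx => (hXY x hx y hy).symm) ha han
    have h2 : prodS (nr B A) (nr A B) (fun y hy x hx => (hXY x hx y hy).symm) = U := by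
      ext g
      constructor
      · rintro ⟨y, hy, x, hx, rfl⟩
        exact ⟨x, hx, y, hy, (hXY x hx y hy).symm⟩
      · rintro ⟨x, hx, y, hy, rfl⟩
        exact ⟨y, hy, x, hx, hXY x hx y hy⟩
    rwa [h2] at h1
  obtain ⟨x₁, hx₁, hx₁1⟩ := h.col_nr hB hc
  obtain ⟨y₁, hy₁, hy₁1⟩ := h.col_nr hA hc.symm
  have hnB : ∃ u ∈ U, u ∈ B ∧ u ≠ 1 := ⟨y₁, right_mem_prodS hy₁, hy₁.1, hy₁1⟩
  have hnA : ∃ u ∈ U, u ∈ A ∧ u ≠ 1 := ⟨x₁, left_mem_prodS hx₁, hx₁.1, hx₁1⟩
  have hgen : ∀ u ∈ U, ∃ v ∈ U, ∃ w ∈ U, v ∈ B ∧ w ∈ A ∧ u = v * w := by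
    rintro _ ⟨x, hx, y, hy, rfl⟩
    exact ⟨y, right_mem_prodS hy, x, left_mem_prodS hx, hy.1, hx.1, hXY x hx y hy⟩
  -- every element of `B` outside `Y` has square one
  have key : ∀ b' ∈ B, b' ∉ nr B A → b' * b' = 1 := by
    intro b' hb' hbn'
    have hT := tv_prodS h hA hB hc (hXY := hXY) hb hbn
    have hT' := tv_prodS h hA hB hc (hXY := hXY) hb' hbn'
    obtain ⟨g, hg, hg1⟩ := lemT h hU hB hA hT hTa hnB hnA hgen
    obtain ⟨g', hg', hg1'⟩ := lemT h hU hB hA hT' hTa hnB hnA hgen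
    have hgi := cj_inv_eq hg'
    have hk : cj (g'⁻¹ * g) U = U := cj_mul_eq hgi hg
    have hE : EqOnU U ((g'⁻¹ * g) * b * (g'⁻¹ * g)⁻¹) b' := by
      intro u hu
      have h1 : g' * u * g'⁻¹ ∈ U := conj_mem_of_cj hg' hu
      have h2 := (hg1 _ h1).trans (hg1' _ h1).symm
      have h3 := congrArg (fun t => g'⁻¹ * t * g') h2
      simpa only [mul_assoc, _root_.mul_inv_rev, _root_.inv_inv, _root_.inv_mul_cancel_left, _root_.inv_mul_cancel, _root_.mul_one] using h3
    have hTk : Tv U (cj (g'⁻¹ * g) B) b' := (hT.conj hk).congr hE hT'.norm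
    have hkB : cj (g'⁻¹ * g) B = B := by
      refine (Tv.unique h hB (h.conj B hB _) hT' hTk hnB).symm
    -- `b' = y (k b k⁻¹)`
    set k := g'⁻¹ * g with hkdef
    have hkb : k * b * k⁻¹ ∈ B := conj_mem_of_cj hkB hb
    have hy : b' * (k * b * k⁻¹)⁻¹ ∈ nr B A := by
      refine h.mem_nr_of_comm hA hx₁.1 hx₁1 (B.mul_mem hb' (B.inv_mem hkb)) ?_
      have h1 : (k * b * k⁻¹)⁻¹ * x₁ * ((k * b * k⁻¹)⁻¹)⁻¹ ∈ U :=
        conj_mem_of_cj (cj_inv_eq (hT.conj hk).norm) (left_mem_prodS hx₁)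
      have h2 := hE _ h1
      have h3 : k * b * k⁻¹ * ((k * b * k⁻¹)⁻¹ * x₁ * ((k * b * k⁻¹)⁻¹)⁻¹) * (k * b * k⁻¹)⁻¹ = x₁ := by
        simp only [mul_assoc, _root_.mul_inv_rev, _root_.inv_inv, _root_.inv_mul_cancel_left, _root_.mul_inv_cancel_left, _root_.mul_inv_cancel, _root_.mul_one]
      rw [h3] at h2
      have h4 := congrArg (· * (b' * (k * b * k⁻¹)⁻¹)) h2
      rw [h4]
      simp only [mul_assoc, _root_.mul_inv_rev, _root_.inv_inv, _root_.inv_mul_cancel_left, _root_.mul_inv_cancel_left, _root_.mul_inv_cancel, _root_.mul_one]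
    have hyy := h.stageA hB hA hc.1.symm hy
    have e1 : b' = b' * (k * b * k⁻¹)⁻¹ * (k * b * k⁻¹) := by simp [mul_assoc]
    have e2 : b' * b' = (b' * (k * b * k⁻¹)⁻¹) * ((k * b * k⁻¹) * (b' * (k * b * k⁻¹)⁻¹))
        * (k * b * k⁻¹) := by simp only [mul_assoc, _root_.mul_inv_rev, _root_.inv_inv, _root_.inv_mul_cancel_left, _root_.mul_inv_cancel_left, _root_.mul_inv_cancel, _root_.mul_one]
    rw [e2, h.comm B hB _ hkb _ hy.1]
    have e3 : (b' * (k * b * k⁻¹)⁻¹) * ((b' * (k * b * k⁻¹)⁻¹) * (k * b * k⁻¹)) * (k * b * k⁻¹)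
        = (b' * (k * b * k⁻¹)⁻¹) * (b' * (k * b * k⁻¹)⁻¹) * (k * (b * b) * k⁻¹) := by
      simp only [mul_assoc, _root_.mul_inv_rev, _root_.inv_inv, _root_.inv_mul_cancel_left, _root_.mul_inv_cancel, _root_.mul_one]
    rw [e3, hyy, hbb]
    simp
  obtain ⟨c, hcB, hcc⟩ := h.nonelem B hB
  by_cases hcn : c ∈ nr B A
  · exact hcc (h.stageA hB hA hc.1.symm hcn)
  · exact hcc (key c hcB hcn)

end


end Cfsg.Agent.TIAbelian.CaseBBase
end

-- part: TIAbelian/PairGeo
section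
set_option autoImplicit false

namespace Cfsg.Agent.TIAbelian.PairGeo

open Cfsg.Agent.TIAbelian.PairBase Cfsg.Agent.TIAbelian.PairOmega

variable {G : Type*} [Group G]

/-- `Ω₁(C)` as a set. -/
def Om (C : Subgroup G) : Set G := {x | x ∈ C ∧ x * x = 1}

theorem mem_Om {C : Subgroup G} {x : G} : x ∈ Om C ↔ x ∈ C ∧ x * x = 1 := Iff.rfl

theorem one_mem_Om (C : Subgroup G) : (1 : G) ∈ Om C := ⟨C.one_mem, by simp⟩

theorem inv_Om {C : Subgroup G} {x : G} (hx : x ∈ Om C) : x⁻¹ = x :=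
  inv_eq_of_mul_eq_one_left hx.2

theorem conj_mem_Om_cj {C : Subgroup G} {g x : G} (hx : x ∈ Om C) : g * x * g⁻¹ ∈ Om (cj g C) := by
  refine ⟨conj_mem_cj hx.1, ?_⟩
  have : g * x * g⁻¹ * (g * x * g⁻¹) = g * (x * x) * g⁻¹ := by simp [mul_assoc]
  rw [this, hx.2]
  simp

theorem mem_Om_cj {C : Subgroup G} {g x : G} : x ∈ Om (cj g C) ↔ g⁻¹ * x * g ∈ Om C := by
  constructor
  · intro hx
    have := conj_mem_Om_cj (g := g⁻¹) hx
    rw [cj_inv_cj] at this
    simpa using this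
  · intro hx
    have := conj_mem_Om_cj (g := g) hx
    simpa [mul_assoc] using this

theorem Col.cj {A B : Subgroup G} (hc : Col A B) (g : G) : Col (PairBase.cj g A) (PairBase.cj g B) := by
  obtain ⟨h1, x, hx, y, hy, hx1, hy1, hxy⟩ := hc
  refine ⟨fun h0 => h1 (cj_inj h0), g * x * g⁻¹, conj_mem_cj hx, g * y * g⁻¹, conj_mem_cj hy,
    ?_, ?_, ?_⟩
  · intro h0
    apply hx1
    have := congrArg (fun t => g⁻¹ * t * g) h0
    simpa [mul_assoc] using this
  · intro h0
    apply hy1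
    have := congrArg (fun t => g⁻¹ * t * g) h0
    simpa [mul_assoc] using this
  · have := congrArg (fun t => g * t * g⁻¹) hxy
    simpa only [mul_assoc, _root_.inv_mul_cancel_left, _root_.mul_right_inj] using this

/-- The facts about the family used below. -/
structure Geo (P : Set (Subgroup G)) : Prop extends TIFam P where
  exp4 : ∀ C ∈ P, ∀ c ∈ C, (c * c) * (c * c) = 1
  norm_iff : ∀ A ∈ P, ∀ B ∈ P, Col A B → ∀ b ∈ B, (cj b A = A ↔ b * b = 1)
  comm_om : ∀ A ∈ P, ∀ B ∈ P, Col A B → ∀ x ∈ Om A, ∀ y ∈ Om B, x * y = y * x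
  brak : ∀ A ∈ P, ∀ B ∈ P, Col A B → ∀ x ∈ Om A, ∀ b ∈ B, b * x * b⁻¹ * x⁻¹ ∈ Om B
  surj : ∀ A ∈ P, ∀ B ∈ P, Col A B → ∀ b ∈ B, b * b ≠ 1 → ∀ y ∈ Om B, ∃ x ∈ Om A,
    b * x * b⁻¹ * x⁻¹ = y

theorem geo_of_col [Finite G] {P : Set (Subgroup G)} (h : TIFam P)
    (hex : ∃ A ∈ P, ∃ B ∈ P, Col A B) : Geo P := by
  have hnr : ∀ A ∈ P, ∀ B ∈ P, Col A B → ∀ b, b ∈ nr B A ↔ b ∈ Om B := by
    intro A hA B hB hc b
    constructor
    · intro hb
      exact ⟨hb.1, (mem_nr_iff h hA hB hc hb.1).1 hb⟩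
    · intro hb
      exact (mem_nr_iff h hA hB hc hb.1).2 hb.2
  refine { toTIFam := h, exp4 := ?_, norm_iff := ?_, comm_om := ?_, brak := ?_, surj := ?_ }
  · intro C hC c hc
    obtain ⟨A, hA, B, hB, hAB⟩ := hex
    obtain ⟨g, rfl⟩ := h.trans B hB C hC
    rw [mem_cj] at hc
    have h1 := (hnr A hA B hB hAB _).1 (h.sq_mem_nr hA hB hAB hc)
    have h2 := h1.2
    have h3 := congrArg (fun t => g * t * g⁻¹) h2
    simpa only [mul_assoc, _root_.mul_inv_cancel_left, _root_.mul_inv_cancel, _root_.mul_one] using h3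
  · intro A hA B hB hAB b hb
    rw [← mem_nr_iff h hA hB hAB hb]
    exact ⟨fun h1 => ⟨hb, h1⟩, fun h1 => h1.2⟩
  · intro A hA B hB hAB x hx y hy
    exact h.comm_nr hA hB hAB.1 ((hnr B hB A hA hAB.symm x).2 hx) ((hnr A hA B hB hAB y).2 hy)
  · intro A hA B hB hAB x hx b hb
    rw [← hnr A hA B hB hAB]
    have h1 := (nr B A).inv_mem (h.comm_mem hA hB hAB ((hnr B hB A hA hAB.symm x).2 hx) hb)
    simpa only [mul_assoc, _root_.mul_inv_rev, _root_.inv_inv] using h1
  · intro A hA B hB hAB b hb hbb y hy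
    have hbn : b ∉ nr B A := fun h0 => hbb ((mem_nr_iff h hA hB hAB hb).1 h0)
    obtain ⟨x, hx, hxy⟩ := h.surj hA hB hAB hb hbn ((nr B A).inv_mem ((hnr A hA B hB hAB y).2 hy))
    refine ⟨x, (hnr B hB A hA hAB.symm x).1 hx, ?_⟩
    have := congrArg (fun t => t⁻¹) hxy
    simpa only [mul_assoc, _root_.mul_inv_rev, _root_.inv_inv] using this

namespace Geo

variable {P : Set (Subgroup G)} (h : Geo P)
include h

theorem mul_Om {C : Subgroup G} (hC : C ∈ P) {x y : G} (hx : x ∈ Om C) (hy : y ∈ Om C) :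
    x * y ∈ Om C := by
  refine ⟨C.mul_mem hx.1 hy.1, ?_⟩
  have : x * y * (x * y) = x * (y * x) * y := by simp only [mul_assoc]
  rw [this, h.comm C hC _ hy.1 _ hx.1]
  have : x * (x * y) * y = (x * x) * (y * y) := by simp only [mul_assoc]
  rw [this, hx.2, hy.2, one_mul]

theorem sq_Om {C : Subgroup G} (hC : C ∈ P) {c : G} (hc : c ∈ C) : c * c ∈ Om C :=
  ⟨C.mul_mem hc hc, h.exp4 C hC c hc⟩

omit h in
/-- nontrivial commuting elements of different members: they are collinear and the elements are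
involutions. -/
theorem col_of_comm {A B : Subgroup G} (hne : A ≠ B) {x y : G} (hx : x ∈ A) (hx1 : x ≠ 1)
    (hy : y ∈ B) (hy1 : y ≠ 1) (hxy : x * y = y * x) : Col A B :=
  ⟨hne, x, hx, y, hy, hx1, hy1, hxy⟩

theorem sq_of_comm {A B : Subgroup G} (hA : A ∈ P) (hB : B ∈ P) (hne : A ≠ B) {x y : G}
    (hx : x ∈ A) (hx1 : x ≠ 1) (hy : y ∈ B) (hxy : x * y = y * x) : y * y = 1 := by
  by_cases hy1 : y = 1
  · rw [hy1, one_mul]
  · exact (h.norm_iff A hA B hB (col_of_comm hne hx hx1 hy hy1 hxy) y hy).1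
      (h.norm_of_comm hA hx hx1 hxy.symm)

/-- Injectivity of `x ↦ [b, x]`. -/
theorem brak_ne {A B : Subgroup G} (hA : A ∈ P) (hB : B ∈ P) (hne : A ≠ B) {x b : G}
    (hx : x ∈ A) (hx1 : x ≠ 1) (hb : b ∈ B) (hbb : b * b ≠ 1) : b * x * b⁻¹ * x⁻¹ ≠ 1 := by
  intro h0
  apply hbb
  refine h.sq_of_comm hA hB hne hx hx1 hb ?_
  rw [mul_inv_eq_one, mul_inv_eq_iff_eq_mul] at h0
  exact h0.symm

theorem brak_inj {A B : Subgroup G} (hA : A ∈ P) (hB : B ∈ P) (hne : A ≠ B)
    {x x' b : G} (hx : x ∈ A) (hx' : x' ∈ A) (hb : b ∈ B) (hbb : b * b ≠ 1)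
    (he : b * x * b⁻¹ * x⁻¹ = b * x' * b⁻¹ * x'⁻¹) : x = x' := by
  by_contra hxx
  have h1 : x'⁻¹ * x ≠ 1 := by
    intro h0
    apply hxx
    rw [inv_mul_eq_one] at h0
    exact h0.symm
  apply hbb
  refine h.sq_of_comm hA hB hne (A.mul_mem (A.inv_mem hx') hx) h1 hb ?_
  have h2 : x * b⁻¹ * x⁻¹ = x' * b⁻¹ * x'⁻¹ := by
    have := congrArg (fun t => b⁻¹ * t) he
    simpa only [mul_assoc, _root_.inv_mul_cancel_left] using this
  have h3 := congrArg (fun t => b * (x'⁻¹ * t * x) * b) h2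
  have h4 : b * (x'⁻¹ * x) = x'⁻¹ * x * b := by simpa only [mul_assoc, _root_.inv_mul_cancel, _root_.mul_one, _root_.inv_mul_cancel_left, _root_.mul_inv_cancel_left] using h3
  exact h4.symm

end Geo

end Cfsg.Agent.TIAbelian.PairGeo
end

-- part: TIAbelian/PairLine
section
set_option autoImplicit false

namespace Cfsg.Agent.TIAbelian.PairLine

open Cfsg.Agent.TIAbelian.PairBase Cfsg.Agent.TIAbelian.PairOmega Cfsg.Agent.TIAbelian.PairGeo

/-- Parity: if the involutory map `f` has exactly one fixed point on `S` then the involutory map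
`g` has a fixed point. -/
theorem parity {α : Type*} [Finite α] (S : Set α) (f g : α → α) (hf : ∀ x ∈ S, f x ∈ S)
    (hff : ∀ x ∈ S, f (f x) = x) (a₀ : α) (ha₀ : a₀ ∈ S) (hfix : ∀ x ∈ S, f x = x ↔ x = a₀)
    (hg : ∀ x ∈ S, g x ∈ S) (hgg : ∀ x ∈ S, g (g x) = x) : ∃ x ∈ S, g x = x := by
  classical
  have : Fintype ↥S := Fintype.ofFinite _
  let F : Function.End ↥S := fun x => ⟨f x, hf x x.2⟩
  let K : Function.End ↥S := fun x => ⟨g x, hg x x.2⟩
  have hF : F ^ 2 ^ 1 = 1 := by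
    funext x
    apply Subtype.ext
    exact hff x x.2
  have hK : K ^ 2 ^ 1 = 1 := by
    funext x
    apply Subtype.ext
    exact hgg x x.2
  have h1 := Equiv.Perm.card_fixedPoints_modEq hF
  have h2 := Equiv.Perm.card_fixedPoints_modEq hK
  have h3 : Fintype.card ↥(Function.fixedPoints F) = 1 := by
    rw [Fintype.card_eq_one_iff]
    refine ⟨⟨⟨a₀, ha₀⟩, ?_⟩, ?_⟩
    · apply Subtype.ext
      exact (hfix a₀ ha₀).2 rfl
    · rintro ⟨⟨x, hx⟩, hx2⟩
      apply Subtype.ext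
      apply Subtype.ext
      exact (hfix x hx).1 (congrArg Subtype.val hx2)
  rw [h3] at h1
  by_contra hcon
  push Not at hcon
  have h4 : Fintype.card ↥(Function.fixedPoints K) = 0 := by
    rw [Fintype.card_eq_zero_iff]
    exact ⟨fun x => hcon x.1.1 x.1.2 (congrArg Subtype.val x.2)⟩
  rw [h4] at h2
  have := h1.symm.trans h2
  exact absurd this (by decide)

variable {G : Type*} [Group G]

section

variable {P : Set (Subgroup G)} (h : Geo P)
include h

theorem comm_brak {A : Subgroup G} (hA : A ∈ P) {k a : G} (ha : a ∈ A) (haa : a * a ≠ 1)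
    (kA : ∀ x ∈ Om A, k * x = x * k) : k * a * k⁻¹ * a⁻¹ ∈ Om A := by
  have hk : cj k A = A :=
    h.norm_of_comm hA (h.sq_Om hA ha).1 haa (kA _ (h.sq_Om hA ha))
  have h1 : k * a * k⁻¹ ∈ A := conj_mem_of_cj hk ha
  refine ⟨A.mul_mem h1 (A.inv_mem ha), ?_⟩
  have e1 : k * a * k⁻¹ * a⁻¹ * (k * a * k⁻¹ * a⁻¹) = (k * a * k⁻¹) * (a⁻¹ * (k * a * k⁻¹)) * a⁻¹ := by
    simp only [mul_assoc]
  rw [e1, h.comm A hA _ (A.inv_mem ha) _ h1]
  have e2 : (k * a * k⁻¹) * ((k * a * k⁻¹) * a⁻¹) * a⁻¹ = (k * (a * a)) * k⁻¹ * (a * a)⁻¹ := by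
    simp only [mul_assoc, _root_.inv_mul_cancel_left, _root_.mul_inv_rev]
  rw [e2, kA _ (h.sq_Om hA ha)]
  simp

/-- `k` centralises `V_A V_B` and `k² ∈ V_A V_B` imply `k² = 1`. -/
theorem klem {A B : Subgroup G} (hA : A ∈ P) (hB : B ∈ P) (hc : Col A B) {k : G}
    (kA : ∀ x ∈ Om A, k * x = x * k) (kB : ∀ y ∈ Om B, k * y = y * k) {x₀ y₀ : G}
    (hx₀ : x₀ ∈ Om A) (hy₀ : y₀ ∈ Om B) (hkk : k * k = x₀ * y₀) : k * k = 1 := by
  obtain ⟨a, ha, haa⟩ := h.nonelem A hA
  obtain ⟨b, hb, hbb⟩ := h.nonelem B hB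
  have hca := comm_brak h hA ha haa kA
  have hcb := comm_brak h hB hb hbb kB
  have cAB := h.comm_om A hA B hB hc
  set ca := k * a * k⁻¹ * a⁻¹ with hcadef
  set cb := k * b * k⁻¹ * b⁻¹ with hcbdef
  have hcab : a * cb * a⁻¹ * cb⁻¹ ∈ Om A := h.brak B hB A hA hc.symm cb hcb a ha
  obtain ⟨x₂, hx₂, e₂⟩ := h.surj A hA B hB hc b hb hbb cb hcb
  set x₁ := ca * (a * cb * a⁻¹ * cb⁻¹) with hx₁def
  have hx₁ : x₁ ∈ Om A := h.mul_Om hA hca hcab
  obtain ⟨y₃, hy₃, e₃⟩ := h.surj B hB A hA hc.symm a ha haa x₁ hx₁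
  have hy₂ : cb * y₃ ∈ Om B := h.mul_Om hB hcb hy₃
  -- `k (a b) = x₁ cb a b k`
  have f1 : k * (a * b) = x₁ * cb * (a * b) * k := by
    have e : x₁ * cb * (a * b) * k = ca * a * cb * b * k := by
      rw [hx₁def]
      simp only [mul_assoc, _root_.inv_mul_cancel, _root_.mul_one, _root_.inv_mul_cancel_left]
    rw [e, hcadef, hcbdef]
    simp only [mul_assoc, _root_.inv_mul_cancel, _root_.mul_one, _root_.inv_mul_cancel_left]
  -- `(a b) (x₂ cb y₃) = x₁ y₃ x₂ (a b)`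
  have f2 : (a * b) * (x₂ * (cb * y₃)) = x₁ * y₃ * x₂ * (a * b) := by
    have g1 : b * x₂ = cb * x₂ * b := by rw [← e₂]; simp [mul_assoc]
    have g2 : b * (cb * y₃) = (cb * y₃) * b := h.comm B hB _ hb _ hy₂.1
    have g3 : a * y₃ = x₁ * y₃ * a := by rw [← e₃]; simp [mul_assoc]
    calc (a * b) * (x₂ * (cb * y₃)) = a * (b * x₂) * (cb * y₃) := by simp only [mul_assoc]
      _ = a * cb * x₂ * (b * (cb * y₃)) := by rw [g1]; simp only [mul_assoc]
      _ = a * cb * (x₂ * (cb * y₃)) * b := by rw [g2]; simp only [mul_assoc]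
      _ = a * (cb * cb) * y₃ * x₂ * b := by rw [cAB x₂ hx₂ _ hy₂]; simp only [mul_assoc]
      _ = x₁ * y₃ * (a * x₂) * b := by rw [hcb.2, mul_one, g3]; simp only [mul_assoc]
      _ = x₁ * y₃ * x₂ * (a * b) := by
        rw [h.comm A hA _ ha _ hx₂.1]; simp only [mul_assoc]
  -- `u k` commutes with `a b`
  set u := x₂ * (cb * y₃) with hudef
  have f3 : u * x₁ * cb = x₁ * y₃ * x₂ := by
    have c1 : (cb * y₃) * x₁ = x₁ * (cb * y₃) := (cAB x₁ hx₁ _ hy₂).symm
    have c2 : cb * y₃ * cb = y₃ := by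
      rw [h.comm B hB _ hcb.1 _ hy₃.1, mul_assoc, hcb.2, mul_one]
    calc u * x₁ * cb = x₂ * ((cb * y₃) * x₁) * cb := by rw [hudef]; simp only [mul_assoc]
      _ = (x₂ * x₁) * (cb * y₃ * cb) := by rw [c1]; simp only [mul_assoc]
      _ = x₁ * (x₂ * y₃) := by rw [c2, h.comm A hA _ hx₂.1 _ hx₁.1, mul_assoc]
      _ = x₁ * y₃ * x₂ := by rw [cAB x₂ hx₂ _ hy₃, ← mul_assoc]
  have f4 : (u * k) * (a * b) = (a * b) * (u * k) := by
    calc (u * k) * (a * b) = u * (k * (a * b)) := by simp only [mul_assoc]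
      _ = (u * x₁ * cb) * (a * b) * k := by rw [f1]; simp only [mul_assoc]
      _ = (a * b) * u * k := by rw [f3, f2]
      _ = (a * b) * (u * k) := by simp only [mul_assoc]
  have ku : k * u = u * k := by
    rw [hudef, ← mul_assoc, kA _ hx₂, mul_assoc, kB _ hy₂, ← mul_assoc]
  have huu : u * u = 1 := by
    have : u * u = (x₂ * ((cb * y₃) * x₂)) * (cb * y₃) := by rw [hudef]; simp only [mul_assoc]
    rw [this, ← cAB x₂ hx₂ _ hy₂]
    have : x₂ * (x₂ * (cb * y₃)) * (cb * y₃) = (x₂ * x₂) * ((cb * y₃) * (cb * y₃)) := by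
      simp only [mul_assoc]
    rw [this, hx₂.2, hy₂.2, one_mul]
  have f5 : (u * k) * (u * k) = k * k := by
    have : (u * k) * (u * k) = u * (k * u) * k := by simp only [mul_assoc]
    rw [this, ku]
    have : u * (u * k) * k = (u * u) * (k * k) := by simp only [mul_assoc]
    rw [this, huu, one_mul]
  have f6 : (k * k) * (a * b) = (a * b) * (k * k) := by
    rw [← f5, mul_assoc, f4, ← mul_assoc, f4, mul_assoc]
  rw [hkk] at f6
  -- now compute
  have hβ : b * x₀ * b⁻¹ * x₀⁻¹ ∈ Om B := h.brak A hA B hB hc x₀ hx₀ b hb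
  set y' := b * x₀ * b⁻¹ * x₀⁻¹ with hy'
  have hα : a * (y' * y₀) * a⁻¹ * (y' * y₀)⁻¹ ∈ Om A :=
    h.brak B hB A hA hc.symm _ (h.mul_Om hB hβ hy₀) a ha
  set x'' := a * (y' * y₀) * a⁻¹ * (y' * y₀)⁻¹ with hx''
  have f7 : (a * b) * (x₀ * y₀) = x'' * (y' * y₀) * x₀ * (a * b) := by
    have g1 : b * x₀ = y' * x₀ * b := by rw [hy']; simp [mul_assoc]
    have g3 : a * (y' * y₀) = x'' * (y' * y₀) * a := by rw [hx'']; simp only [mul_assoc, _root_.mul_inv_rev, _root_.inv_mul_cancel_left, _root_.inv_mul_cancel, _root_.mul_one]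
    calc (a * b) * (x₀ * y₀) = a * (b * x₀) * y₀ := by simp only [mul_assoc]
      _ = a * y' * x₀ * (b * y₀) := by rw [g1]; simp only [mul_assoc]
      _ = a * y' * (x₀ * y₀) * b := by rw [h.comm B hB _ hb _ hy₀.1]; simp only [mul_assoc]
      _ = (a * (y' * y₀)) * x₀ * b := by rw [cAB x₀ hx₀ _ hy₀]; simp only [mul_assoc]
      _ = x'' * (y' * y₀) * (a * x₀) * b := by rw [g3]; simp only [mul_assoc]
      _ = x'' * (y' * y₀) * x₀ * (a * b) := by
        rw [h.comm A hA _ ha _ hx₀.1]; simp only [mul_assoc]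
  rw [f7] at f6
  have f8 := mul_right_cancel f6
  have f9 : x'' * y' = 1 := by
    have e : x'' * (y' * y₀) * x₀ = (x'' * y') * (x₀ * y₀) := by
      rw [cAB x₀ hx₀ _ hy₀]; simp only [mul_assoc]
    rw [e] at f8
    have := mul_right_cancel (b := x₀ * y₀) (f8.symm.trans (one_mul _).symm)
    exact this
  have hy'1 : y' = 1 := by
    by_contra h0
    apply hc.1
    refine h.ti A hA B hB y' ?_ hβ.1 h0
    have : y' = x''⁻¹ := (inv_eq_of_mul_eq_one_right f9).symm
    rw [this]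
    exact A.inv_mem hα.1
  have hx0 : x₀ = 1 := by
    by_contra h0
    exact h.brak_ne hA hB hc.1 hx₀.1 h0 hb hbb hy'1
  rw [hy'1, mul_one] at f9
  have hy0 : y₀ = 1 := by
    by_contra h0
    refine h.brak_ne hB hA hc.1.symm hy₀.1 h0 ha haa ?_
    rw [hx'', hy'1, one_mul] at f9
    exact f9
  rw [hkk, hx0, hy0, one_mul]

theorem exists_ne_Om {C : Subgroup G} (hC : C ∈ P) : ∃ v ∈ Om C, v ≠ 1 := by
  obtain ⟨c, hc, hcc⟩ := h.nonelem C hC
  exact ⟨c * c, h.sq_Om hC hc, hcc⟩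

theorem ncard_Om {C D : Subgroup G} (hC : C ∈ P) (hD : D ∈ P) : (Om C).ncard = (Om D).ncard := by
  obtain ⟨g, rfl⟩ := h.trans C hC D hD
  have : Om (cj g C) = (fun x => g * x * g⁻¹) '' Om C := by
    ext x
    constructor
    · intro hx
      exact ⟨g⁻¹ * x * g, mem_Om_cj.1 hx, by simp [mul_assoc]⟩
    · rintro ⟨y, hy, rfl⟩
      exact conj_mem_Om_cj hy
  rw [this, Set.ncard_image_of_injective]
  intro x y hxy
  simpa only [_root_.mul_left_inj, _root_.mul_right_inj] using hxy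

/-- Lemma F': an involution `t` normalising `B` and moving the neighbour `A` of `B` (to another
neighbour of `A`). -/
theorem lemF [Finite G] {A B : Subgroup G} (hA : A ∈ P) (hB : B ∈ P) (hc : Col A B) {t : G}
    (tt : t * t = 1) (htB : cj t B = B) (tB : ∀ v ∈ Om B, t * v = v * t)
    (hcA : Col A (cj t A))
    (hP : ∀ Q ∈ P, (∀ v ∈ Om Q, ∃ x ∈ Om A, ∃ x' ∈ Om (cj t A), v = x * x') → cj t Q = Q →
      ∀ v ∈ Om Q, t * v = v * t) :
    (∀ x ∈ Om A, x * (t * x * t⁻¹) ∈ Om B) ∧ (∀ v ∈ Om B, ∃ x ∈ Om A, v = x * (t * x * t⁻¹)) := by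
  have hA' : cj t A ∈ P := h.conj A hA t
  have ti : t⁻¹ = t := inv_eq_of_mul_eq_one_left tt
  obtain ⟨a, ha, haa⟩ := h.nonelem A hA
  have cAA := h.comm_om A hA _ hA' hcA
  let S : Set (Subgroup G) :=
    {Q | Q ∈ P ∧ ∀ v ∈ Om Q, ∃ x ∈ Om A, ∃ x' ∈ Om (cj t A), v = x * x'}
  have hcomm : ∀ Q ∈ S, ∀ v ∈ Om Q, ∀ y ∈ Om A, y * v = v * y := by
    rintro Q ⟨hQ, hQ2⟩ v hv y hy
    obtain ⟨x, hx, x', hx', rfl⟩ := hQ2 v hv
    rw [← mul_assoc, h.comm A hA _ hy.1 _ hx.1, mul_assoc, cAA _ hy _ hx', mul_assoc]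
  have htconj : ∀ x' ∈ Om (cj t A), t * x' * t⁻¹ ∈ Om A := by
    intro x' hx'
    have := mem_Om_cj.1 hx'
    rwa [ti] at this ⊢
  obtain ⟨Q, ⟨hQ, hQ2⟩, hQ3⟩ := parity S (fun Q => cj a Q) (fun Q => cj t Q) (by
      rintro Q ⟨hQ, hQ2⟩
      refine ⟨h.conj Q hQ a, ?_⟩
      intro v hv
      obtain ⟨x, hx, x', hx', e⟩ := hQ2 _ (mem_Om_cj.1 hv)
      refine ⟨x * (a * x' * a⁻¹ * x'⁻¹), h.mul_Om hA hx (h.brak _ hA' A hA hcA.symm x' hx' a ha),
        x', hx', ?_⟩
      have e1 : v = a * (a⁻¹ * v * a) * a⁻¹ := by simp [mul_assoc]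
      rw [e1, e]
      have e2 : a * (x * x') * a⁻¹ = (a * x) * (x' * a⁻¹) := by simp only [mul_assoc]
      rw [e2, h.comm A hA _ ha _ hx.1]
      simp [mul_assoc]) (by
      rintro Q ⟨hQ, hQ2⟩
      obtain ⟨v, hv, hv1⟩ := exists_ne_Om h hQ
      rw [cj_cj]
      exact h.norm_of_comm hQ hv.1 hv1 (hcomm Q ⟨hQ, hQ2⟩ v hv _ (h.sq_Om hA ha))) A
    ⟨hA, fun v hv => ⟨v, hv, 1, one_mem_Om _, by simp⟩⟩ (by
      rintro Q hQ
      constructor
      · intro h1
        by_contra h0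
        obtain ⟨v, hv, hv1⟩ := exists_ne_Om h hQ.1
        have hcQ : Col Q A := Geo.col_of_comm h0 hv.1 hv1 (h.sq_Om hA ha).1 haa
          (hcomm Q hQ v hv _ (h.sq_Om hA ha)).symm
        exact haa ((h.norm_iff Q hQ.1 A hA hcQ a ha).1 h1)
      · rintro rfl
        exact cj_self ha) (by
      rintro Q ⟨hQ, hQ2⟩
      refine ⟨h.conj Q hQ t, ?_⟩
      intro v hv
      obtain ⟨x, hx, x', hx', e⟩ := hQ2 _ (mem_Om_cj.1 hv)
      refine ⟨t * x' * t⁻¹, htconj x' hx', t * x * t⁻¹, conj_mem_Om_cj hx, ?_⟩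
      rw [cAA _ (htconj x' hx') _ (conj_mem_Om_cj hx)]
      have e1 : v = t * (t⁻¹ * v * t) * t⁻¹ := by simp [mul_assoc]
      rw [e1, e]
      simp [mul_assoc]) (by
      rintro Q ⟨hQ, hQ2⟩
      rw [cj_cj, tt, cj_one])
  have tQ := hP Q hQ hQ2 hQ3
  -- elements of `V_Q` are `x x^t`
  have claim1 : ∀ v ∈ Om Q, ∃ x ∈ Om A, v = x * (t * x * t⁻¹) := by
    intro v hv
    obtain ⟨x, hx, x', hx', e⟩ := hQ2 v hv
    have hx1 := htconj x' hx'
    refine ⟨x, hx, ?_⟩
    have e0 : x' = t * (t * x' * t⁻¹) * t⁻¹ := by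
      have : t * (t * x' * t⁻¹) * t⁻¹ = (t * t) * x' * (t * t)⁻¹ := by simp [mul_assoc]
      rw [this, tt]
      simp
    have e1 : t * v * t⁻¹ = v := by rw [tQ v hv, mul_inv_cancel_right]
    have e2 : t * v * t⁻¹ = (t * x * t⁻¹) * (t * x' * t⁻¹) := by rw [e]; simp [mul_assoc]
    rw [← cAA _ hx1 _ (conj_mem_Om_cj hx)] at e2
    have e3 : x⁻¹ * (t * x' * t⁻¹) = x' * (t * x * t⁻¹)⁻¹ := by
      rw [inv_mul_eq_iff_eq_mul, ← mul_assoc, eq_mul_inv_iff_mul_eq, ← e2, e1, e]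
    have e4 : x⁻¹ * (t * x' * t⁻¹) = 1 := by
      by_contra h0
      refine hcA.1 (h.ti A hA _ hA' _ (A.mul_mem (A.inv_mem hx.1) hx1.1) ?_ h0)
      rw [e3]
      exact (cj t A).mul_mem hx'.1 ((cj t A).inv_mem (conj_mem_cj hx.1))
    rw [inv_mul_eq_one] at e4
    rw [e, e0, ← e4]
  have hQB : Q = B := by
    by_contra h0
    obtain ⟨v, hv, hv1⟩ := exists_ne_Om h hQ
    obtain ⟨b, hb, hbb⟩ := h.nonelem B hB
    apply hbb
    refine h.sq_of_comm hQ hB h0 hv.1 hv1 hb ?_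
    obtain ⟨x, hx, e⟩ := claim1 v hv
    have hx' : t * x * t⁻¹ ∈ Om (cj t A) := conj_mem_Om_cj hx
    have hcA'B : Col (cj t A) B := by
      have := PairGeo.Col.cj hc t
      rwa [htB] at this
    have hcc : b * x * b⁻¹ * x⁻¹ ∈ Om B := h.brak A hA B hB hc x hx b hb
    have hb' : t * b * t⁻¹ ∈ B := conj_mem_of_cj htB hb
    have hw : b⁻¹ * (t * b * t⁻¹) ∈ Om B := by
      refine ⟨B.mul_mem (B.inv_mem hb) hb', ?_⟩
      have e1 : b⁻¹ * (t * b * t⁻¹) * (b⁻¹ * (t * b * t⁻¹))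
          = b⁻¹ * ((t * b * t⁻¹) * b⁻¹) * (t * b * t⁻¹) := by simp only [mul_assoc]
      rw [e1, h.comm B hB _ hb' _ (B.inv_mem hb)]
      have e2 : b⁻¹ * (b⁻¹ * (t * b * t⁻¹)) * (t * b * t⁻¹) = (b * b)⁻¹ * (t * (b * b) * t⁻¹) := by
        simp only [mul_assoc, _root_.inv_mul_cancel_left, _root_.mul_inv_rev]
      rw [e2, tB _ (h.sq_Om hB hb)]
      simp
    have e1 : t * (b * x * b⁻¹ * x⁻¹) * t⁻¹ = b * x * b⁻¹ * x⁻¹ := by
      rw [tB _ hcc, mul_inv_cancel_right]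
    have e2 : b * (t * x * t⁻¹) * b⁻¹ * (t * x * t⁻¹)⁻¹ = b * x * b⁻¹ * x⁻¹ := by
      rw [← e1]
      have e3 : t * (b * x * b⁻¹ * x⁻¹) * t⁻¹
          = b * ((b⁻¹ * (t * b * t⁻¹)) * (t * x * t⁻¹) * (b⁻¹ * (t * b * t⁻¹))⁻¹) * b⁻¹
            * (t * x * t⁻¹)⁻¹ := by simp only [mul_assoc, _root_.inv_mul_cancel_left, _root_.mul_inv_rev, _root_.inv_inv, _root_.mul_inv_cancel_left, _root_.mul_inv_cancel, _root_.mul_one]
      rw [e3, ← h.comm_om _ hA' B hB hcA'B _ hx' _ hw, mul_inv_cancel_right]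
    have f1 : b * x = (b * x * b⁻¹ * x⁻¹) * x * b := by simp [mul_assoc]
    have f2 : b * (t * x * t⁻¹) = (b * x * b⁻¹ * x⁻¹) * (t * x * t⁻¹) * b := by
      rw [← e2]
      simp only [mul_assoc, _root_.mul_inv_rev, _root_.inv_inv, _root_.inv_mul_cancel_left, _root_.mul_inv_cancel, _root_.mul_one, _root_.inv_mul_cancel]
    rw [e]
    set c := b * x * b⁻¹ * x⁻¹ with hcdef
    set x' := t * x * t⁻¹ with hx'def
    have f3 : b * (x * x') = x * x' * b := by
      calc b * (x * x') = (b * x) * x' := by simp only [mul_assoc]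
        _ = c * x * (b * x') := by rw [f1]; simp only [mul_assoc]
        _ = c * (x * c) * x' * b := by rw [f2]; simp only [mul_assoc]
        _ = (c * c) * (x * x') * b := by
          rw [h.comm_om A hA B hB hc x hx c hcc]; simp only [mul_assoc]
        _ = x * x' * b := by rw [hcc.2, one_mul]
    exact f3.symm
  subst hQB
  refine ⟨?_, claim1⟩
  have himg : Om Q = (fun x => x * (t * x * t⁻¹)) '' Om A := by
    refine Set.eq_of_subset_of_ncard_le ?_ ?_ (Set.toFinite _)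
    · intro v hv
      obtain ⟨x, hx, e⟩ := claim1 v hv
      exact ⟨x, hx, e.symm⟩
    · calc ((fun x => x * (t * x * t⁻¹)) '' Om A).ncard ≤ (Om A).ncard :=
          Set.ncard_image_le (Set.toFinite _)
        _ = (Om Q).ncard := ncard_Om h hA hQ
  intro x hx
  rw [himg]
  exact ⟨x, hx, rfl⟩

end

end Cfsg.Agent.TIAbelian.PairLine
end

-- part: TIAbelian/CaseBGeo
section
set_option autoImplicit false

namespace Cfsg.Agent.TIAbelian.CaseBGeo

open Cfsg.Agent.TIAbelian.PairBase hiding TIFam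
open Cfsg.Agent.TIAbelian.PairOmega
open Cfsg.Agent.TIAbelian.CaseBBase
open Cfsg.Agent.TIAbelian.PairGeo (Om mem_Om one_mem_Om inv_Om conj_mem_Om_cj mem_Om_cj)

variable {G : Type*} [Group G]

/-- `A` and `B` commute elementwise. -/
def Cm (A B : Subgroup G) : Prop := ∀ a ∈ A, ∀ b ∈ B, a * b = b * a

/-- `A` and `B` have commuting nontrivial elements. -/
def Ap (A B : Subgroup G) : Prop := ∃ x ∈ A, ∃ y ∈ B, x ≠ 1 ∧ y ≠ 1 ∧ x * y = y * x

theorem Cm.symm {A B : Subgroup G} (h : Cm A B) : Cm B A := fun b hb a ha => (h a ha b hb).symm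

theorem Ap.symm {A B : Subgroup G} (h : Ap A B) : Ap B A := by
  obtain ⟨x, hx, y, hy, hx1, hy1, hxy⟩ := h
  exact ⟨y, hy, x, hx, hy1, hx1, hxy.symm⟩

theorem not_cm_iff {A B : Subgroup G} : ¬ Cm A B ↔ Nc A B := by
  unfold Cm Nc
  push Not
  rfl

theorem nb_iff {A B : Subgroup G} : Nb A B ↔ ¬ Cm A B ∧ Ap A B := by
  rw [not_cm_iff]
  rfl

theorem Nb.not_cm {A B : Subgroup G} (h : Nb A B) : ¬ Cm A B := (nb_iff.1 h).1

theorem Nb.ap {A B : Subgroup G} (h : Nb A B) : Ap A B := h.2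

theorem nb_of {A B : Subgroup G} (h1 : Ap A B) (h2 : ¬ Cm A B) : Nb A B := nb_iff.2 ⟨h2, h1⟩

theorem Ap.cj {A B : Subgroup G} (hc : Ap A B) (g : G) : Ap (PairBase.cj g A) (PairBase.cj g B) := by
  obtain ⟨x, hx, y, hy, hx1, hy1, hxy⟩ := hc
  refine ⟨g * x * g⁻¹, conj_mem_cj hx, g * y * g⁻¹, conj_mem_cj hy, ?_, ?_, ?_⟩
  · intro h0
    apply hx1
    have := congrArg (fun t => g⁻¹ * t * g) h0
    simpa [mul_assoc] using this
  · intro h0
    apply hy1
    have := congrArg (fun t => g⁻¹ * t * g) h0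
    simpa [mul_assoc] using this
  · have := congrArg (fun t => g * t * g⁻¹) hxy
    simpa only [mul_assoc, _root_.inv_mul_cancel_left, _root_.mul_right_inj] using this

theorem Cm.cj {A B : Subgroup G} (hc : Cm A B) (g : G) : Cm (PairBase.cj g A) (PairBase.cj g B) := by
  intro a ha b hb
  rw [mem_cj] at ha hb
  have := congrArg (fun t => g * t * g⁻¹) (hc _ ha _ hb)
  simpa only [mul_assoc, _root_.mul_inv_cancel_left, _root_.mul_inv_cancel, _root_.mul_one] using this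

theorem cm_cj_iff {A B : Subgroup G} (g : G) :
    Cm (PairBase.cj g A) (PairBase.cj g B) ↔ Cm A B := by
  constructor
  · intro h1
    have := h1.cj g⁻¹
    rwa [cj_inv_cj, cj_inv_cj] at this
  · intro h1
    exact h1.cj g

theorem ap_cj_iff {A B : Subgroup G} (g : G) :
    Ap (PairBase.cj g A) (PairBase.cj g B) ↔ Ap A B := by
  constructor
  · intro h1
    have := h1.cj g⁻¹
    rwa [cj_inv_cj, cj_inv_cj] at this
  · intro h1
    exact h1.cj g

theorem Nb.cj {A B : Subgroup G} (hc : Nb A B) (g : G) : Nb (PairBase.cj g A) (PairBase.cj g B) := by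
  rw [nb_iff] at hc ⊢
  exact ⟨fun h0 => hc.1 ((cm_cj_iff g).1 h0), hc.2.cj g⟩

section

variable {P : Set (Subgroup G)} (h : Fam P)
include h

theorem exists_ne_one {C : Subgroup G} (hC : C ∈ P) : ∃ c ∈ Om C, c ≠ 1 := by
  obtain ⟨e, he, he1, hee, _⟩ := h.noncyc C hC 1
  exact ⟨e, ⟨he, hee⟩, he1⟩

theorem exists_two_Om {C : Subgroup G} (hC : C ∈ P) (z : G) : ∃ c ∈ Om C, c ≠ 1 ∧ c ≠ z := by
  obtain ⟨e, he, he1, hee, hez⟩ := h.noncyc C hC z
  exact ⟨e, ⟨he, hee⟩, he1, hez⟩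

theorem mul_Om {C : Subgroup G} (hC : C ∈ P) {x y : G} (hx : x ∈ Om C) (hy : y ∈ Om C) :
    x * y ∈ Om C := by
  refine ⟨C.mul_mem hx.1 hy.1, ?_⟩
  have : x * y * (x * y) = x * (y * x) * y := by simp only [mul_assoc]
  rw [this, h.comm C hC _ hy.1 _ hx.1]
  have : x * (x * y) * y = (x * x) * (y * y) := by simp only [mul_assoc]
  rw [this, hx.2, hy.2, one_mul]

theorem cm_self {C : Subgroup G} (hC : C ∈ P) : Cm C C := h.comm C hC

theorem ap_self {C : Subgroup G} (hC : C ∈ P) : Ap C C := by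
  obtain ⟨c, hc, hc1⟩ := exists_ne_one h hC
  exact ⟨c, hc.1, c, hc.1, hc1, hc1, rfl⟩

theorem cm_or_nb {A B : Subgroup G} (hc : Ap A B) : Cm A B ∨ Nb A B := by
  by_cases h1 : Cm A B
  · exact Or.inl h1
  · exact Or.inr (nb_of hc h1)

theorem nb_ne {A B : Subgroup G} (hA : A ∈ P) (hn : Nb A B) : A ≠ B := h.ne hA hn.1

/-- `N_B(A) = Ω₁(B)` for neighbours. -/
theorem norm_iff [Finite G] {A B : Subgroup G} (hA : A ∈ P) (hB : B ∈ P) (hn : Nb A B) {b : G}
    (hb : b ∈ B) : cj b A = A ↔ b * b = 1 := by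
  rw [← _root_.Cfsg.Agent.TIAbelian.CaseBBase.mem_nr_iff h hA hB hn hb]
  exact ⟨fun h1 => ⟨hb, h1⟩, fun h1 => h1.2⟩

theorem mem_nr_Om [Finite G] {A B : Subgroup G} (hA : A ∈ P) (hB : B ∈ P) (hn : Nb A B) {b : G} :
    b ∈ nr B A ↔ b ∈ Om B := by
  constructor
  · intro hb
    exact ⟨hb.1, (_root_.Cfsg.Agent.TIAbelian.CaseBBase.mem_nr_iff h hA hB hn hb.1).1 hb⟩
  · intro hb
    exact (_root_.Cfsg.Agent.TIAbelian.CaseBBase.mem_nr_iff h hA hB hn hb.1).2 hb.2

theorem comm_om [Finite G] {A B : Subgroup G} (hA : A ∈ P) (hB : B ∈ P) (ha : Ap A B) {x y : G}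
    (hx : x ∈ Om A) (hy : y ∈ Om B) : x * y = y * x := by
  rcases cm_or_nb h ha with h1 | h1
  · exact h1 x hx.1 y hy.1
  · exact h.comm_nr hA hB (h.ne hA h1.1) ((mem_nr_Om h hB hA h1.symm).2 hx)
      ((mem_nr_Om h hA hB h1).2 hy)

theorem brak [Finite G] {A B : Subgroup G} (hA : A ∈ P) (hB : B ∈ P) (hn : Nb A B) {x b : G}
    (hx : x ∈ Om A) (hb : b ∈ B) : b * x * b⁻¹ * x⁻¹ ∈ Om B := by
  rw [← mem_nr_Om h hA hB hn]
  have h1 := (nr B A).inv_mem (h.comm_mem hA hB hn ((mem_nr_Om h hB hA hn.symm).2 hx) hb)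
  simpa only [mul_assoc, _root_.mul_inv_rev, _root_.inv_inv] using h1

theorem surj [Finite G] {A B : Subgroup G} (hA : A ∈ P) (hB : B ∈ P) (hn : Nb A B) {b y : G}
    (hb : b ∈ B) (hbb : b * b ≠ 1) (hy : y ∈ Om B) : ∃ x ∈ Om A, b * x * b⁻¹ * x⁻¹ = y := by
  have hbn : b ∉ nr B A := fun h0 => hbb ((_root_.Cfsg.Agent.TIAbelian.CaseBBase.mem_nr_iff h hA hB hn hb).1 h0)
  obtain ⟨x, hx, hxy⟩ := h.surj hA hB hn hb hbn ((nr B A).inv_mem ((mem_nr_Om h hA hB hn).2 hy))
  refine ⟨x, (mem_nr_Om h hB hA hn.symm).1 hx, ?_⟩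
  have := congrArg (fun t => t⁻¹) hxy
  simpa only [mul_assoc, _root_.mul_inv_rev, _root_.inv_inv] using this

theorem exp4 [Finite G] (hex : ∃ A ∈ P, ∃ B ∈ P, Nb A B) {C : Subgroup G} (hC : C ∈ P) {c : G}
    (hc : c ∈ C) : (c * c) * (c * c) = 1 := by
  obtain ⟨A, hA, B, hB, hAB⟩ := hex
  obtain ⟨g, rfl⟩ := h.trans B hB C hC
  rw [mem_cj] at hc
  have h1 := (mem_nr_Om h hA hB hAB).1 (h.sq_mem_nr hA hB hAB hc)
  have h3 := congrArg (fun t => g * t * g⁻¹) h1.2
  simpa only [mul_assoc, _root_.mul_inv_cancel_left, _root_.mul_inv_cancel, _root_.mul_one] using h3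

/-- An element `b` of `B` with `b² ≠ 1` normalises `A` only if `A` and `B` commute. -/
theorem cm_of_norm {A B : Subgroup G} (hA : A ∈ P) (hB : B ∈ P) {b : G} (hb : b ∈ B)
    (hbb : b * b ≠ 1) (hn : cj b A = A) : Cm A B := by
  by_contra h0
  exact hbb (h.stageA hB hA (not_cm_iff.1 h0).symm ⟨hb, hn⟩)

theorem cm_of_comm {A B : Subgroup G} (hA : A ∈ P) (hB : B ∈ P) {a b : G} (ha : a ∈ A)
    (ha1 : a ≠ 1) (hb : b ∈ B) (hbb : b * b ≠ 1) (hab : a * b = b * a) : Cm A B :=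
  cm_of_norm h hA hB hb hbb (h.norm_of_comm hA ha ha1 hab.symm)

/-- If `b ∈ B`, `b ≠ 1`, normalises `A` then `A ≈ B`. -/
theorem ap_of_norm {A B : Subgroup G} (hA : A ∈ P) (hB : B ∈ P) {b : G} (hb : b ∈ B)
    (hb1 : b ≠ 1) (hn : cj b A = A) : Ap A B := by
  -- pass to an involution
  obtain ⟨n, hn2⟩ := h.two B hB b hb
  obtain ⟨k, hk1, hk2⟩ := two_descend b n hn2 (fun y => y = 1) rfl hb1
  set y := b ^ (2 ^ k) with hy
  have hyB : y ∈ B := B.pow_mem hb _
  have hyn : cj y A = A := cj_pow_eq hn _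
  obtain ⟨v, hv, hv1⟩ := exists_ne_one h hA
  have hw : y * v * y⁻¹ ∈ A := conj_mem_of_cj hyn hv.1
  by_cases h0 : y * v * y⁻¹ = v
  · exact ⟨v, hv.1, y, hyB, hv1, hk1, (eq_comm_iff.2 h0).symm⟩
  · refine ⟨v * (y * v * y⁻¹), A.mul_mem hv.1 hw, y, hyB, ?_, hk1, ?_⟩
    · intro h3
      apply h0
      exact mul_left_cancel (h3.trans hv.2.symm)
    · symm
      rw [eq_comm_iff]
      have h3 : y * (v * (y * v * y⁻¹)) * y⁻¹ = (y * v * y⁻¹) * ((y * y) * v * (y * y)⁻¹) := by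
        simp only [mul_assoc, _root_.mul_inv_rev, _root_.inv_mul_cancel_left]
      rw [h3, hk2]
      simp only [one_mul, inv_one, mul_one]
      exact h.comm A hA _ hw _ hv.1

/-- An element centralising a nontrivial element of `A` and lying in an `Om` of a member `B ≈ A`. -/
theorem om_norm [Finite G] {A B : Subgroup G} (hA : A ∈ P) (hB : B ∈ P) (ha : Ap A B) {b : G}
    (hb : b ∈ Om B) : cj b A = A := by
  obtain ⟨v, hv, hv1⟩ := exists_ne_one h hA
  exact h.norm_of_comm hA hv.1 hv1 (comm_om h hA hB ha hv hb).symm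

/-- Injectivity of `x ↦ [b, x]`: for neighbours `A`, `B`, `b ∈ B` with `b² ≠ 1` commutes with no
nontrivial element of `A`. -/
theorem brak_ne {A B : Subgroup G} (hA : A ∈ P) (hB : B ∈ P) (hn : ¬ Cm A B)
    {x b : G} (hx : x ∈ A) (hx1 : x ≠ 1) (hb : b ∈ B) (hbb : b * b ≠ 1) :
    b * x * b⁻¹ * x⁻¹ ≠ 1 := by
  intro h0
  apply hn
  refine cm_of_comm h hA hB hx hx1 hb hbb ?_
  rw [mul_inv_eq_one, mul_inv_eq_iff_eq_mul] at h0
  exact h0.symm

theorem ncard_Om {C D : Subgroup G} (hC : C ∈ P) (hD : D ∈ P) : (Om C).ncard = (Om D).ncard := by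
  obtain ⟨g, rfl⟩ := h.trans C hC D hD
  have : Om (cj g C) = (fun x => g * x * g⁻¹) '' Om C := by
    ext x
    constructor
    · intro hx
      exact ⟨g⁻¹ * x * g, mem_Om_cj.1 hx, by simp [mul_assoc]⟩
    · rintro ⟨y, hy, rfl⟩
      exact conj_mem_Om_cj hy
  rw [this, Set.ncard_image_of_injective]
  intro x y hxy
  simpa only [_root_.mul_left_inj, _root_.mul_right_inj] using hxy

/-- `Ω₁(C)` as a subgroup. -/
def OmS {C : Subgroup G} (hC : C ∈ P) : Subgroup G where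
  carrier := Om C
  one_mem' := one_mem_Om C
  mul_mem' := fun hx hy => mul_Om h hC hx hy
  inv_mem' := fun {x} hx => by
    rw [inv_Om hx]
    exact hx

/-- Two members are equal if they have the same nontrivial element. -/
theorem eq_of_mem {C D : Subgroup G} (hC : C ∈ P) (hD : D ∈ P) {x : G} (hx : x ∈ C) (hx' : x ∈ D)
    (hx1 : x ≠ 1) : C = D := h.ti C hC D hD x hx hx' hx1

end

end Cfsg.Agent.TIAbelian.CaseBGeo
end
end
end
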